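import Mathlib
import Cfsg.Agent.S5440
import Cfsg.Prelude.Def_Transfer

/-!
# Large Fischer type: the Thompson subgroup and fusion (namespace `H20.FtW`)
-/

set_option autoImplicit false
set_option linter.unusedSectionVars false
open Cfsg BG Subgroup

namespace H20.FtW
universe u
variable {G : Type u} [Group G] [Finite G] {A B T : Subgroup G} {a g x y z : G}

/-- Every element squares to one. -/
def EA (A : Subgroup G) : Prop := ∀ x ∈ A, x * x = 1

theorem EA.comm (h : EA A) (hx : x ∈ A) (hy : y ∈ A) : x * y = y * x := by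
  have i1 : x⁻¹ = x := inv_eq_of_mul_eq_one_right (h x hx)
  have i2 : y⁻¹ = y := inv_eq_of_mul_eq_one_right (h y hy)
  have i3 : (x * y)⁻¹ = x * y := inv_eq_of_mul_eq_one_right (h _ (mul_mem hx hy))
  rw [← i3, mul_inv_rev, i1, i2]

theorem EA.pg (h : EA A) : IsPGroup 2 A := fun x => ⟨1, Subtype.ext (by simpa [pow_two] using h x x.2)⟩

theorem sq_conj (h : y * y = 1) (g : G) : g * y * g⁻¹ * (g * y * g⁻¹) = 1 := by
  rw [show g * y * g⁻¹ * (g * y * g⁻¹) = g * (y * y) * g⁻¹ by group, h]; simp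

theorem EA.cj (h : EA A) (g : G) : EA (BG.cj g A) := fun x hx => by
  obtain ⟨y, hy, rfl⟩ := BG.mem_cj'.1 hx
  exact sq_conj (h y hy) g

theorem EA.cent (h : EA A) (ha : a ∈ A) : A ≤ C_[a] := fun _ hx => mem_cent1.2 (h.comm hx ha)

/-- Elementary abelian subgroups of `P` have order at most `2^11`, and at most one has that order. -/
def Un (P : Subgroup G) : Prop :=
  (∀ B ≤ P, EA B → Nat.card B ≤ 2048) ∧
    ∀ B ≤ P, ∀ C ≤ P, EA B → EA C → Nat.card B = 2048 → Nat.card C = 2048 → B = C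

section
variable {P : Type u} [Group P] {φ : P →* G}

theorem ea_comap (i : Function.Injective φ) (h : EA B) : IsElementaryAbelian 2 (B.comap φ) :=
  ⟨⟨⟨fun x y => Subtype.ext (i (by simpa using h.comm x.2 y.2))⟩⟩, fun x hx => i (by simpa [pow_two] using h _ hx)⟩

theorem ea_map {C : Subgroup P} (h : IsElementaryAbelian 2 C) : EA (C.map φ) := by
  rintro _ ⟨x, hx, rfl⟩
  rw [← map_mul, ← pow_two, h.2 x hx, map_one]

theorem card_comap (i : Function.Injective φ) (l : B ≤ φ.range) : Nat.card (B.comap φ) = Nat.card B := by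
  rw [← card_map_of_injective (K := B.comap φ) i, map_comap_eq_self l]

theorem un_of (i : Function.Injective φ) {C : Subgroup P} (e : maxElementaryAbelianSubgroups 2 P = {C})
    (c : Nat.card C = 2 ^ 11) : Un φ.range := by
  have m : C ∈ maxElementaryAbelianSubgroups 2 P := e.ge rfl
  have k : ∀ B ≤ φ.range, EA B → Nat.card B = 2048 → B.comap φ = C := fun B l h d =>
    e.le ⟨ea_comap i h, fun D hD => (m.2 D hD).trans_eq (by rw [c, card_comap i l, d]; rfl)⟩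
  refine ⟨fun B l h => ?_, fun B l D l' h h' d d' => ?_⟩
  · rw [← card_comap i l]; exact (m.2 _ (ea_comap i h)).trans_eq c
  · rw [← map_comap_eq_self l, ← map_comap_eq_self l', k B l h d, k D l' h' d']
end

theorem th_eq (u : Un T) (l : B ≤ T) (h : EA B) (c : Nat.card B = 2048) : thompsonSubgroupOf 2 T = B := by
  have i := subtype_injective T
  have l' : B ≤ T.subtype.range := by rwa [range_subtype]
  have m : B.comap T.subtype ∈ maxElementaryAbelianSubgroups 2 T := ⟨ea_comap i h, fun D hD => by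
    rw [card_comap i l', c, ← card_map_of_injective i]; exact u.1 _ (map_subtype_le D) (ea_map hD)⟩
  have : maxElementaryAbelianSubgroups 2 T = {B.comap T.subtype} := by
    refine Set.eq_singleton_iff_unique_mem.2 ⟨m, fun D hD => ?_⟩
    have e : D.map T.subtype = B := u.2 _ (map_subtype_le D) _ l (ea_map hD.1) h (by
      rw [card_map_of_injective i, ← c, ← card_comap i l']
      exact le_antisymm (m.2 _ hD.1) (hD.2 _ m.1)) c
    rw [← e, comap_map_eq_self_of_injective i]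
  rw [thompsonSubgroupOf, thompsonSubgroup, this, sSup_singleton, map_comap_eq_self l']

theorem un_all (s : IsSylowIn 2 T ⊤) (u : Un T) (P : Subgroup G) (p : IsPGroup 2 P) : Un P := by
  obtain ⟨g, -, l⟩ := sylow_Jsub Nat.prime_two s p le_top
  refine ⟨fun B k h => ?_, fun B k C k' h h' c c' => BG.cj_inj.1 (u.2 _ ((BG.cj_mono g k).trans l) _
    ((BG.cj_mono g k').trans l) (h.cj g) (h'.cj g) ((BG.card_cj _ _).trans c) ((BG.card_cj _ _).trans c'))⟩
  rw [← BG.card_cj g B]; exact u.1 _ ((BG.cj_mono g k).trans l) (h.cj g)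

theorem fus (u : ∀ P : Subgroup G, IsPGroup 2 P → Un P) (h : EA A) (c : Nat.card A = 2048) (ha : a ∈ A)
    (hg : g * a * g⁻¹ ∈ A) : ∃ m ∈ N_(A), m * a * m⁻¹ = g * a * g⁻¹ := by
  obtain ⟨S, s, l⟩ := sylow_superset Nat.prime_two h.pg (h.cent ha)
  have h' := h.cj g⁻¹
  obtain ⟨k, kc, l'⟩ := sylow_Jsub Nat.prime_two s h'.pg (h'.cent (BG.mem_cj_inv.2 hg))
  have e := (u S (s.pg Nat.prime_two)).2 _ l' _ l (h'.cj k) h (by rw [BG.card_cj, BG.card_cj, c]) c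
  rw [BG.cj_cj] at e
  refine ⟨_, inv_mem (BG.cj_eq_self_iff.1 e), ?_⟩
  have : k⁻¹ * a * k = a := by rw [mul_assoc, ← mem_cent1.1 kc]; group
  rw [show (k * g⁻¹)⁻¹ * a * (k * g⁻¹)⁻¹⁻¹ = g * (k⁻¹ * a * k) * g⁻¹ by group, this]

theorem core {Q A0 : Subgroup G} (u : ∀ P : Subgroup G, IsPGroup 2 P → Un P) (z1 : z ≠ 1) {s t w : G}
    (st : ∀ x ∈ Q, x * x = 1 → x ≠ 1 → x ≠ z → IsConj s x ∨ IsConj t x) (wQ : w ∈ Q) (wz : w ≠ z) (zw : IsConj z w)
    (e : EA A0) (c : Nat.card A0 = 2048) (zA : z ∈ A0) (cov : ∀ x ∈ A0, ∃ g, g * x * g⁻¹ ∈ Q)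
    (nz : ∃ x ∈ A0, x ≠ 1 ∧ ¬ IsConj z x) (hT : IsSylowIn 2 T ⊤) (hA : A = thompsonSubgroupOf 2 T) :
    (∀ a ∈ A, ∀ g : G, g * a * g⁻¹ ∈ A → ∃ m ∈ N_(A), m * a * m⁻¹ = g * a * g⁻¹) ∧ (∃ a ∈ A, a ≠ 1 ∧ IsConj z a) ∧
      (∃ a ∈ A, a ≠ 1 ∧ ¬ IsConj z a) ∧
      ∀ a ∈ A, ∀ b ∈ A, a ≠ 1 → b ≠ 1 → (IsConj z a ↔ IsConj z b) → ∃ m ∈ N_(A), m * a * m⁻¹ = b := by
  obtain ⟨g, -, l⟩ := sylow_Jsub Nat.prime_two hT e.pg le_top
  have c' := (BG.card_cj g A0).trans c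
  have e' := e.cj g
  rw [th_eq (u T (hT.pg Nat.prime_two)) l e' c'] at hA
  subst hA
  have cc : ∀ x k : G, IsConj x (k * x * k⁻¹) := fun x k => isConj_iff.2 ⟨k, rfl⟩
  refine ⟨fun a ha k hk => fus u e' c' ha hk, ⟨_, BG.conj_mem_cj g zA, mt conj_eq_one_iff.1 z1, cc z g⟩, ?_,
    fun a ha b hb a1 b1 i => ?_⟩
  · obtain ⟨x, hx, x1, n⟩ := nz
    exact ⟨_, BG.conj_mem_cj g hx, mt conj_eq_one_iff.1 x1, fun k => n (k.trans (cc x g).symm)⟩
  suffices IsConj a b by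
    obtain ⟨k, rfl⟩ := isConj_iff.1 this
    exact fus u e' c' ha hb
  by_cases n : IsConj z a
  · exact n.symm.trans (i.1 n)
  have key : ∀ a ∈ BG.cj g A0, a ≠ 1 → ¬ IsConj z a → IsConj s a ∨ IsConj t a := fun a ha a1 n => by
    obtain ⟨y, hy, rfl⟩ := BG.mem_cj'.1 ha
    obtain ⟨k, hk⟩ := cov y hy
    have j := (cc y k).symm.trans (cc y g)
    exact (st _ hk (sq_conj (e y hy) k) (mt conj_eq_one_iff.1 (mt conj_eq_one_iff.2 a1)) fun q => n (q ▸ j)).imp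
      (·.trans j) (·.trans j)
  obtain ⟨k, rfl⟩ := isConj_iff.1 zw
  have n' := mt i.2 n
  rcases st _ wQ (sq_conj (e z zA) k) (mt conj_eq_one_iff.1 z1) wz with q | q
  · exact ((key a ha a1 n).resolve_left fun r => n (zw.trans (q.symm.trans r))).symm.trans
      ((key b hb b1 n').resolve_left fun r => n' (zw.trans (q.symm.trans r)))
  · exact ((key a ha a1 n).resolve_right fun r => n (zw.trans (q.symm.trans r))).symm.trans
      ((key b hb b1 n').resolve_right fun r => n' (zw.trans (q.symm.trans r)))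

theorem wrap {G : Type*} [Group G] [Finite G] (z : G) (Q : Subgroup (Subgroup.centralizer ({z} : Set G))) [Q.Normal]
    (hF : Cfsg.IsOfLargeFischerTypeAt z Q)
    (U : ∀ T : Sylow 2 ↥(Subgroup.centralizer ({z} : Set G)), ∃ A : Subgroup ↥(T : Subgroup (Subgroup.centralizer ({z} : Set G))), Cfsg.maxElementaryAbelianSubgroups 2 ↥(T : Subgroup (Subgroup.centralizer ({z} : Set G))) = {A} ∧ Nat.card A = 2 ^ 11 ∧ Nat.card ↥(A.map (T : Subgroup (Subgroup.centralizer ({z} : Set G))).subtype ⊓ Q) = 2 ^ 7 ∧ Nat.card ↥((A.map (T : Subgroup (Subgroup.centralizer ({z} : Set G))).subtype).map (QuotientGroup.mk' Q)) = 16)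
    (A0 : Subgroup G) (_l : A0 ≤ Subgroup.centralizer ({z} : Set G)) (e : ∀ x ∈ A0, x * x = 1) (c : Nat.card A0 = 2048)
    (zA : z ∈ A0) (cov : ∀ x ∈ A0, ∃ g, g * x * g⁻¹ ∈ Q.map (Subgroup.centralizer ({z} : Set G)).subtype)
    (nz : ∃ x ∈ A0, x ≠ 1 ∧ ¬ IsConj z x)
    (T : Sylow 2 G) (A M : Subgroup G) (hA : A = Cfsg.thompsonSubgroupOf 2 (T : Subgroup G))
    (hM : M = Subgroup.normalizer (A : Set G)) :
    (∀ a ∈ A, ∀ g : G, g * a * g⁻¹ ∈ A → ∃ m ∈ M, m * a * m⁻¹ = g * a * g⁻¹) ∧ (∃ a ∈ A, a ≠ 1 ∧ IsConj z a) ∧ (∃ a ∈ A, a ≠ 1 ∧ ¬ IsConj z a) ∧ ∀ a ∈ A, ∀ b ∈ A, a ≠ 1 → b ≠ 1 → (IsConj z a ↔ IsConj z b) → ∃ m ∈ M, m * a * m⁻¹ = b := by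
  subst hM
  obtain ⟨V, _, _, _, π, ν, T', d, M, β, q, b⟩ := H01.XF.br hF
  have lx := b.md.lx
  obtain ⟨s, t, -, -, -, -, -, -, -, st⟩ := Cfsg.Agent.S5440.result z Q hF
  obtain ⟨g, ⟨m, i⟩, n⟩ := hF.1.2.2.2.2
  obtain ⟨T0⟩ : Nonempty (Sylow 2 C_[z]) := inferInstance
  obtain ⟨C, eC, cC, -⟩ := U T0
  have u0 := un_of (φ := C_[z].subtype.comp (T0 : Subgroup C_[z]).subtype)
    ((subtype_injective _).comp (subtype_injective _)) eC cC
  rw [MonoidHom.range_comp, range_subtype] at u0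
  have s0 := (isSylowIn_map Nat.prime_two T0).trans_idx (M := ⊤) le_top (by rw [relIndex_top_right]; exact lx.odd)
  refine core (Q := Q.map C_[z].subtype) (s := s) (t := t) (un_all s0 u0) lx.z1 ?_ ⟨_, i, rfl⟩ n (isConj_iff.2 ⟨g, rfl⟩) e c zA cov nz
    (isSylowIn_top Nat.prime_two T) hA
  rintro _ ⟨x, hx, rfl⟩ x2 x1 xz
  have o : orderOf x = 2 := orderOf_eq_prime (Subtype.ext ((pow_two x.1).trans x2)) fun e => x1 (congrArg Subtype.val e)
  exact (st x hx o xz).imp (fun ⟨k, e⟩ => isConj_iff.2 ⟨k, congrArg Subtype.val e⟩)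
    fun ⟨k, e⟩ => isConj_iff.2 ⟨k, congrArg Subtype.val e⟩

end H20.FtW
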