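import Mathlib
import Cfsg.Agent.H01.XH0
import Cfsg.Agent.H18.Fa

/-!
# Groups of large Fischer type: the elementary abelian group `2¹¹` (namespace `H20.XhE`)

`ea`: the centralizer of the preimage of the hexacode subspace is elementary abelian of order `2¹¹`.
-/

set_option autoImplicit false
set_option linter.unusedSectionVars false
open Cfsg BG Subgroup H01.XS H01.XF
open H01.XT hiding Hy QS

namespace H20.XhE
universe u
variable {G : Type u} [Group G] [Finite G] {z a : G} {Q Q' : Subgroup G}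
  {V : Type u} [AddCommGroup V] [Module (ZMod 2) V] [Finite V] {Γ : Type u} [Group Γ] [Finite Γ]
  {T : Γ → V →+ V} {d : Γ} {M S Y : Subgroup Γ} {β : V →+ V →+ ZMod 2} {q : V → ZMod 2} {ν : G → V}
  {f : C_[z] →* Γ} {π : G → Γ} {L B : AddSubgroup V}

theorem cnt (s : Br z Q f π ν T d M β q) {U : Subgroup G} (l : U ≤ C_[z]) :
    Nat.card ↥(Q ⊓ U) * Nat.card ((U.subgroupOf C_[z]).map f) = Nat.card U := by
  have a1 := card_inf_mul_relIndex f.ker (U.subgroupOf C_[z])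
  rwa [relIndex_ker, show f.ker ⊓ U.subgroupOf C_[z] = (Q ⊓ U).subgroupOf C_[z] from Subgroup.ext fun x =>
    ⟨fun i => ⟨(s.ker _ x.2).1 ((s.pf x).symm.trans i.1), i.2⟩, fun i => ⟨(s.pf x).trans ((s.ker _ x.2).2 i.1), i.2⟩⟩,
    Nat.card_congr (subgroupOfEquivOfLe (inf_le_right.trans l)).toEquiv,
    Nat.card_congr (subgroupOfEquivOfLe l).toEquiv] at a1

theorem exδ (s : Br z Q f π ν T d M β q) : ∃ δ ∈ C_[z], π δ = d ∧ δ ^ 3 = 1 := by
  obtain ⟨g, i, e⟩ := s.sur d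
  have l := s.md.lx
  have e3 : π (g * (g * g)) = 1 := by rw [s.mul _ i _ (mul_mem i i), s.mul _ i _ i, e, s.gm.d3]
  have m := (s.ker _ (mul_mem i (mul_mem i i))).1 e3
  refine ⟨g * (g * g) * g, mul_mem (mul_mem i (mul_mem i i)) i, by rw [s.mul _ (mul_mem i (mul_mem i i)) _ i, e3, e, one_mul], ?_⟩
  rw [show (g * (g * g) * g) ^ 3 = (g * (g * g)) ^ 2 * (g * (g * g)) ^ 2 by simp only [pow_succ, pow_zero, one_mul, mul_assoc]]
  rcases l.sq m with k | k <;> rw [k]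
  exacts [one_mul _, l.zz]

theorem cm_of {A : Subgroup G} {w : G} (w2 : w * w = 1) (sq : ∀ x ∈ A, x * x = 1 ∨ x * x = w) {x y : G} (i : x ∈ A) (j : y ∈ A) :
    x * y = y * x ∨ x * y = w * y * x := by
  have e : x * y = (x * x) * (x⁻¹ * y * (x⁻¹ * y)) * (y⁻¹ * y⁻¹) * y * x := by group
  rcases sq x i with a | a <;> rcases sq _ (mul_mem (inv_mem i) j) with b | b <;> rcases sq _ (inv_mem j) with c | c <;>
    rw [a, b, c] at e <;> simp only [e, w2, one_mul, mul_one, true_or, or_true]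

theorem ea (s : Br z Q f π ν T d M β q) (p : H03.PP Q z Q' a) (c' : Nat.card Q' = 8192)
    (k : Pk T d M β q (ν a) (s.md.push Q') S L B Y) :
    (∀ x ∈ C_(s.md.pull B), x * x = 1) ∧ Nat.card C_(s.md.pull B) = 2048 ∧ C_(s.md.pull B) ⊓ Q = s.md.pull B ∧
      (C_(s.md.pull B).subgroupOf C_[z]).map f = Y := by
  have h := s.hy p c'
  have l := s.md.lx
  have l' := lx_of p.h'
  have βB : ∀ u ∈ B, ∀ v ∈ B, β u v = 0 := fun u i v j => by
    have := h.pol u v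
    rw [k.qB _ (add_mem i j), k.qB u i, k.qB v j, zero_add, zero_add] at this
    exact this.symm
  have mB : ∀ {W : AddSubgroup V} {x : G}, x ∈ s.md.pull W ↔ x ∈ Q ∧ ν x ∈ W := Iff.rfl
  have zL : ∀ W : AddSubgroup V, z ∈ s.md.pull W := fun W => mB.2 ⟨l.aes.mem, s.md.zz ▸ zero_mem W⟩
  have LB : s.md.pull L ≤ s.md.pull B := fun x i => mB.2 ⟨i.1, k.LB i.2⟩
  have BA : s.md.pull B ≤ C_(s.md.pull B) := fun x i => mem_cent.2 fun y j => ((s.b y j.1 x i.1).1 (βB _ j.2 _ i.2)).eq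
  have AQ : C_(s.md.pull B) ⊓ Q = s.md.pull B := le_antisymm (fun x i => mB.2 ⟨i.2, h.perp βB (by rw [k.cB]; norm_num)
    fun u j => by
      obtain ⟨y, o, rfl⟩ := s.md.sur u
      exact (s.b x i.2 y o).2 (show Commute y x from mem_cent.1 i.1 y (mB.2 ⟨o, j⟩)).symm⟩) fun x i => ⟨BA i, i.1⟩
  have cL : ∀ g ∈ C_(s.md.pull L), g ∈ C_[z] ∧ π g ∈ Y := fun g i => by
    have j := cent_le_cent1 (zL L) i
    refine ⟨j, (k.mY _).2 fun v o => ?_⟩
    obtain ⟨y, o', rfl⟩ := s.md.sur v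
    rw [s.act g j y o', ← mem_cent.1 i y (mB.2 ⟨o', o⟩), mul_inv_cancel_right]
  have AL : C_(s.md.pull B) ≤ C_(s.md.pull L) := centralizer_le LB
  have Az : C_(s.md.pull B) ≤ C_[z] := fun g i => (cL g (AL i)).1
  have yb : ∀ g ∈ C_[z], π g ∈ Y → ∀ b ∈ s.md.pull B, g * b * g⁻¹ = b ∨ g * b * g⁻¹ = z * b := fun g i j b o =>
    s.md.eq (l.cE i o.1) o.1 ((s.act g i b o.1).symm.trans (k.YB _ j _ o.2))
  obtain ⟨δ, δz, δd, δ3⟩ := exδ s
  have lift : ∀ y ∈ Y, ∃ c ∈ C_(s.md.pull B), c ∈ C_[δ] ∧ π c = y := fun y i => by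
    obtain ⟨c, j, rfl⟩ := H18.Fa.su s h δz δd δ3 y (k.YM i)
    refine ⟨c, mem_cent.2 fun b o => ?_, j.2, rfl⟩
    obtain ⟨r, rQ, er⟩ := s.md.sur (T d (ν b))
    have rB : r ∈ s.md.pull B := mB.2 ⟨rQ, er ▸ k.Bω _ o.2⟩
    have r2 := l.cE δz rQ
    have e1 : ν b = ν (r * (δ * r * δ⁻¹)) := by
      rw [s.md.mul _ rQ _ r2, ← s.act δ δz r rQ, δd, er, h.ω2]; exact lc0
    have cδ : c * δ = δ * c := mem_cent1.1 j.2
    have cz : c * z = z * c := mem_cent1.1 j.1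
    have e2 : c * (r * (δ * r * δ⁻¹)) * c⁻¹ = r * (δ * r * δ⁻¹) := by
      rw [show c * (r * (δ * r * δ⁻¹)) * c⁻¹ = c * r * c⁻¹ * ((c * δ) * r * (c * δ)⁻¹) by group, cδ,
        show δ * c * r * (δ * c)⁻¹ = δ * (c * r * c⁻¹) * δ⁻¹ by group]
      rcases yb c j.1 i r rB with e | e <;> rw [e]
      rw [← mul_assoc δ, mem_cent1.1 δz, mul_assoc z δ, mul_assoc z (δ * r), ← mul_assoc (z * r), mul_assoc z r,
        mem_cent1.1 (l.le rQ), ← mul_assoc z, l.zz, one_mul]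
    have e3 := mul_inv_eq_iff_eq_mul.1 e2
    rcases s.md.eq o.1 (mul_mem rQ r2) e1 with e | e <;> rw [e]
    · exact e3.symm
    · rw [mul_assoc z, ← e3, ← mul_assoc, ← cz, mul_assoc]
  have mf : ∀ {U : Subgroup G} {y : Γ}, U ≤ C_[z] → (y ∈ (U.subgroupOf C_[z]).map f ↔ ∃ x ∈ U, π x = y) := fun l0 =>
    ⟨fun ⟨x, i, e⟩ => ⟨x, i, (s.pf x).symm.trans e⟩, fun ⟨x, i, e⟩ => ⟨⟨x, l0 i⟩, i, (s.pf _).trans e⟩⟩
  have eY : (C_(s.md.pull B).subgroupOf C_[z]).map f = Y := Subgroup.ext fun y => (mf Az).trans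
    ⟨by rintro ⟨x, i, rfl⟩; exact (cL x (AL i)).2, fun i => (lift y i).imp fun c j => ⟨j.1, j.2.2⟩⟩
  have cA : Nat.card C_(s.md.pull B) = 2048 := by
    rw [← cnt s Az, eY, inf_comm, AQ, s.md.card_pull, k.cB, k.cY]
  refine ⟨?_, cA, AQ, eY⟩
  have sq : ∀ x ∈ C_(s.md.pull B), x * x = 1 ∨ x * x = z := fun x i => by
    obtain ⟨c, j, j', e⟩ := lift _ (cL x (AL i)).2
    have b : x * c⁻¹ ∈ s.md.pull B := AQ.le (mem_inf.2 ⟨mul_mem i (inv_mem j), (s.ker _ (mul_mem (Az i) (inv_mem (Az j)))).1 (by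
      rw [s.mul _ (Az i) _ (inv_mem (Az j)), s.inv _ (Az j), e, mul_inv_cancel])⟩)
    have e1 : x * x = x * c⁻¹ * (x * c⁻¹) * (c * c) := by
      rw [show x * c⁻¹ * (x * c⁻¹) * (c * c) = x * c⁻¹ * (x * c⁻¹ * c) * c by group, mem_cent.1 j _ b]; group
    rw [e1, (s.sq _ b.1).1 (k.qB _ b.2), one_mul]
    exact H18.Fa.cq s h δz δd ((s.ker _ (mul_mem (Az j) (Az j))).1 (by
      rw [s.mul _ (Az j) _ (Az j)]; exact k.Y2 _ (cL c (AL j)).2)) (mul_mem j' j')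
  obtain ⟨x, xQ, ex⟩ := p.h'.lx.exists_conj p.hz l.zz p.symm.notMem
  have aL : a ∈ s.md.pull L := mB.2 ⟨p.hs, k.aL⟩
  have nL : ∀ g ∈ Q', ∀ y ∈ s.md.pull L, g * y * g⁻¹ ∈ s.md.pull L := fun g i y j => by
    rcases l'.cm i ((s.md.mem_push p.hz j.1).1 (k.LR j.2)) with e | e <;> rw [e, mul_inv_cancel_right]
    exacts [j, mul_mem aL j]
  have m2 : ∀ {g : G}, g ∈ BG.cj x C_(s.md.pull B) ↔ x⁻¹ * g * x ∈ C_(s.md.pull B) := BG.mem_cj
  have L2 : s.md.pull L ≤ BG.cj x C_(s.md.pull B) := fun y i => m2.2 (BA (LB (by simpa using nL _ (inv_mem xQ) y i)))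
  have c2 : BG.cj x C_(s.md.pull B) ≤ C_(s.md.pull L) := fun g i => mem_cent.2 fun y j => by
    have := mem_cent.1 (m2.1 i) _ (LB (nL _ (inv_mem xQ) y j))
    rw [show y * g = x * (x⁻¹ * y * x⁻¹⁻¹ * (x⁻¹ * g * x)) * x⁻¹ by group, this]; group
  have z2 : BG.cj x C_(s.md.pull B) ≤ C_[z] := fun g i => (cL g (c2 i)).1
  have sq2 : ∀ g ∈ BG.cj x C_(s.md.pull B), g * g = 1 ∨ g * g = z * a := fun g i => by
    have e : g * g = x * (x⁻¹ * g * x * (x⁻¹ * g * x)) * x⁻¹ := by group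
    rcases sq _ (m2.1 i) with o | o <;> rw [o] at e
    exacts [.inl (by simpa using e), .inr (e.trans ex)]
  have za : z * a * (z * a) = 1 := by rw [← ex, conj_mul, l.zz]; simp
  have k2 : Nat.card (BG.cj x C_(s.md.pull B)) = 2048 := (BG.card_cj _ _).trans cA
  generalize BG.cj x C_(s.md.pull B) = D at L2 c2 z2 sq2 k2
  have cm : ∀ {u v : G}, u ∈ D → v ∈ D → u * v = z * v * u → u * v = v * u := fun i j e =>
    (cm_of za sq2 i j).resolve_right fun e' => l'.z1 (by simpa using e.symm.trans e')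
  have iso : ∀ u ∈ s.md.push D, ∀ v ∈ s.md.push D, β u v = 0 := by
    rintro _ ⟨u, i, i', rfl⟩ _ ⟨v, j, j', rfl⟩
    exact (s.b u i v j).2 ((l.cm i j).elim id (cm i' j'))
  have DY : (D.subgroupOf C_[z]).map f ≤ Y := fun y i => by
    obtain ⟨g, j, rfl⟩ := (mf z2).1 i
    exact (cL g (c2 j)).2
  have a1 := cnt s z2
  rw [s.md.card_push (L2 (zL L)), k2] at a1
  have a2 := h.iso64 iso
  have a3 := card_le_of_le DY
  rw [k.cY] at a3
  have a4 : 64 ≤ Nat.card (s.md.push D) := by nlinarith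
  have a5 : (D.subgroupOf C_[z]).map f = Y := Subgroup.eq_of_le_of_card_ge DY (by rw [k.cY]; nlinarith)
  have eB : s.md.push D = B := k.ud _ iso a4 (fun v i => by
      obtain ⟨y, o, rfl⟩ := s.md.sur v
      exact ⟨y, o, L2 (mB.2 ⟨o, i⟩), rfl⟩) (by
    rintro y i _ ⟨v, j, j', rfl⟩
    obtain ⟨g, o, rfl⟩ := (mf z2).1 (a5.ge i)
    rw [s.act g (z2 o) v j]
    rcases cm_of za sq2 o j' with e | e <;> rw [e, mul_inv_cancel_right]
    · exact .inl rfl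
    · exact .inr (by rw [mul_assoc, s.md.zm (mul_mem p.hs j), s.md.mul _ p.hs _ j, add_comm]))
  have DA : D ≤ C_(s.md.pull B) := fun g i => mem_cent.2 fun b j => by
    have bD : b ∈ D := (s.md.mem_push (L2 (zL L)) j.1).1 (eB.ge j.2)
    rcases yb g (z2 i) (cL g (c2 i)).2 b j with e | e
    · exact (mul_inv_eq_iff_eq_mul.1 e).symm
    · exact (cm i bD (mul_inv_eq_iff_eq_mul.1 e)).symm
  have eD : D = C_(s.md.pull B) := Subgroup.eq_of_le_of_card_ge DA (by rw [k2, cA])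
  intro g i
  exact (sq g i).elim id fun e => (sq2 g (eD.ge i)).elim id fun e' => absurd (by simpa using e.symm.trans e') l'.z1

end H20.XhE
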