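import Cfsg.Agent.H23.K0
import Cfsg.Agent.H20.JE

/-! Part W of S5567: a complement to `A` in `N(A) ∩ C(z)`. -/

set_option autoImplicit false
set_option linter.unusedSectionVars false
open Cfsg BG Subgroup H01.XS Cfsg.Agent.H06.J Cfsg.Agent.H23.K H20.JE
open H01.XT hiding Hy QS

namespace H20.KW
universe u
variable {G : Type u} [Group G] [Finite G] {z : G} {Q : Subgroup G}
  {V : Type u} [AddCommGroup V] [Module (ZMod 2) V] [Finite V] {Γ : Type u} [Group Γ] [Finite Γ]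
  {T : Γ → V →+ V} {d : Γ} {M K Y : Subgroup Γ} {β : V →+ V →+ ZMod 2} {q : V → ZMod 2} {ν : G → V}
  {f : C_[z] →* Γ} {π : G → Γ} {B : AddSubgroup V}

theorem cj3 (s : Bj z Q f π ν T d M β q) {δ ε : G} (i : δ ∈ C_[z]) (e : π δ = d) (o : δ ^ 3 = 1)
    (i' : ε ∈ C_[z]) (e' : π ε = d) (o' : ε ^ 3 = 1) : ∃ r ∈ Q, r * δ * r⁻¹ = ε := by
  have l := s.md.lx
  have c1 : ε * δ⁻¹ ∈ Q := (s.ker _ (mul_mem i' (inv_mem i))).1 (by
    rw [mul s _ i' _ (inv_mem i), inv s _ i, e, e', mul_inv_cancel])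
  obtain ⟨r, rQ, er⟩ := s.md.sur (T d (ν (ε * δ⁻¹)))
  have c2 : δ * r⁻¹ * δ⁻¹ ∈ Q := l.cE i (inv_mem rQ)
  have c3 : ν (r * (δ * r⁻¹ * δ⁻¹)) = ν (ε * δ⁻¹) := by
    rw [s.md.mul _ rQ _ c2, ← s.act δ i _ (inv_mem rQ), s.md.inv rQ, er, e, ω2 s]; exact lc0
  refine ⟨r, rQ, ?_⟩
  rcases s.md.eq (mul_mem rQ c2) c1 c3 with c | c
  · exact mul_right_cancel (b := δ⁻¹) (by rw [← c]; group)
  · exfalso
    have c5 : r * δ * r⁻¹ = z * ε := mul_right_cancel (b := δ⁻¹) (by rw [mul_assoc z, ← c]; group)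
    have c6 : Commute z ε := (mem_cent1.1 i').symm
    have c7 := congrArg (· ^ 3) c5
    simp only [conj_pow, c6.mul_pow, o, o', mul_one, mul_inv_cancel] at c7
    rw [pow_three, l.zz, mul_one] at c7
    exact l.z1 c7.symm

theorem d1 (s : Bj z Q f π ν T d M β q) : d ≠ 1 := fun e => by
  have : Subsingleton V := ⟨fun a b => by
    have a1 := s.gm.hf a
    have a2 := s.gm.hf b
    simp only [e, s.gm.one] at a1 a2
    exact (lc a1 : a = 0).trans (lc a2 : b = 0).symm⟩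
  have := s.gm.card
  rw [Nat.card_of_subsingleton (0 : V)] at this; omega

theorem w : WStmt.{u} := by
  intro G _ _ z Q V _ _ _ Γ _ _ f π ν T d M β q s K Y B A δ c c2 I L B' g sq
  have h := s.gm
  have l := s.md.lx
  have δz := c.δz
  have pc : ∀ h ∈ C_[z], ∀ x ∈ C_[z], π (h * x * h⁻¹) = π h * π x * (π h)⁻¹ := fun h hi x xi => by
    rw [mul s _ (mul_mem hi xi) _ (inv_mem hi), mul s _ hi _ xi, inv s _ hi]
  have pp : ∀ x ∈ C_[z], ∀ n : ℕ, π (x ^ n) = π x ^ n := fun x i n =>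
    (s.pf (⟨x, i⟩ ^ n)).symm.trans ((map_pow f _ _).trans (by rw [s.pf]))
  have p1 : π 1 = 1 := (s.ker 1 (one_mem _)).2 (one_mem _)
  have di : d⁻¹ = d * d := inv_eq_of_mul_eq_one_right h.d3
  let Lh : Subgroup G :=
    { carrier := {x | x ∈ C_[z] ∧ π x ∈ L ∧ (x * δ * x⁻¹ = δ ∨ x * δ * x⁻¹ = δ⁻¹)}
      one_mem' := ⟨one_mem _, p1 ▸ one_mem _, .inl (by simp)⟩
      mul_mem' := fun {a b} i j => ⟨mul_mem i.1 j.1, by rw [mul s _ i.1 _ j.1]; exact mul_mem i.2.1 j.2.1, by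
        rw [show a * b * δ * (a * b)⁻¹ = a * (b * δ * b⁻¹) * a⁻¹ by group]
        rcases j.2.2 with e | e <;> rw [e]
        · exact i.2.2
        · rw [← conj_inv]; rcases i.2.2 with e | e <;> simp [e]⟩
      inv_mem' := fun {a} i => ⟨inv_mem i.1, by rw [inv s _ i.1]; exact inv_mem i.2.1, i.2.2.imp
        (fun e => (congrArg (fun t => a⁻¹ * t * a⁻¹⁻¹) e.symm).trans (by group))
        fun e => (congrArg (fun t => a⁻¹ * t * a⁻¹⁻¹) (show δ = (a * δ * a⁻¹)⁻¹ by rw [e, inv_inv])).trans (by group)⟩ }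
  have mL : ∀ {x}, x ∈ Lh ↔ x ∈ C_[z] ∧ π x ∈ L ∧ (x * δ * x⁻¹ = δ ∨ x * δ * x⁻¹ = δ⁻¹) := Iff.rfl
  have Lz : Lh ≤ C_[z] := fun x i => i.1
  have zL : z ∈ Lh := mL.2 ⟨mem_cent1_self z, by rw [(s.ker z (mem_cent1_self z)).2 l.aes.mem]; exact one_mem _,
    .inl (mul_inv_eq_iff_eq_mul.2 (mem_cent1.1 δz).symm)⟩
  have iM : ∀ x ∈ Lh, π x ∈ M → x ∈ C_[δ] := fun x i j => mem_cent1.2 (mul_inv_eq_iff_eq_mul.1 (i.2.2.resolve_right fun e => by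
    have := pc x i.1 δ δz
    rw [e, inv s _ δz, c.δd, h.Md _ j, mul_inv_cancel_right, di] at this
    exact d1 s (by simpa using this)))
  have QL : ∀ x ∈ Lh, x ∈ Q → x = 1 ∨ x = z := fun x i j =>
    cq s δz c.δd j (iM x i (by rw [(s.ker x i.1).2 j]; exact one_mem _))
  have lf : ∀ y ∈ L, y ∈ M → ∃ x ∈ Lh ⊓ C_[δ], π x = y := fun y i j => by
    obtain ⟨x, k, rfl⟩ := su s δz c.δd c.δ3 y j
    exact ⟨x, ⟨mL.2 ⟨k.1, i, .inl (mul_inv_eq_iff_eq_mul.2 (mem_cent1.1 k.2))⟩, k.2⟩, rfl⟩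
  have LN : ∀ x ∈ C_[z], π x ∈ L → x ∈ N_(A) := fun x i j => (c2.mN x i).2 (g.sB _ j)
  obtain ⟨l0, l1, l2, l3⟩ := g.ou
  obtain ⟨t, tz, tl, tδ⟩ : ∃ t ∈ C_[z], π t = l0 ∧ t * δ * t⁻¹ = δ⁻¹ := by
    obtain ⟨a, i, rfl⟩ := s.sur l0
    obtain ⟨r, rQ, e⟩ := cj3 s δz c.δd c.δ3 (mul_mem (mul_mem i (inv_mem δz)) (inv_mem i)) (by
      rw [pc a i _ (inv_mem δz), inv s _ δz, c.δd, ← conj_inv, h.nM _ l2, mul_inv_cancel_right, ← di, inv_inv])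
      (by rw [conj_pow, inv_pow, c.δ3]; simp)
    refine ⟨r⁻¹ * a, mul_mem (inv_mem (l.le rQ)) i, by
      rw [mul s _ (inv_mem (l.le rQ)) _ i, (s.ker _ (inv_mem (l.le rQ))).2 (inv_mem rQ), one_mul], ?_⟩
    rw [show r⁻¹ * a * δ * (r⁻¹ * a)⁻¹ = r⁻¹ * (a * δ⁻¹ * a⁻¹)⁻¹ * r by group, ← e]; group
  subst tl
  have tL : t ∈ Lh := mL.2 ⟨tz, l1, .inr tδ⟩
  have cz2 : Nat.card (zpowers z) = 2 := by rw [Nat.card_zpowers, l.aes.ord]
  have qz : ∀ U ≤ Lh, z ∈ U → Q ⊓ U = zpowers z := fun U a b => le_antisymm (fun x i => by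
    rcases QL x (a i.2) i.1 with rfl | rfl
    exacts [one_mem _, mem_zpowers _]) (zpowers_le.2 ⟨l.aes.mem, b⟩)
  have mf : ∀ {U : Subgroup G} {y : Γ}, U ≤ C_[z] → (y ∈ (U.subgroupOf C_[z]).map f ↔ ∃ x ∈ U, π x = y) := fun l0 =>
    ⟨fun ⟨x, i, e⟩ => ⟨x, i, (s.pf x).symm.trans e⟩, fun ⟨x, i, e⟩ => ⟨⟨x, l0 i⟩, i, (s.pf _).trans e⟩⟩
  have cL : Nat.card Lh = 4320 := by
    rw [← cnt s Lz, qz _ le_rfl zL, cz2, show (Lh.subgroupOf C_[z]).map f = L from Subgroup.ext fun y => (mf Lz).trans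
      ⟨by rintro ⟨x, i, rfl⟩; exact i.2.1, fun i => by
        by_cases j : y ∈ M
        · exact (lf y i j).imp fun x k => ⟨k.1.1, k.2⟩
        · obtain ⟨x, k, e⟩ := lf _ (mul_mem i l1) ((mul_mem_iff_of_index_two h.Mi).2 (iff_of_false j l2))
          exact ⟨x * t, mul_mem k.1 tL, by rw [mul s _ k.1.1 _ tz, e, mul_assoc, l3, mul_one]⟩⟩, g.cL]
  have Xz : Lh ⊓ C_[δ] ≤ C_[z] := inf_le_left.trans Lz
  have XM : ∀ x ∈ Lh ⊓ C_[δ], π x ∈ M := fun x i => by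
    by_contra n
    have := h.nM _ n
    rw [← c.δd, ← mul s _ (Xz i) _ δz, mem_cent1.1 i.2, mul s _ δz _ (Xz i), c.δd] at this
    exact d1 s (by simpa using this)
  have zX : z ∈ Lh ⊓ C_[δ] := ⟨zL, mem_cent1_comm.1 δz⟩
  have cX : Nat.card ↥(Lh ⊓ C_[δ]) = 2160 := by
    have a1 := card_inf_mul_relIndex M L
    have a2 : M.relIndex L = 2 := by
      have := normal_of_index_eq_two h.Mi
      exact ((Nat.dvd_prime Nat.prime_two).1 (h.Mi ▸ relIndex_dvd_index_of_normal M L)).resolve_left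
        fun e => l2 (relIndex_eq_one.1 e l1)
    rw [a2, g.cL] at a1
    rw [← cnt s Xz, qz _ inf_le_left zX, cz2, show ((Lh ⊓ C_[δ]).subgroupOf C_[z]).map f = M ⊓ L from
      Subgroup.ext fun y => (mf Xz).trans ⟨by rintro ⟨x, i, rfl⟩; exact ⟨XM x i, i.1.2.1⟩, fun i => lf y i.2 i.1⟩]
    omega
  obtain ⟨φ, φs, φk⟩ := c.hk.ph
  have XK : ∀ x : ↥(Lh ⊓ C_[δ]), f (inclusion Xz x) ∈ K := fun x => by
    rw [s.pf]; exact g.LK ⟨x.2.1.2.1, XM _ x.2⟩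
  obtain ⟨L1, m1, m2, m3⟩ := I (Lh ⊓ C_[δ]) Lh z t zX (φ.comp ((f.comp (inclusion Xz)).codRestrict K XK)) inf_le_left cX cL tL
    (fun i => l2 (XM _ i)) (sq t tz (LN t tz l1) tδ l2 l3) l.z1 l.zz (fun x i => mem_cent1.1 i.1) (fun a => by
      obtain ⟨k, rfl⟩ := φs a
      obtain ⟨y, i, y', j, e⟩ := g.cv k k.2
      have yK : y ∈ K := by rw [eq_mul_inv_of_mul_eq e.symm]; exact mul_mem k.2 (inv_mem (c.hk.hx.YK j))
      obtain ⟨x, o, rfl⟩ := lf y i (c.hk.KM yK)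
      refine ⟨⟨x, o⟩, ?_⟩
      have : k = ⟨π x, yK⟩ * ⟨y', c.hk.hx.YK j⟩ := Subtype.ext e
      rw [this, map_mul, (φk ⟨y', _⟩).2 ⟨y', j, 0, by simp⟩, mul_one]
      exact congrArg φ (Subtype.ext (s.pf _)))
    ((φk _).2 ⟨1, one_mem _, 0, by
      show f _ = _
      rw [s.pf]; simpa using (s.ker z (mem_cent1_self z)).2 l.aes.mem⟩) (fun x e => by
      rw [← map_mul] at e
      obtain ⟨y, i, n, e⟩ := (φk _).1 e
      replace e : π (x * x) = y * d ^ n := (s.pf _).symm.trans e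
      have yL : y ∈ L := by
        rw [eq_mul_inv_of_mul_eq e.symm]; exact L.mul_mem (mul_mem x.2 x.2).1.2.1 (L.inv_mem (L.pow_mem g.dL n))
      have y1 : y = 1 := g.LY.le ⟨yL, i⟩
      have x3 := pow_mem x.2 3
      have e6 : π (x.1 ^ 3) * π (x.1 ^ 3) = 1 := by
        rw [← mul s _ (Xz x3) _ (Xz x3), ← Commute.mul_pow (.refl _), pp _ (Xz (mul_mem x.2 x.2)), e, y1, one_mul,
          ← pow_mul, mul_comm, pow_mul, pow_three, h.d3, one_pow]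
      obtain ⟨k, kM, o⟩ := c.hk.oc _ (XM _ x3) e6
      obtain ⟨κ, a, rfl⟩ := su s δz c.δd c.δ3 k kM
      have := sq1 s c.hk.hx c.hk.KM δz c.δd c.δ3 (mul_mem (mul_mem a ⟨Xz x3, x3.2⟩) (inv_mem a))
        (by rwa [pc κ a.1 _ (Xz x3)])
      rw [conj_mul, conj_eq_one_iff, ← pow_add] at this
      exact Subtype.ext this)
  have βB : ∀ u ∈ B', ∀ v ∈ B', β u v = 0 := fun u i v j => by
    have := h.pol u v
    rw [g.qB _ (add_mem i j), g.qB u i, g.qB v j, zero_add, zero_add] at this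
    exact this.symm
  have cm : ∀ {x y}, x ∈ s.md.pull B' → y ∈ s.md.pull B' → Commute x y := fun i j => (s.b _ i.1 _ j.1).1 (βB _ i.2 _ j.2)
  have nB : ∀ a ∈ Lh, ∀ x ∈ s.md.pull B', a * x * a⁻¹ ∈ s.md.pull B' := fun a i x j =>
    ⟨l.cE i.1 j.1, by rw [← s.act a i.1 x j.1]; exact g.sB' _ i.2.1 _ j.2⟩
  have δL : δ ∈ Lh := mL.2 ⟨δz, c.δd ▸ g.dL, .inl (by simp)⟩
  let n : G → G := fun x => x * (δ * x * δ⁻¹) * (δ⁻¹ * x * δ⁻¹⁻¹)
  have nm : ∀ x ∈ s.md.pull B', ∀ y ∈ s.md.pull B', n (x * y) = n x * n y := fun x i y j => by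
    have a := nB δ δL x i
    have a' := nB _ (inv_mem δL) x i
    have b := nB δ δL y j
    show _ * _ * _ = _ * _ * _ * (_ * _ * _)
    rw [← conj_mul, ← conj_mul (b := δ⁻¹)]
    generalize δ * x * δ⁻¹ = x1 at a ⊢
    generalize δ⁻¹ * x * δ⁻¹⁻¹ = x2 at a' ⊢
    generalize δ * y * δ⁻¹ = y1 at b ⊢
    rw [(cm j a).mul_mul_mul_comm, (cm (mul_mem j b) a').mul_mul_mul_comm]
  have nz : n z = z := by
    show _ * _ * _ = _
    rw [mem_cent1.1 δz, mem_cent1.1 (inv_mem δz), mul_inv_cancel_right, mul_inv_cancel_right, l.zz, one_mul]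
  have n2 : ∀ x ∈ s.md.pull B', n x = 1 ∨ n x = z := fun x i => by
    have a := l.cE δz i.1
    have a' := l.cE (inv_mem δz) i.1
    refine (s.md.ker _ (mul_mem (mul_mem i.1 a) a')).1 ?_
    rw [s.md.mul _ (mul_mem i.1 a) _ a', s.md.mul _ i.1 _ a, ← s.act _ δz _ i.1, ← s.act _ (inv_mem δz) _ i.1, inv s _ δz,
      c.δd, di, h.mul]
    exact h.hf _
  have n1 : n 1 = 1 := by simp [n]
  let E : Subgroup G :=
    { carrier := {x | x ∈ s.md.pull B' ∧ n x = 1}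
      one_mem' := ⟨one_mem _, n1⟩
      mul_mem' := fun {a b} i j => ⟨mul_mem i.1 j.1, by rw [nm _ i.1 _ j.1, i.2, j.2, one_mul]⟩
      inv_mem' := fun {a} i => ⟨inv_mem i.1, by
        have := nm _ i.1 _ (inv_mem i.1)
        rwa [mul_inv_cancel, n1, i.2, one_mul, eq_comm] at this⟩ }
  have mE : ∀ {x}, x ∈ E ↔ x ∈ s.md.pull B' ∧ n x = 1 := Iff.rfl
  have zB : z ∈ s.md.pull B' := ⟨l.aes.mem, s.md.zz ▸ zero_mem B'⟩
  have zE : z ∉ E := fun i => l.z1 (nz.symm.trans i.2)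
  have cE : Nat.card E = 64 := by
    have a1 := card_mul_relIndex (show E ≤ s.md.pull B' from fun x i => i.1)
    rw [s.md.card_pull, g.cB, show E.relIndex (s.md.pull B') = 2 from index_eq_two_iff.2 ⟨⟨z, zB⟩, fun b => by
      show Xor (b.1 * z ∈ E) (b.1 ∈ E)
      rw [mE, mE, nm _ b.2 _ zB, nz]
      rcases n2 _ b.2 with e | e <;> simp [e, l.z1, l.zz, Xor, mul_mem b.2 zB]⟩] at a1
    omega
  have NE : L1 ≤ N_(E) := le_norm_iff.2 fun a i x j => mE.2 ⟨nB a (m1 i) x j.1, by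
    have k : x * (δ * x * δ⁻¹) * (δ⁻¹ * x * δ⁻¹⁻¹) = 1 := j.2
    show _ * _ * _ = _
    have e0 : ∀ ε, a * ε * a⁻¹ * (a * x * a⁻¹) * (a * ε * a⁻¹)⁻¹ = a * (ε * x * ε⁻¹) * a⁻¹ := fun ε => by group
    have f1 := e0 δ
    have f2 := e0 δ⁻¹
    rcases (m1 i).2.2 with e | e
    · have e' : a * δ⁻¹ * a⁻¹ = δ⁻¹ := by rw [← conj_inv, e]
      rw [e] at f1
      rw [e'] at f2
      rw [f1, f2, conj_mul, conj_mul, k]; simp
    · have e' : a * δ⁻¹ * a⁻¹ = δ := by rw [← conj_inv, e, inv_inv]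
      rw [e] at f1
      rw [e'] at f2
      rw [f1, f2, conj_mul, conj_mul, mul_assoc x,
        (cm (nB _ (inv_mem δL) x j.1) (nB δ δL x j.1)).eq, ← mul_assoc x, k]; simp⟩
  have L0 : ∀ x ∈ L1, x ∈ Q → x = 1 := fun x i j => (QL x (m1 i) j).resolve_right fun e => m2 (e ▸ i)
  refine ⟨E ⊔ L1, sup_le (fun x i => ⟨LN x (l.le i.1.1) (by rw [(s.ker x (l.le i.1.1)).2 i.1.1]; exact one_mem _), l.le i.1.1⟩)
    fun x i => ⟨LN x (m1 i).1 (m1 i).2.1, (m1 i).1⟩, eq_bot_iff.2 fun x ⟨i, j⟩ => ?_, by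
      rw [card_sup_of_disj NE (eq_bot_iff.2 fun x i => L0 x i.2 i.1.1.1), cE, m3]⟩
  obtain ⟨b, i1, a, i2, rfl⟩ := (mem_sup_norm NE).1 i
  have := c.AY _ j
  rw [mul s _ (l.le i1.1.1) _ (m1 i2).1, (s.ker _ (l.le i1.1.1)).2 i1.1.1, one_mul] at this
  obtain rfl := L0 a i2 ((s.ker _ (m1 i2).1).1 (g.LY.le ⟨(m1 i2).2.1, this⟩))
  rw [mul_one] at j ⊢
  exact ((s.md.ker _ i1.1.1).1 (g.dj.le ⟨(c2.e3.le ⟨j, i1.1.1⟩).2, i1.1.2⟩)).resolve_right fun e => zE (e ▸ i1)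

end H20.KW
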