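import Mathlib
import Cfsg.Agent.H08.Counting

/-!
Groups with small centralizers of involutions (namespace H20).
* `exists_metab_of_bfc`, `exists_bfc`, `exists_metab_of_invol` : an involution with a small centralizer gives a metabelian
  normal subgroup of bounded index;
* `card_le_of_four` : a four-group with small centralizers and a small Sylow `2`-subgroup bound the order.
-/

set_option autoImplicit false
set_option linter.unusedSectionVars false
set_option linter.unusedVariables false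

open Classical
open scoped commutatorElement

namespace H20

universe u

local notation "C_[" x "]" => Subgroup.centralizer ({x} : Set _)

variable {G : Type*} [Group G] [Finite G]

theorem index_cent_mul (x y : G) : C_[x * y].index ≤ C_[x].index * C_[y].index := by
  refine le_trans (Subgroup.index_antitone fun g hg => ?_) Subgroup.index_inf_le
  rw [Subgroup.mem_inf] at hg
  simp only [Subgroup.mem_centralizer_singleton_iff] at hg ⊢
  rw [← mul_assoc, hg.1, mul_assoc, hg.2, mul_assoc]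

omit [Finite G] in
theorem cent_inv (x : G) : C_[x⁻¹] = C_[x] := by
  ext g
  simp only [Subgroup.mem_centralizer_singleton_iff]
  exact ⟨fun h => (Commute.inv_right_iff.1 h).eq, fun h => (show Commute g x from h).inv_right.eq⟩

theorem exists_metab_of_bfc (n : ℕ) (h : ∀ x : G, C_[x].index ≤ n) :
    ∃ Y : Subgroup G, Y.index ≤ n ^ n * n ^ n ∧ ∀ x ∈ Y, ∀ y ∈ Y, ∀ z ∈ Y, Commute z ⁅x, y⁆ := by
  have := Fintype.ofFinite G
  obtain ⟨a, -, ha⟩ := Finset.exists_max_image Finset.univ (fun x : G => C_[x].index) ⟨1, Finset.mem_univ _⟩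
  have := Fintype.ofFinite (G ⧸ C_[a])
  have hn : 1 ≤ n := le_trans (Nat.pos_of_ne_zero Subgroup.FiniteIndex.index_ne_zero) (h 1)
  have key : ∀ f : G ⧸ C_[a] → G, (⨅ q, C_[f q]).index ≤ n ^ n := fun f =>
    (Subgroup.index_iInf_le _).trans ((Finset.prod_le_pow_card _ _ n fun q _ => h _).trans
      (Nat.pow_le_pow_right hn (by rw [Finset.card_univ, ← Nat.card_eq_fintype_card]; exact h a)))
  refine ⟨(⨅ q : G ⧸ C_[a], C_[q.out]) ⊓ ⨅ q : G ⧸ C_[a], C_[q.out * a * q.out⁻¹],
    Subgroup.index_inf_le.trans (Nat.mul_le_mul (key _) (key _)), fun x hx y hy z hz => ?_⟩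
  have hc : ∀ g : G, Commute z (g * a * g⁻¹) := fun g => by
    have h1 := Subgroup.mem_centralizer_singleton_iff.1 (Subgroup.mem_iInf.1 hz.2 (g : G ⧸ C_[a]))
    obtain ⟨c, hc⟩ := QuotientGroup.mk_out_eq_mul C_[a] g
    have h2 := Subgroup.mem_centralizer_singleton_iff.1 c.2
    rwa [hc, show g * c * a * (g * c)⁻¹ = g * a * g⁻¹ by rw [mul_assoc g, h2]; group] at h1
  have hx' : ∀ q : G ⧸ C_[a], Commute x⁻¹ q.out := fun q =>
    (show Commute x q.out from Subgroup.mem_centralizer_singleton_iff.1 (Subgroup.mem_iInf.1 hx.1 q)).inv_left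
  let f : G ⧸ C_[a] → G ⧸ C_[x⁻¹ * a] := fun q => (q.out : G ⧸ C_[x⁻¹ * a])
  have e : ∀ q : G ⧸ C_[a], q.out * (x⁻¹ * a) * q.out⁻¹ = x⁻¹ * (q.out * a * q.out⁻¹) := fun q => by
    rw [← mul_assoc, ← (hx' q).eq]; group
  have e' : ∀ g g' : G, (g : G ⧸ C_[x⁻¹ * a]) = g' → g * (x⁻¹ * a) * g⁻¹ = g' * (x⁻¹ * a) * g'⁻¹ := fun g g' h1 => by
    have h2 := Subgroup.mem_centralizer_singleton_iff.1 (QuotientGroup.eq.1 h1)
    calc _ = g * ((x⁻¹ * a) * (g⁻¹ * g')) * g'⁻¹ := by group
      _ = _ := by rw [← h2]; group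
  have hf : Function.Injective f := fun q q' h1 => by
    have h2 := e' _ _ h1
    rw [e, e, mul_right_inj] at h2
    rw [← q.out_eq', ← q'.out_eq', QuotientGroup.eq, Subgroup.mem_centralizer_singleton_iff]
    calc _ = q.out⁻¹ * (q'.out * a * q'.out⁻¹) * q'.out := by group
      _ = _ := by rw [← h2]; group
  have hs : Function.Surjective f :=
    (hf.bijective_of_nat_card_le (ha _ (Finset.mem_univ _))).2
  obtain ⟨q, hq⟩ := hs (y : G ⧸ C_[x⁻¹ * a])
  have h2 := e' _ _ hq
  rw [e] at h2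
  have h3 : ⁅x, y⁆ = (q.out * a * q.out⁻¹) * (y * a * y⁻¹)⁻¹ := by
    rw [commutatorElement_def, ← mul_right_inj x⁻¹, ← mul_assoc x⁻¹ (q.out * a * q.out⁻¹), h2]; group
  rw [h3]
  exact (hc _).mul_right (hc _).inv_right

theorem exists_bfc (c : ℕ) (hc : 1 ≤ c) (h : Nat.card G ≤ c * Nat.card {x : G | C_[x].index ≤ c}) :
    ∃ H : Subgroup G, H.index ≤ c ∧ ∀ x ∈ H, C_[x].index ≤ c ^ (3 * c + 1) := by
  have := Fintype.ofFinite G
  let X : ℕ → Finset G := fun k => Finset.univ.filter fun x => C_[x].index ≤ c ^ k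
  have hX : ∀ {k x}, x ∈ X k ↔ C_[x].index ≤ c ^ k := by simp [X]
  have hmul : ∀ {k x y}, x ∈ X k → y ∈ X 1 → x * y ∈ X (k + 1) := fun hx hy =>
    hX.2 ((index_cent_mul _ _).trans (by rw [pow_add]; exact Nat.mul_le_mul (hX.1 hx) (hX.1 hy)))
  have hinv : ∀ {y}, y ∈ X 1 → y⁻¹ ∈ X 1 := fun hy => hX.2 (by rw [cent_inv]; exact hX.1 hy)
  have hmono : ∀ {k l x}, k ≤ l → x ∈ X k → x ∈ X l := fun hkl hx =>
    hX.2 ((hX.1 hx).trans (Nat.pow_le_pow_right hc hkl))
  have h1 : Nat.card {x : G | C_[x].index ≤ c} = (X 1).card := by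
    rw [Nat.card_eq_fintype_card, Fintype.card_subtype]; simp [X]
  rw [h1] at h
  have hpos : 0 < (X 1).card := Finset.card_pos.2 ⟨1, hX.2 (by
    rw [Subgroup.centralizer_eq_top_iff_subset.2 (by simp), Subgroup.index_top]; simpa)⟩
  obtain ⟨i, hi, hi'⟩ : ∃ i ≤ c, ∀ x ∈ X (3 * i + 2), x ∈ X (3 * i + 1) := by
    by_contra hne
    push Not at hne
    choose! x hx hx' using hne
    have hd : ∀ i ∈ Finset.range (c + 1), ∀ j ∈ Finset.range (c + 1), i ≠ j →
        Disjoint ((X 1).image (x i * ·)) ((X 1).image (x j * ·)) := by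
      have aux : ∀ i ≤ c, ∀ j ≤ c, i < j → Disjoint ((X 1).image (x i * ·)) ((X 1).image (x j * ·)) :=
        fun i hi j hj hij => Finset.disjoint_left.2 fun g h1 h2 => by
          obtain ⟨y, hy, rfl⟩ := Finset.mem_image.1 h1
          obtain ⟨z, hz, e⟩ := Finset.mem_image.1 h2
          refine hx' j hj (hmono (by omega : 3 * i + 2 + 1 + 1 ≤ _) ?_)
          rw [show x j = x i * y * z⁻¹ by rw [← e]; group]
          exact hmul (hmul (hx i hi) hy) (hinv hz)
      intro i hi j hj hij
      rw [Finset.mem_range] at hi hj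
      rcases lt_or_gt_of_ne hij with h | h
      · exact aux i (by omega) j (by omega) h
      · exact (aux j (by omega) i (by omega) h).symm
    have h2 := Finset.card_le_univ ((Finset.range (c + 1)).biUnion fun i => (X 1).image (x i * ·))
    rw [Finset.card_biUnion hd, Finset.sum_congr rfl fun i _ =>
      Finset.card_image_of_injective _ (mul_right_injective _), Finset.sum_const, Finset.card_range, smul_eq_mul,
      ← Nat.card_eq_fintype_card] at h2
    nlinarith
  refine ⟨Subgroup.closure (X 1 : Set G), ?_, fun x hx => hX.1 (hmono (by omega : 3 * i + 1 ≤ _) ?_)⟩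
  · have h2 : (X 1).card ≤ Nat.card (Subgroup.closure (X 1 : Set G)) := by
      rw [← Nat.card_eq_finsetCard]
      exact Nat.card_le_card_of_injective (fun x => ⟨x.1, Subgroup.subset_closure x.2⟩)
        fun a b e => Subtype.ext (congrArg Subtype.val e :)
    have h3 := Subgroup.index_mul_card (Subgroup.closure (X 1 : Set G))
    have h4 : 0 < Nat.card (Subgroup.closure (X 1 : Set G)) := Nat.card_pos
    refine Nat.le_of_mul_le_mul_right ?_ h4
    rw [h3]
    exact h.trans (Nat.mul_le_mul_left _ h2)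
  · induction hx using Subgroup.closure_induction_right with
    | one => exact hX.2 (by
        rw [Subgroup.centralizer_eq_top_iff_subset.2 (by simp), Subgroup.index_top]; exact Nat.one_le_pow _ _ hc)
    | mul_right x _ y hy ih => exact hi' _ (hmul ih hy)
    | mul_inv_cancel x _ y hy ih => exact hi' _ (hmul ih (hinv hy))

theorem card_le_mul_card_small {t : G} (ht : orderOf t = 2) {m : ℕ} (hm : Nat.card C_[t] ≤ m) :
    Nat.card G ≤ 2 * m ^ 2 * Nat.card {x : G | C_[x].index ≤ 2 * m ^ 2} := by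
  have := Fintype.ofFinite G
  set n := Nat.card {t : G // orderOf t = 2}
  set c := 2 * m ^ 2 with hc
  have h1 := H08.card_isConj_mul_card_centralizer t
  have h2 : Nat.card {y : G // IsConj t y} ≤ n :=
    Nat.card_le_card_of_injective (fun y => ⟨y.1, by rw [← H08.orderOf_eq_of_isConj y.2, ht]⟩)
      (fun a b hab => Subtype.ext (Subtype.mk.inj hab))
  have h3 : Nat.card G ≤ n * m := by rw [← h1]; exact Nat.mul_le_mul h2 hm
  have h4 : n ^ 2 ≤ ∑ x : G, Nat.card C_[x] := by
    rw [← H08.sum_pairCount]; exact Finset.sum_le_sum fun x _ => H08.pairCount_le x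
  have h5 : ∑ x : G, c * Nat.card C_[x] ≤ ∑ x : G, ((if C_[x].index ≤ c then c * Nat.card G else 0) + Nat.card G) :=
    Finset.sum_le_sum fun x _ => by
      have h6 := Subgroup.index_mul_card C_[x]
      split_ifs with h7
      · exact le_add_right (Nat.mul_le_mul_left _ (Subgroup.card_le_card_group _))
      · rw [zero_add, ← h6]; exact Nat.mul_le_mul_right _ (by omega)
  have h6 : Nat.card {x : G | C_[x].index ≤ c} = (Finset.univ.filter fun x : G => C_[x].index ≤ c).card := by
    rw [Nat.card_eq_fintype_card, Fintype.card_subtype]; simp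
  rw [← Finset.mul_sum, Finset.sum_add_distrib, ← Finset.sum_filter, Finset.sum_const, Finset.sum_const, ← h6,
    Finset.card_univ, ← Nat.card_eq_fintype_card, smul_eq_mul, smul_eq_mul] at h5
  have h7 : 0 < Nat.card G := Nat.card_pos
  have h8 : 2 * (Nat.card G * Nat.card G) ≤ c * n ^ 2 := by
    have := Nat.mul_le_mul h3 h3
    rw [hc]; nlinarith
  have h9 := Nat.mul_le_mul_left c h4
  refine Nat.le_of_mul_le_mul_right ?_ h7
  nlinarith

theorem index_normalCore_le (H : Subgroup G) {n : ℕ} (h : H.index ≤ n) : H.normalCore.index ≤ n.factorial := by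
  have := Fintype.ofFinite (G ⧸ H)
  rw [Subgroup.normalCore_eq_ker, Subgroup.index_ker]
  refine (Subgroup.card_le_card_group _).trans ?_
  rw [Nat.card_eq_fintype_card, Fintype.card_perm, ← Nat.card_eq_fintype_card]
  exact Nat.factorial_le h

theorem exists_metab_of_invol (m : ℕ) : ∃ N : ℕ, ∀ (G : Type u) [Group G] [Finite G] (t : G), orderOf t = 2 →
    Nat.card C_[t] ≤ m → ∃ K : Subgroup G, K.Normal ∧ K.index ≤ N ∧ ∀ x ∈ K, ∀ y ∈ K, ∀ z ∈ K, Commute z ⁅x, y⁆ := by
  set c := 2 * m ^ 2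
  set n := c ^ (3 * c + 1)
  refine ⟨(n ^ n * n ^ n * c).factorial, fun G _ _ t ht hm => ?_⟩
  have hm1 : 1 ≤ m := le_trans Nat.card_pos hm
  obtain ⟨H, h1, h2⟩ := exists_bfc c (by simp only [c]; nlinarith) (card_le_mul_card_small ht hm)
  obtain ⟨Y, h3, h4⟩ := exists_metab_of_bfc (G := H) n fun x => le_trans (by
    have e : C_[x] = C_[(x : G)].subgroupOf H := by
      ext y; simp [Subgroup.mem_centralizer_singleton_iff, Subgroup.mem_subgroupOf, Subtype.ext_iff]
    rw [e]
    exact Subgroup.relIndex_le_of_le_right le_top (by simp [Subgroup.FiniteIndex.index_ne_zero]) |>.trans (by simp)) (h2 x x.2)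
  refine ⟨(Y.map H.subtype).normalCore, inferInstance, index_normalCore_le _ ?_, fun x hx y hy z hz => ?_⟩
  · rw [Subgroup.index_map_subtype]; exact Nat.mul_le_mul h3 h1
  · obtain ⟨x, hx', rfl⟩ := Subgroup.normalCore_le _ hx
    obtain ⟨y, hy', rfl⟩ := Subgroup.normalCore_le _ hy
    obtain ⟨z, hz', rfl⟩ := Subgroup.normalCore_le _ hz
    rw [← map_commutatorElement]
    exact (h4 x hx' y hy' z hz').map _

theorem card_le_of_comm {A : Subgroup G} [hA : A.Normal] (hc : ∀ x ∈ A, ∀ y ∈ A, x * y = y * x) {a b : G}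
    (ha : a * a = 1) (hb : b * b = 1) (hab : a * b = b * a) {m e : ℕ} (h1 : Nat.card C_[a] ≤ m)
    (h2 : Nat.card C_[b] ≤ m) (h3 : Nat.card C_[a * b] ≤ m) (he : (Nat.card G).factorization 2 ≤ e) :
    Nat.card A ≤ 2 ^ e * m ^ 3 := by
  let : CommGroup A := { (inferInstance : Group A) with mul_comm := fun x y => Subtype.ext (hc x x.2 y y.2) }
  let f : A →* A := powMonoidHom 2
  rw [← f.ker.card_mul_index, Subgroup.index_ker]
  refine Nat.mul_le_mul ?_ ?_
  · have h4 : IsPGroup 2 f.ker := fun x => ⟨1, Subtype.ext x.2⟩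
    obtain ⟨k, hk⟩ := IsPGroup.iff_card.1 h4
    have h5 : 2 ^ k ∣ Nat.card G := hk ▸ (Subgroup.card_subgroup_dvd_card _).trans (Subgroup.card_subgroup_dvd_card _)
    rw [hk]
    exact Nat.pow_le_pow_right two_pos
      (((Nat.prime_two.pow_dvd_iff_le_factorization Nat.card_pos.ne').1 h5).trans he)
  · have key : ∀ (s : G) (x : A), s * s = 1 → (x * MulAut.conjNormal s x : A).1 ∈ C_[s] := fun s x hs => by
      have h4 : MulAut.conjNormal s (x * MulAut.conjNormal s x) = x * MulAut.conjNormal s x := by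
        rw [map_mul, ← MulAut.mul_apply, ← map_mul, hs, map_one, MulAut.one_apply, mul_comm]
      have h5 := congrArg Subtype.val h4
      rw [MulAut.conjNormal_apply] at h5
      rw [Subgroup.mem_centralizer_singleton_iff, eq_comm, ← mul_inv_eq_iff_eq_mul, h5]
    have hs : ∀ y : f.range, ∃ z : C_[a] × C_[b] × C_[a * b], (y.1 : G) = z.1 * z.2.1 * z.2.2 := by
      rintro ⟨_, x, rfl⟩
      refine ⟨(⟨_, key a (MulAut.conjNormal b x)⁻¹ ha⟩, ⟨_, key b x hb⟩,
        ⟨_, key (a * b) x (by rw [mul_assoc, ← mul_assoc b, ← hab, mul_assoc, hb, mul_one, ha])⟩), ?_⟩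
      simp only [← Subgroup.coe_mul]
      congr 1
      simp only [f, powMonoidHom_apply, map_mul, map_inv, MulAut.mul_apply]
      generalize MulAut.conjNormal a (MulAut.conjNormal b x) = w
      generalize MulAut.conjNormal b x = v
      apply Additive.ofMul.injective
      simp only [sq, ofMul_mul, ofMul_inv]
      abel
    choose g hg using hs
    refine (Nat.card_le_card_of_injective g fun y y' h => Subtype.ext (Subtype.ext (by rw [hg, hg, h]))).trans ?_
    rw [Nat.card_prod, Nat.card_prod, pow_succ', sq]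
    exact Nat.mul_le_mul h1 (Nat.mul_le_mul h2 h3)

theorem card_cent_quot (A : Subgroup G) [A.Normal] (t : G) : Nat.card C_[(t : G ⧸ A)] ≤ Nat.card C_[t] := by
  set D := C_[(t : G ⧸ A)].comap (QuotientGroup.mk' A)
  have h1 : Nat.card D = Nat.card C_[(t : G ⧸ A)] * Nat.card A := by
    have h2 := D.card_mul_index
    rw [Subgroup.index_comap_of_surjective _ (QuotientGroup.mk'_surjective A),
      Subgroup.card_eq_card_quotient_mul_card_subgroup A, ← C_[(t : G ⧸ A)].card_mul_index, mul_right_comm] at h2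
    exact Nat.eq_of_mul_eq_mul_right (Nat.pos_of_ne_zero Subgroup.FiniteIndex.index_ne_zero) h2
  have h3 : ∀ d : D, t⁻¹ * (d.1⁻¹ * t * d.1) ∈ A := fun d => by
    have h4 : (d.1 : G ⧸ A) * t = t * d.1 := Subgroup.mem_centralizer_singleton_iff.1 d.2
    rw [← QuotientGroup.eq, QuotientGroup.mk_mul, QuotientGroup.mk_mul, mul_assoc, ← h4]
    simp
  let f : D → A := fun d => ⟨_, h3 d⟩
  have h5 : ∀ d : D, d.1 * (Function.invFun f (f d)).1⁻¹ ∈ C_[t] := fun d => by
    have h6 := congrArg Subtype.val (Function.invFun_eq (f := f) ⟨d, rfl⟩)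
    simp only [f, mul_right_inj] at h6
    rw [Subgroup.mem_centralizer_singleton_iff]
    generalize (Function.invFun _ _ : D) = d' at h6 ⊢
    calc _ = d.1 * (d'.1⁻¹ * t * d'.1) * d'.1⁻¹ := by group
      _ = _ := by rw [h6]; group
  have h7 := Nat.card_le_card_of_injective (fun d : D => ((⟨_, h5 d⟩, f d) : C_[t] × A)) fun d d' e => by
    have e1 := congrArg (fun x => x.1.1) e
    have e2 : f d = f d' := congrArg Prod.snd e
    simp only [e2, mul_left_inj] at e1
    exact Subtype.ext e1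
  rw [h1, Nat.card_prod] at h7
  exact Nat.le_of_mul_le_mul_right h7 Nat.card_pos

theorem card_le_of_four (m e : ℕ) : ∃ N : ℕ, ∀ (G : Type u) [Group G] [Finite G] (a b : G), orderOf a = 2 →
    b * b = 1 → a * b = b * a → Nat.card C_[a] ≤ m → Nat.card C_[b] ≤ m → Nat.card C_[a * b] ≤ m →
    (Nat.card G).factorization 2 ≤ e → Nat.card G ≤ N := by
  obtain ⟨N, hN⟩ := exists_metab_of_invol.{u} m
  refine ⟨2 ^ e * m ^ 3 * (2 ^ e * m ^ 3) * N, fun G _ _ a b ha hb hab h1 h2 h3 he => ?_⟩
  obtain ⟨K, hK, h4, h5⟩ := hN G a ha h1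
  have ha' : a * a = 1 := by rw [← sq, ← ha, pow_orderOf_eq_one]
  have h6 : ⁅K, K⁆ ≤ K := Subgroup.commutator_le_left K K
  have h7 : ⁅K, K⁆ ≤ Subgroup.centralizer K := Subgroup.commutator_le.2 fun x hx y hy =>
    Subgroup.mem_centralizer_iff.2 fun z hz => h5 x hx y hy z hz
  have h8 := card_le_of_comm (A := ⁅K, K⁆) (fun x hx y hy => Subgroup.mem_centralizer_iff.1 (h7 hy) x (h6 hx))
    ha' hb hab h1 h2 h3 he
  have h9 := card_le_of_comm (A := K.map (QuotientGroup.mk' ⁅K, K⁆)) (a := a) (b := b) (m := m) (e := e) (by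
      rintro _ ⟨x, hx, rfl⟩ _ ⟨y, hy, rfl⟩
      rw [← commutatorElement_eq_one_iff_mul_comm, ← map_commutatorElement]
      exact (QuotientGroup.eq_one_iff _).2 (Subgroup.commutator_mem_commutator hx hy))
    (by rw [← QuotientGroup.mk_mul, ha']; rfl) (by rw [← QuotientGroup.mk_mul, hb]; rfl)
    (by rw [← QuotientGroup.mk_mul, hab]; rfl) ((card_cent_quot _ _).trans h1) ((card_cent_quot _ _).trans h2)
    ((card_cent_quot _ (a * b)).trans h3)
    (((Nat.factorization_le_iff_dvd Nat.card_pos.ne' Nat.card_pos.ne').2 (Subgroup.card_quotient_dvd_card _) 2).trans he)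
  rw [← K.card_mul_index]
  refine Nat.mul_le_mul ?_ h4
  rw [← (QuotientGroup.mk' ⁅K, K⁆).domRestrict K |>.ker.card_mul_index, Subgroup.index_ker]
  refine Nat.mul_le_mul (le_trans ?_ h8) (le_trans (le_of_eq ?_) h9)
  · rw [MonoidHom.ker_domRestrict, QuotientGroup.ker_mk', Nat.card_congr (Subgroup.subgroupOfEquivOfLe h6).toEquiv]
  · rw [MonoidHom.domRestrict_range]

end H20
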