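import Mathlib
import Cfsg.Agent.H21.Abel
import Cfsg.Agent.H21.Klein

/-!
Alternating sums over chains of `p`-subgroups (namespace H20).
* `vSet` : characters whose block induces a given block; `card_mul_sub_rank` : `|G| (k - l)` as a sum over `p`-elements;
* `sum_chains_eq_zero` : cancellation over the normal chains fixed by a `p`-element.
-/

set_option autoImplicit false
set_option linter.unusedSectionVars false
set_option linter.unusedVariables false

open Cfsg H05 H21 MonoidAlgebra Classical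
open scoped ComplexConjugate

namespace H20

local notation "𝐍 " D:max => Subgroup.normalizer ((D : Subgroup _) : Set _)

section chains

variable {G : Type*} [Group G] [Finite G] {p : ℕ}

/-- normal chains of nontrivial `p`-subgroups (the empty one included) -/
def NCh (p : ℕ) (s : Finset (Subgroup G)) : Prop :=
  (∀ Q ∈ s, ∀ R ∈ s, Q ≤ R ∨ R ≤ Q) ∧ (∀ Q ∈ s, Q ≠ ⊥ ∧ IsPGroup p Q) ∧ ∀ Q ∈ s, s.sup id ≤ 𝐍 Q

omit [Finite G] in
theorem sup_mem_or {s : Finset (Subgroup G)} (h : ∀ Q ∈ s, ∀ R ∈ s, Q ≤ R ∨ R ≤ Q) :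
    s.sup id = ⊥ ∨ s.sup id ∈ s := by
  induction s using Finset.induction_on with
  | empty => simp
  | insert a s ha ih =>
    right
    rw [Finset.sup_insert, id]
    rcases ih fun Q hQ R hR => h Q (Finset.mem_insert_of_mem hQ) R (Finset.mem_insert_of_mem hR) with h1 | h1
    · rw [h1, sup_bot_eq]; exact Finset.mem_insert_self _ _
    · rcases h a (Finset.mem_insert_self _ _) _ (Finset.mem_insert_of_mem h1) with h2 | h2
      · rw [sup_eq_right.2 h2]; exact Finset.mem_insert_of_mem h1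
      · rw [sup_eq_left.2 h2]; exact Finset.mem_insert_self _ _

omit [Finite G] in
theorem le_normalizer_fsup {s : Finset (Subgroup G)} {U : Subgroup G} (h : ∀ Q ∈ s, U ≤ 𝐍 Q) :
    U ≤ 𝐍 (s.sup id) := by
  induction s using Finset.induction_on with
  | empty => rw [Finset.sup_empty, Subgroup.normalizer_eq_top]; exact le_top
  | insert a s ha ih =>
    rw [Finset.sup_insert, id]
    exact (le_inf (h a (Finset.mem_insert_self _ _)) (ih fun Q hQ => h Q (Finset.mem_insert_of_mem hQ))).trans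
      (Subgroup.normalizer_inf_normalizer_le_normalizer_sup _ _)

/-- the normal closure of `x` in `W` -/
def nclIn (W : Subgroup G) (x : G) : Subgroup G := Subgroup.closure {y | ∃ w ∈ W, y = w * x * w⁻¹}

omit [Finite G] in
theorem mem_nclIn (W : Subgroup G) (x : G) : x ∈ nclIn W x :=
  Subgroup.subset_closure ⟨1, W.one_mem, by simp⟩

omit [Finite G] in
theorem nclIn_le {W Q : Subgroup G} {x : G} (h : W ≤ 𝐍 Q) (hx : x ∈ Q) : nclIn W x ≤ Q := by
  rw [nclIn, Subgroup.closure_le]
  rintro _ ⟨w, hw, rfl⟩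
  exact (Subgroup.mem_normalizer_iff.1 (h hw) x).1 hx

omit [Finite G] in
theorem le_normalizer_nclIn (W : Subgroup G) (x : G) : W ≤ 𝐍 (nclIn W x) := by
  rw [nclIn, Subgroup.le_normalizer_closure_iff]
  rintro u hu _ ⟨w, hw, rfl⟩
  exact Subgroup.subset_closure ⟨u * w, W.mul_mem hu hw, by group⟩

omit [Finite G] in
theorem le_normalizer_nclIn' {W U : Subgroup G} {x : G} (h : U ≤ 𝐍 W)
    (hx : U ≤ Subgroup.centralizer {x}) : U ≤ 𝐍 (nclIn W x) := by
  rw [nclIn, Subgroup.le_normalizer_closure_iff]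
  rintro u hu _ ⟨w, hw, rfl⟩
  refine Subgroup.subset_closure ⟨u * w * u⁻¹, (Subgroup.mem_normalizer_iff.1 (h hu) w).1 hw, ?_⟩
  have := Subgroup.mem_centralizer_singleton_iff.1 (hx hu)
  calc u * (w * x * w⁻¹) * u⁻¹ = u * w * u⁻¹ * (u * x) * w⁻¹ * u⁻¹ := by group
    _ = _ := by rw [this]; group

theorem sup_zpowers_eq_of_nclIn [Fact p.Prime] {W A : Subgroup G} (hW : IsPGroup p W) {x : G} (hx : x ∈ W)
    (hA : A ≤ W) (h : W ≤ A ⊔ nclIn W x) : W ≤ A ⊔ Subgroup.zpowers x := by
  by_contra hne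
  have h1 : (A ⊔ Subgroup.zpowers x).subgroupOf W ≠ ⊤ := fun e => hne (Subgroup.subgroupOf_eq_top.1 e)
  obtain ⟨K, hK, hle⟩ := (eq_top_or_exists_le_coatom _).resolve_left h1
  have := hW.isNilpotent
  have hn : K.Normal := Subgroup.NormalizerCondition.normal_of_coatom K Group.normalizerCondition_of_isNilpotent hK
  have hle' : A ⊔ Subgroup.zpowers x ≤ K.map W.subtype := by
    have h2 : A ⊔ Subgroup.zpowers x ≤ W := sup_le hA (by rwa [Subgroup.zpowers_le])
    intro g hg
    exact ⟨⟨g, h2 hg⟩, hle hg, rfl⟩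
  have hN : W ≤ 𝐍 (K.map W.subtype) := by
    rw [Subgroup.le_normalizer_iff]
    rintro w hw _ ⟨k, hk, rfl⟩
    exact ⟨_, hn.conj_mem k hk ⟨w, hw⟩, rfl⟩
  have h3 : W ≤ K.map W.subtype :=
    h.trans (sup_le (le_sup_left.trans hle') (nclIn_le hN (hle' (le_sup_right (a := A) (Subgroup.mem_zpowers x)))))
  refine hK.1 (eq_top_iff.2 fun w _ => ?_)
  obtain ⟨k, hk, e⟩ := h3 w.2
  rwa [show w = k from Subtype.ext e.symm]

variable (x : G) (s : Finset (Subgroup G))

/-- the largest member not containing `x` -/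
noncomputable def chA : Subgroup G := (s.filter fun Q => x ∉ Q).sup id
/-- the top together with `x` -/
noncomputable def chW : Subgroup G := s.sup id ⊔ Subgroup.zpowers x
/-- the member to be toggled -/
noncomputable def chR : Subgroup G := chA x s ⊔ nclIn (chW x s) x
/-- the toggled chain -/
noncomputable def chT : Finset (Subgroup G) := if chR x s ∈ s then s.erase (chR x s) else insert (chR x s) s

variable {x s}

omit [Finite G] in
theorem mem_chR : x ∈ chR x s := le_sup_right (a := chA x s) (mem_nclIn _ _)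

omit [Finite G] in
theorem chA_le : chA x s ≤ s.sup id := Finset.sup_mono (Finset.filter_subset _ _)

omit [Finite G] in
theorem mem_chW : x ∈ chW x s := le_sup_right (a := s.sup id) (Subgroup.mem_zpowers x)

omit [Finite G] in
theorem chR_le : chR x s ≤ chW x s :=
  sup_le (chA_le.trans le_sup_left) (nclIn_le Subgroup.le_normalizer mem_chW)

omit [Finite G] in
theorem chA_chT : chA x (chT x s) = chA x s := by
  unfold chA chT
  congr 1
  ext Q
  split_ifs with h
  · simp only [Finset.mem_filter, Finset.mem_erase]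
    exact ⟨fun h => ⟨h.1.2, h.2⟩, fun h => ⟨⟨fun e => h.2 (e ▸ mem_chR), h.1⟩, h.2⟩⟩
  · simp only [Finset.mem_filter, Finset.mem_insert]
    exact ⟨fun h => ⟨h.1.resolve_left fun e => h.2 (e ▸ mem_chR), h.2⟩, fun h => ⟨Or.inr h.1, h.2⟩⟩

omit [Finite G] in
theorem le_normalizer_chR {U : Subgroup G} (h : ∀ Q ∈ s, U ≤ 𝐍 Q) (hx : U ≤ Subgroup.centralizer {x}) :
    U ≤ 𝐍 (chR x s) := by
  refine (le_inf (le_normalizer_fsup fun Q hQ => h Q (Finset.mem_filter.1 hQ).1) (le_normalizer_nclIn' ?_ hx)).trans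
    (Subgroup.normalizer_inf_normalizer_le_normalizer_sup _ _)
  refine (le_inf (le_normalizer_fsup h) ?_).trans (Subgroup.normalizer_inf_normalizer_le_normalizer_sup _ _)
  rw [Subgroup.le_normalizer_iff]
  rintro u hu _ ⟨n, rfl⟩
  have : Commute u (x ^ n) := (show Commute u x from Subgroup.mem_centralizer_singleton_iff.1 (hx hu)).zpow_right n
  simp only
  rw [this.eq, mul_inv_cancel_right]
  exact ⟨n, rfl⟩

variable [Fact p.Prime] (hs : NCh p s) (hx : ∃ k, orderOf x = p ^ k) (hx1 : x ≠ 1) (hxs : ∀ Q ∈ s, x ∈ 𝐍 Q)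

omit [Finite G] in
include hs hxs in
theorem chW_le {Q : Subgroup G} (hQ : Q ∈ s) : chW x s ≤ 𝐍 Q :=
  sup_le (hs.2.2 Q hQ) (by rw [Subgroup.zpowers_le]; exact hxs Q hQ)

include hs hx hxs in
theorem isPGroup_chW : IsPGroup p (chW x s) := by
  obtain ⟨k, hk⟩ := hx
  refine IsPGroup.to_sup_of_normal_left' ?_ (IsPGroup.of_card (n := k) (by rw [Nat.card_zpowers, hk])) ?_
  · rcases sup_mem_or hs.1 with h | h
    · rw [h]; exact IsPGroup.of_bot
    · exact (hs.2.1 _ h).2
  · exact le_normalizer_fsup fun Q hQ => by rw [Subgroup.zpowers_le]; exact hxs Q hQ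

omit [Finite G] in
include hs hxs in
theorem chW_le_chR : chW x s ≤ 𝐍 (chR x s) :=
  (le_inf (le_normalizer_fsup fun Q hQ => chW_le hs hxs (Finset.mem_filter.1 hQ).1)
    (le_normalizer_nclIn _ _)).trans (Subgroup.normalizer_inf_normalizer_le_normalizer_sup _ _)

omit [Finite G] in
include hs hxs in
theorem chR_cmp {Q : Subgroup G} (hQ : Q ∈ s) : Q ≤ chR x s ∨ chR x s ≤ Q := by
  by_cases h : x ∈ Q
  · refine Or.inr (sup_le (Finset.sup_le fun R hR => ?_) (nclIn_le (chW_le hs hxs hQ) h))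
    obtain ⟨h1, h2⟩ := Finset.mem_filter.1 hR
    exact (hs.1 R h1 Q hQ).resolve_right fun h3 => h2 (h3 h)
  · exact Or.inl ((Finset.le_sup (f := id) (Finset.mem_filter.2 ⟨hQ, h⟩)).trans le_sup_left)

include hs hx hxs in
theorem chW_chT : chW x (chT x s) = chW x s := by
  unfold chT
  split_ifs with h
  · refine le_antisymm (sup_le_sup_right (Finset.sup_mono (Finset.erase_subset _ _)) _) ?_
    by_cases h1 : chR x s = s.sup id
    · have h2 : chW x s ≤ chR x s := sup_le h1.ge (by rw [Subgroup.zpowers_le]; exact mem_chR)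
      refine (sup_zpowers_eq_of_nclIn (isPGroup_chW hs hx hxs) mem_chW (chA_le.trans le_sup_left) h2).trans
        (sup_le_sup_right ?_ _)
      have h3 := chA_chT (x := x) (s := s)
      rw [chT, if_pos h] at h3
      rw [← h3]; exact chA_le
    · refine sup_le_sup_right ?_ _
      rcases sup_mem_or hs.1 with h2 | h2
      · rw [h2]; exact bot_le
      · exact Finset.le_sup (f := id) (Finset.mem_erase.2 ⟨Ne.symm h1, h2⟩)
  · rw [chW, Finset.sup_insert, id, sup_assoc]
    exact sup_eq_right.2 chR_le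

include hs hx hxs in
theorem chR_chT : chR x (chT x s) = chR x s := by
  rw [chR, chA_chT, chW_chT hs hx hxs, chR]

include hs hx hxs in
theorem chT_chT : chT x (chT x s) = s := by
  rw [chT, chR_chT hs hx hxs]
  unfold chT
  by_cases h : chR x s ∈ s
  · simp [h]
  · simp [h]

omit [Finite G] in
theorem mem_chT {Q : Subgroup G} (h : Q ∈ chT x s) : Q = chR x s ∨ Q ∈ s := by
  unfold chT at h
  split_ifs at h
  · exact Or.inr (Finset.mem_erase.1 h).2
  · exact Finset.mem_insert.1 h

include hs hx hx1 hxs in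
theorem nCh_chT : NCh p (chT x s) := by
  refine ⟨fun Q hQ R hR => ?_, fun Q hQ => ?_, fun Q hQ => ?_⟩
  · rcases mem_chT hQ with rfl | h1 <;> rcases mem_chT hR with rfl | h2
    · exact Or.inl le_rfl
    · exact (chR_cmp hs hxs h2).symm
    · exact chR_cmp hs hxs h1
    · exact hs.1 _ h1 _ h2
  · rcases mem_chT hQ with rfl | h1
    · exact ⟨fun e => hx1 (Subgroup.mem_bot.1 (e ▸ mem_chR)), (isPGroup_chW hs hx hxs).to_le chR_le⟩
    · exact hs.2.1 _ h1
  · refine (le_sup_left.trans (chW_chT hs hx hxs).le).trans ?_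
    rcases mem_chT hQ with rfl | h1
    · exact chW_le_chR hs hxs
    · exact chW_le hs hxs h1

omit [Finite G] in
include hs hxs in
theorem fix_chT : ∀ Q ∈ chT x s, x ∈ 𝐍 Q := fun Q hQ => by
  rcases mem_chT hQ with rfl | h1
  · exact chW_le_chR hs hxs mem_chW
  · exact hxs Q h1

omit [Finite G] [Fact p.Prime] in
theorem stab_le_chT : Subgroup.centralizer {x} ⊓ ⨅ Q ∈ s, 𝐍 Q ≤ Subgroup.centralizer {x} ⊓ ⨅ Q ∈ chT x s, 𝐍 Q := by
  have h : ∀ Q ∈ s, Subgroup.centralizer {x} ⊓ ⨅ Q ∈ s, 𝐍 Q ≤ 𝐍 Q := fun Q hQ =>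
    inf_le_right.trans (iInf₂_le Q hQ)
  refine le_inf inf_le_left (le_iInf₂ fun Q hQ => ?_)
  rcases mem_chT hQ with rfl | h1
  · exact le_normalizer_chR h inf_le_left
  · exact h Q h1

omit [Finite G] [Fact p.Prime] in
theorem sign_chT : (-1 : ℤ) ^ (chT x s).card = - (-1) ^ s.card := by
  unfold chT
  split_ifs with h
  · rw [← Finset.card_erase_add_one h, pow_succ]; ring
  · rw [Finset.card_insert_of_notMem h, pow_succ]; ring

include hx hx1 in
theorem sum_chains_eq_zero [Fintype (Finset (Subgroup G))] (F : Subgroup G → ℤ) :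
    ∑ s : Finset (Subgroup G) with NCh p s ∧ ∀ Q ∈ s, x ∈ 𝐍 Q,
      (-1) ^ s.card * F (Subgroup.centralizer {x} ⊓ ⨅ Q ∈ s, 𝐍 Q) = 0 := by
  refine Finset.sum_involution (fun s _ => chT x s) (fun s hs => ?_) (fun s hs _ e => ?_) (fun s hs => ?_)
    fun s hs => ?_
  · obtain ⟨h1, h2⟩ := (Finset.mem_filter.1 hs).2
    have e : Subgroup.centralizer {x} ⊓ ⨅ Q ∈ chT x s, 𝐍 Q = Subgroup.centralizer {x} ⊓ ⨅ Q ∈ s, 𝐍 Q := by
      refine le_antisymm ?_ stab_le_chT
      have := stab_le_chT (x := x) (s := chT x s)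
      rwa [chT_chT h1 hx h2] at this
    rw [e, sign_chT]; ring
  · have := sign_chT (x := x) (s := s)
    rw [e] at this
    rcases neg_one_pow_eq_or ℤ s.card with h | h <;> rw [h] at this <;> norm_num at this
  · obtain ⟨h1, h2⟩ := (Finset.mem_filter.1 hs).2
    exact Finset.mem_filter.2 ⟨Finset.mem_univ _, nCh_chT h1 hx hx1 h2, fix_chT h1 h2⟩
  · obtain ⟨h1, h2⟩ := (Finset.mem_filter.1 hs).2
    exact chT_chT h1 hx h2

end chains

section blocks

variable {G : Type*} [Group G] [Finite G] {K : Type*} [Group K] [Finite K] {M : Ideal AlgInt} {p : ℕ}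
  [hMm : M.IsMaximal]

variable (M) in
/-- characters of `K` whose central character takes the value `1` on the restriction of `ε` -/
def vSet (φ : K →* G) (ε : (Res M)[G]) : Set (IrrCharacter K) := {ξ | lam M (ξ : K → ℂ) (pull φ ε) = 1}

theorem int_vSet (φ : K →* G) {ε : (Res M)[G]} (h : IsCen ε) : IsInt M (idem (vSet M φ ε)) :=
  isInt_idem_of_separated _ fun χ hχ ψ hψ e => hψ (by
    show lam M _ _ = 1
    rw [← sameBlock_lam e (h.pull φ)]; exact hχ)

theorem brSet_vSet (hM : IsPModular p M) (φ : K →* G) {ε : (Res M)[G]} (h : IsCen ε) {x : K}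
    (hx : ∃ k, orderOf x = p ^ k) :
    brSet M x (vSet M φ ε) = vSet M (φ.comp (Subgroup.centralizer {x}).subtype) ε := by
  ext ξ
  obtain ⟨β, hβ⟩ := exists_induced_centralizer hM hx (isPBlock_blockOf (M := M) ξ)
  obtain ⟨ψ, hψ⟩ := block_nonempty hβ.2.1
  rw [mem_brSet_iff_of_induced (int_vSet φ h) hβ (mem_blockOf_self ξ) hψ]
  show lam M _ _ = 1 ↔ lam M _ _ = 1
  rw [pull_comp, (isInducedBlock_iff_indVia.1 hβ).lam_eq (mem_blockOf_self ξ) hψ (h.pull φ)]

theorem card_vSet_range {φ : K →* G} (hφ : Function.Injective φ) {H : Subgroup G} (hH : φ.range = H)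
    (ε : (Res M)[G]) : Nat.card (vSet M φ ε) = Nat.card (vSet M H.subtype ε) := by
  subst hH
  rw [← card_bmap (MonoidHom.ofInjective hφ)]
  congr 2
  ext ξ
  obtain ⟨ξ, rfl⟩ := (irrComap (MonoidHom.ofInjective hφ)).surjective ξ
  rw [irrComap_mem_bmap]
  show lam M _ _ = 1 ↔ lam M _ _ = 1
  rw [← lam_irrComap (MonoidHom.ofInjective hφ) ξ, ← pull_comp]
  rfl

theorem rank_vSet_range {φ : K →* G} (hφ : Function.Injective φ) {H : Subgroup G} (hH : φ.range = H)
    (ε : (Res M)[G]) : blockRank p (vSet M φ ε) = blockRank p (vSet M H.subtype ε) := by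
  subst hH
  rw [← blockRank_bmap p (MonoidHom.ofInjective hφ)]
  congr 1
  ext ξ
  obtain ⟨ξ, rfl⟩ := (irrComap (MonoidHom.ofInjective hφ)).surjective ξ
  rw [irrComap_mem_bmap]
  show lam M _ _ = 1 ↔ lam M _ _ = 1
  rw [← lam_irrComap (MonoidHom.ofInjective hφ) ξ, ← pull_comp]
  rfl

theorem vSet_eq_induced (hM : IsPModular p M) {B : Set (IrrCharacter G)} (hB : IsPBlock M B) {H : Subgroup G}
    (h : ∀ b : Set (IrrCharacter H), IsPBlock M b → ∃ B', IsInducedBlock M H b B') :
    {ψ : IrrCharacter H | ∃ β, ψ ∈ β ∧ IsInducedBlock M H β B} = vSet M H.subtype (eB M B) := by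
  ext ψ
  refine ⟨fun ⟨β, h1, h2⟩ => IndVia.lam_pull_eB (M := M) (isInducedBlock_iff_indVia.1 h2) h1, fun h1 => ?_⟩
  obtain ⟨B', h2⟩ := h _ (isPBlock_blockOf (M := M) ψ)
  refine ⟨_, mem_blockOf_self (M := M) ψ, ?_⟩
  have h3 : lam M (ψ : H → ℂ) (pull H.subtype (eB M B)) = 1 := h1
  rwa [(isInducedBlock_iff_indVia.1 h2).eq_of_lam_ne_zero hB (mem_blockOf_self ψ) (by rw [h3]; exact one_ne_zero)]

theorem vSet_id {B : Set (IrrCharacter G)} (hB : IsPBlock M B) : vSet M (MonoidHom.id G) (eB M B) = B := by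
  ext χ
  show lam M _ (redA M (idem B)) = 1 ↔ _
  by_cases h : χ ∈ B
  · rw [lam_idem_of_mem (int_block hB) h]; simp [h]
  · rw [lam_idem_of_notMem (int_block hB) h]; simp [h]

omit hMm in
theorem sum_isConj_card [Fintype G] (y : G) :
    ∑ x with IsConj x y, Nat.card (Subgroup.centralizer ({x} : Set G)) = Nat.card G := by
  have h1 : ∀ x ∈ Finset.univ.filter (fun x => IsConj x y), Nat.card (Subgroup.centralizer ({x} : Set G)) =
      Nat.card (Subgroup.centralizer ({y} : Set G)) := fun x hx =>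
    card_centralizer_isConj (Finset.mem_filter.1 hx).2
  rw [Finset.sum_congr rfl h1, Finset.sum_const, smul_eq_mul, ← Subgroup.index_mul_card (Subgroup.centralizer {y}),
    ← card_filter_isConj]
  congr 2
  ext x
  simp only [Finset.mem_filter, Finset.mem_univ, true_and]
  exact isConj_comm

theorem sum_card_mul_rank [Fintype G] (hM : IsPModular p M) {A : Set (IrrCharacter G)} (hA : IsInt M (idem A)) :
    ∑ x : G with (∃ k, orderOf x = p ^ k),
      Nat.card (Subgroup.centralizer ({x} : Set G)) * blockRank p (brSet M x A) = Nat.card G * Nat.card A := by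
  have : Fact p.Prime := ⟨hM.1⟩
  have hG : (Nat.card G : ℂ) ≠ 0 := Nat.cast_ne_zero.2 Nat.card_pos.ne'
  have h1 : ∑ x : G with (∃ k, orderOf x = p ^ k),
      (Nat.card (Subgroup.centralizer ({x} : Set G)) : ℂ) * blockRank p (brSet M x A) = Nat.card G * Nat.card A := by
    rw [Finset.sum_congr rfl fun x hx => by
      rw [← sum_section_eq_rank_brSet hM hA (Finset.mem_filter.1 hx).2, Finset.mul_sum], Finset.sum_comm,
      natCard_eq_card_filter, Finset.card_eq_sum_ones, Nat.cast_sum, Finset.mul_sum]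
    refine Finset.sum_congr rfl fun χ _ => ?_
    have h2 : ∀ g : G, ∑ x : G with (∃ k, orderOf x = p ^ k), (if IsConj x (pPart p g) then
        (Nat.card (Subgroup.centralizer ({x} : Set G)) : ℂ) else 0) = Nat.card G := fun g => by
      rw [← Finset.sum_filter, Finset.filter_filter, ← sum_isConj_card (pPart p g), Nat.cast_sum]
      refine Finset.sum_congr ?_ fun _ _ => rfl
      ext x
      simp only [Finset.mem_filter, Finset.mem_univ, true_and, and_iff_right_iff_imp]
      intro h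
      obtain ⟨c, hc⟩ := isConj_iff.1 h
      obtain ⟨k, hk⟩ := orderOf_pPart p g
      exact ⟨k, by rw [← hk, ← hc, orderOf_conj']⟩
    have h3 := χ.2.classInner_self
    rw [classInner_def] at h3
    calc _ = (Nat.card G : ℂ)⁻¹ * ∑ g, (∑ x : G with (∃ k, orderOf x = p ^ k), (if IsConj x (pPart p g) then
        (Nat.card (Subgroup.centralizer ({x} : Set G)) : ℂ) else 0)) * ((χ : G → ℂ) g * conj ((χ : G → ℂ) g)) := by
          simp only [Finset.sum_mul, Finset.mul_sum, Finset.sum_filter (p := fun g => IsConj _ (pPart p g))]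
          rw [Finset.sum_comm]
          refine Finset.sum_congr rfl fun g _ => Finset.sum_congr rfl fun x _ => ?_
          split_ifs <;> ring
      _ = _ := by
          simp only [h2]
          rw [← Finset.mul_sum, mul_left_comm, h3, Nat.cast_one]
  exact_mod_cast h1

theorem card_mul_sub_rank [Fintype G] (hM : IsPModular p M) {A : Set (IrrCharacter G)} (hA : IsInt M (idem A)) :
    (Nat.card G : ℤ) * ((Nat.card A : ℤ) - blockRank p A) = ∑ x with (∃ k, orderOf x = p ^ k) ∧ x ≠ 1,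
      (Nat.card (Subgroup.centralizer ({x} : Set G)) : ℤ) * blockRank p (brSet M x A) := by
  have h1 := sum_card_mul_rank hM hA
  rw [← Finset.add_sum_erase _ _ (a := 1) (Finset.mem_filter.2 ⟨Finset.mem_univ _, 0, by simp⟩),
    rank_brSet_one hM hA, Subgroup.centralizer_eq_top_iff_subset.2 (by simp), Subgroup.card_top] at h1
  rw [mul_sub, ← Nat.cast_mul, ← h1]
  push_cast
  rw [add_sub_cancel_left]
  refine Finset.sum_congr ?_ fun _ _ => rfl
  ext x
  simp only [Finset.mem_filter, Finset.mem_univ, true_and, Finset.mem_erase, and_comm]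

theorem card_mul_sub_rank_vSet [Fintype G] (hM : IsPModular p M) {φ : K →* G} (hφ : Function.Injective φ)
    {H : Subgroup G} (hH : φ.range = H) {ε : (Res M)[G]} (h : IsCen ε) :
    (Nat.card K : ℤ) * ((Nat.card (vSet M φ ε) : ℤ) - blockRank p (vSet M φ ε)) =
      ∑ x with (∃ k, orderOf x = p ^ k) ∧ x ≠ 1, if x ∈ H then
      (Nat.card (Subgroup.centralizer {x} ⊓ H : Subgroup G) : ℤ) *
        blockRank p (vSet M (Subgroup.centralizer {x} ⊓ H).subtype ε) else 0 := by
  have := Fintype.ofFinite K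
  rw [← Finset.sum_filter, Finset.filter_filter]
  subst hH
  rw [card_mul_sub_rank hM (int_vSet φ h)]
  refine Finset.sum_bij (fun x _ => φ x) (fun x hx => ?_) (fun x _ y _ e => hφ e) (fun y hy => ?_) fun x hx => ?_
  · obtain ⟨h1, h2⟩ := (Finset.mem_filter.1 hx).2
    simp only [Finset.mem_filter]
    exact ⟨Finset.mem_univ _, ⟨by rwa [orderOf_injective φ hφ], fun e => h2 (hφ (by simpa))⟩, x, rfl⟩
  · simp only [Finset.mem_filter] at hy
    obtain ⟨⟨h1, h2⟩, x, rfl⟩ := hy.2
    exact ⟨x, Finset.mem_filter.2 ⟨Finset.mem_univ _, by rwa [orderOf_injective φ hφ] at h1, fun e => h2 (by simp [e])⟩,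
      rfl⟩
  · have hi : Function.Injective (φ.comp (Subgroup.centralizer {x}).subtype) := hφ.comp Subtype.val_injective
    have hr : (φ.comp (Subgroup.centralizer {x}).subtype).range = Subgroup.centralizer {φ x} ⊓ φ.range := by
      ext y
      simp only [MonoidHom.mem_range, MonoidHom.comp_apply, Subgroup.coe_subtype, Subtype.exists, exists_prop,
        Subgroup.mem_inf, Subgroup.mem_centralizer_singleton_iff]
      constructor
      · rintro ⟨a, ha, rfl⟩
        exact ⟨by rw [← map_mul, ha, map_mul], a, rfl⟩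
      · rintro ⟨h1, a, rfl⟩
        exact ⟨a, hφ (by simpa using h1), rfl⟩
    rw [brSet_vSet hM φ h (Finset.mem_filter.1 hx).2.1, rank_vSet_range hi hr, ← hr,
      Nat.card_congr (MonoidHom.ofInjective hi).toEquiv]

theorem knorr_robinson [Fintype (Finset (Subgroup G))] (hM : IsPModular p M) {ε : (Res M)[G]} (h : IsCen ε) :
    ∑ s : Finset (Subgroup G) with NCh p s, (-1 : ℤ) ^ s.card * ((Nat.card (⨅ Q ∈ s, 𝐍 Q : Subgroup G) : ℤ) *
      ((Nat.card (vSet M (⨅ Q ∈ s, 𝐍 Q).subtype ε) : ℤ) - blockRank p (vSet M (⨅ Q ∈ s, 𝐍 Q).subtype ε))) = 0 := by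
  have := Fintype.ofFinite G
  have : Fact p.Prime := ⟨hM.1⟩
  simp only [card_mul_sub_rank_vSet hM (Subgroup.subtype_injective _) (Subgroup.range_subtype _) h, Finset.mul_sum]
  rw [Finset.sum_comm]
  refine Finset.sum_eq_zero fun x hx => ?_
  obtain ⟨h1, h2⟩ := (Finset.mem_filter.1 hx).2
  refine Eq.trans ?_ (sum_chains_eq_zero h1 h2 fun H => (Nat.card H : ℤ) * blockRank p (vSet M H.subtype ε))
  rw [Finset.sum_filter, Finset.sum_filter]
  refine Finset.sum_congr rfl fun s _ => ?_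
  simp only [Subgroup.mem_iInf]
  by_cases h3 : NCh p s <;> by_cases h4 : ∀ Q ∈ s, x ∈ 𝐍 Q <;> simp [h3, h4]

end blocks

end H20
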