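import Cfsg.Agent.H20.FtW
import Cfsg.Agent.H20.XhE

/-!
# Large Fischer type: transitivity inside `N(A) ∩ C(z)` (namespace `H20.FtB`)
-/

set_option autoImplicit false
set_option linter.unusedSectionVars false
open Cfsg BG Subgroup H20.FtW H01.XF

namespace H20.FtB
universe u
variable {G : Type u} [Group G] [Finite G] {A B Q X : Subgroup G} {g h s t w x y z : G}

theorem fc (u : ∀ P : Subgroup G, IsPGroup 2 P → Un P) (e : EA A) (c : Nat.card A = 2048) (l : A ≤ X)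
    (l' : BG.cj g A ≤ X) : ∃ k ∈ X, k * g ∈ N_(A) := by
  obtain ⟨S, hS, i⟩ := sylow_superset Nat.prime_two e.pg l
  obtain ⟨k, kX, j⟩ := sylow_Jsub Nat.prime_two hS (e.cj g).pg l'
  have := (u S (hS.pg Nat.prime_two)).2 _ j _ i ((e.cj g).cj k) e (by rw [BG.card_cj, BG.card_cj, c]) c
  rw [BG.cj_cj] at this
  exact ⟨k, kX, BG.cj_eq_self_iff.1 this⟩

theorem sy (u : ∀ P : Subgroup G, IsPGroup 2 P → Un P) (e : EA A) (c : Nat.card A = 2048) (X : Subgroup G) (l : A ≤ X)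
    (k : ℕ) (d : 2 ^ k ∣ Nat.card X) : 2 ^ k ∣ Nat.card ↥(N_(A) ⊓ X) := by
  obtain ⟨S, hS, i⟩ := sylow_superset Nat.prime_two e.pg l
  refine (hS.pow_dvd Nat.prime_two d).trans (card_dvd_of_le (le_inf (fun s m => BG.cj_eq_self_iff.1 ?_)
    ((isSylowIn_iff Nat.prime_two).1 hS).1))
  exact (u S (hS.pg Nat.prime_two)).2 _ (cj_le_of_mem i m) _ i (e.cj s) e ((BG.card_cj _ _).trans c) c

theorem tr (u : ∀ P : Subgroup G, IsPGroup 2 P → Un P) (e : EA A) (c : Nat.card A = 2048) (zA : z ∈ A) (hx : x ∈ A)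
    (hy : y ∈ A) (i : h ∈ C_[z]) (o : h * x * h⁻¹ = y) : ∃ m ∈ N_(A), m * z * m⁻¹ = z ∧ m * x * m⁻¹ = y := by
  obtain ⟨k, ⟨k1, k2⟩, m⟩ := fc (X := C_[z] ⊓ C_[y]) (g := h) u e c (le_inf (e.cent zA) (e.cent hy))
    (le_inf (cj_le_of_mem (e.cent zA) i) ((e.cj h).cent (o ▸ BG.conj_mem_cj h hx)))
  refine ⟨_, m, mul_inv_eq_iff_eq_mul.2 (mem_cent1.1 (mul_mem k1 i)), ?_⟩
  rw [show k * h * x * (k * h)⁻¹ = k * (h * x * h⁻¹) * k⁻¹ by group, o]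
  exact mul_inv_eq_iff_eq_mul.2 (mem_cent1.1 k2)

theorem two (st : ∀ x ∈ Q, x * x = 1 → x ≠ 1 → x ≠ z → (∃ h ∈ C_[z], h * s * h⁻¹ = x) ∨ ∃ h ∈ C_[z], h * t * h⁻¹ = x)
    (wQ : w ∈ Q) (w2 : w * w = 1) (w1 : w ≠ 1) (wz : w ≠ z) (xQ : x ∈ Q) (x2 : x * x = 1) (x1 : x ≠ 1) (xz : x ≠ z)
    (yQ : y ∈ Q) (y2 : y * y = 1) (y1 : y ≠ 1) (yz : y ≠ z) (n : ¬ IsConj w x) (n' : ¬ IsConj w y) :
    ∃ h ∈ C_[z], h * x * h⁻¹ = y := by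
  have a : ∀ r p q : G, (∃ h ∈ C_[z], h * r * h⁻¹ = p) → (∃ h ∈ C_[z], h * r * h⁻¹ = q) → ∃ h ∈ C_[z], h * p * h⁻¹ = q := by
    rintro r _ _ ⟨h, i, rfl⟩ ⟨k, j, rfl⟩
    exact ⟨k * h⁻¹, mul_mem j (inv_mem i), by group⟩
  have b : ∀ p q : G, (∃ h ∈ C_[z], h * p * h⁻¹ = q) → IsConj p q := fun p q ⟨h, _, e⟩ => isConj_iff.2 ⟨h, e⟩
  rcases st w wQ w2 w1 wz with q | q
  · exact a _ _ _ ((st x xQ x2 x1 xz).resolve_left fun r => n (b _ _ (a _ _ _ q r)))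
      ((st y yQ y2 y1 yz).resolve_left fun r => n' (b _ _ (a _ _ _ q r)))
  · exact a _ _ _ ((st x xQ x2 x1 xz).resolve_right fun r => n (b _ _ (a _ _ _ q r)))
      ((st y yQ y2 y1 yz).resolve_right fun r => n' (b _ _ (a _ _ _ q r)))

theorem trDB (u : ∀ P : Subgroup G, IsPGroup 2 P → Un P) (e : EA A) (c : Nat.card A = 2048) (BA : B ≤ A) (BQ : B ≤ Q)
    (zB : z ∈ B) (z1 : z ≠ 1)
    (st : ∀ x ∈ Q, x * x = 1 → x ≠ 1 → x ≠ z → (∃ h ∈ C_[z], h * s * h⁻¹ = x) ∨ ∃ h ∈ C_[z], h * t * h⁻¹ = x)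
    (wB : w ∈ B) (wz : w ≠ z) (zw : IsConj z w) :
    ∀ s ∈ {t | t ∈ A ∧ t ≠ 1 ∧ ¬ IsConj z t}, s ∈ B → ∀ t ∈ {t | t ∈ A ∧ t ≠ 1 ∧ ¬ IsConj z t}, t ∈ B →
      ∃ m ∈ N_(A), m * z * m⁻¹ = z ∧ m * s * m⁻¹ = t := fun x ⟨i1, i2, i3⟩ i y ⟨j1, j2, j3⟩ j => by
  obtain ⟨h, k, o⟩ := two st (BQ wB) (e w (BA wB)) (fun k => z1 (by simpa [k] using zw)) wz (BQ i) (e x i1) i2
    (fun k => i3 (k ▸ .refl _)) (BQ j) (e y j1) j2 (fun k => j3 (k ▸ .refl _)) (fun k => i3 (zw.trans k))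
    fun k => j3 (zw.trans k)
  exact tr u e c (BA zB) i1 j1 k o

theorem trZB (u : ∀ P : Subgroup G, IsPGroup 2 P → Un P) (e : EA A) (c : Nat.card A = 2048) (BA : B ≤ A) (BQ : B ≤ Q)
    (zB : z ∈ B)
    (st : ∀ x ∈ Q, x * x = 1 → x ≠ 1 → x ≠ z → (∃ h ∈ C_[z], h * s * h⁻¹ = x) ∨ ∃ h ∈ C_[z], h * t * h⁻¹ = x)
    (nz : ∃ x ∈ B, x ≠ 1 ∧ ¬ IsConj z x) :
    ∀ x ∈ B, x ∉ {t | t ∈ A ∧ t ≠ 1 ∧ ¬ IsConj z t} → x ≠ 1 → x ≠ z → ∀ y ∈ B,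
      y ∉ {t | t ∈ A ∧ t ≠ 1 ∧ ¬ IsConj z t} → y ≠ 1 → y ≠ z → ∃ m ∈ N_(A), m * z * m⁻¹ = z ∧ m * x * m⁻¹ = y :=
  fun x i i1 i2 i3 y j j1 j2 j3 => by
  obtain ⟨w, wB, w1, n⟩ := nz
  have a : IsConj z x := by_contra fun k => i1 ⟨BA i, i2, k⟩
  have b : IsConj z y := by_contra fun k => j1 ⟨BA j, j2, k⟩
  obtain ⟨h, k, o⟩ := two st (BQ wB) (e w (BA wB)) w1 (fun k => n (k ▸ .refl _)) (BQ i) (e x (BA i)) i2 i3 (BQ j)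
    (e y (BA j)) j2 j3 (fun k => n (a.trans k.symm)) fun k => n (b.trans k.symm)
  exact tr u e c (BA zB) (BA i) (BA j) k o

variable {V : Type u} [AddCommGroup V] [Module (ZMod 2) V] [Finite V] {Γ : Type u} [Group Γ] [Finite Γ]
  {T : Γ → V →+ V} {d : Γ} {M : Subgroup Γ} {β : V →+ V →+ ZMod 2} {q : V → ZMod 2}
  {ν : G → V} {f : C_[z] →* Γ} {π : G → Γ}

theorem c21 (b : Br z Q f π ν T d M β q) (u : ∀ P : Subgroup G, IsPGroup 2 P → Un P) (e : EA A) (c : Nat.card A = 2048)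
    (zA : z ∈ A) : 2 ^ 21 ∣ Nat.card (N_(A) ⊓ centralizer {z} : Subgroup G) := by
  refine sy u e c _ (e.cent zA) 21 ?_
  have := H20.XhE.cnt b (le_refl C_[z])
  rw [inf_eq_left.2 b.md.lx.le, b.card, subgroupOf_self, map_top_of_surjective f (fun k => by
    obtain ⟨x, j, e⟩ := b.sur k
    exact ⟨⟨x, j⟩, (b.pf _).trans e⟩), card_top, b.gm.cΓ] at this
  rw [← this]; norm_num

theorem cos (b : Br z Q f π ν T d M β q) (u : ∀ P : Subgroup G, IsPGroup 2 P → Un P) (e : EA A) (c : Nat.card A = 2048)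
    (zA : z ∈ A) (e3 : A ⊓ Q = B) (AM : (A.subgroupOf C_[z]).map f ≤ M)
    (oc : ∀ x ∈ M, ∀ y ∈ M, x * x = 1 → y * y = 1 → x ≠ 1 → y ≠ 1 → ∃ g, g * x * g⁻¹ = y) :
    ∀ x ∈ A, x ∉ B → ∀ y ∈ A, y ∉ B → ∃ m ∈ N_(A), m * z * m⁻¹ = z ∧ m * x * m⁻¹ * y ∈ B := fun x i i1 y j j1 => by
  have l := e.cent zA
  have p1 : π 1 = 1 := (b.ker 1 (one_mem _)).2 (one_mem _)
  have m : ∀ x ∈ A, π x ∈ M := fun x i => AM ⟨⟨x, l i⟩, i, b.pf _⟩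
  have s2 : ∀ x ∈ A, π x * π x = 1 := fun x i => by rw [← b.mul x (l i) x (l i), e x i, p1]
  have n1 : ∀ x ∈ A, x ∉ B → π x ≠ 1 := fun x i n k => n (e3.le ⟨i, (b.ker x (l i)).1 k⟩)
  have cj : ∀ h ∈ C_[z], ∀ x ∈ C_[z], π (h * x * h⁻¹) = π h * π x * (π h)⁻¹ := fun h hi x xi => by
    rw [b.mul _ (mul_mem hi xi) _ (inv_mem hi), b.mul _ hi _ xi, b.inv _ hi]
  obtain ⟨γ, o⟩ := oc _ (m x i) _ (m y j) (s2 x i) (s2 y j) (n1 x i i1) (n1 y j j1)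
  obtain ⟨h, hi, rfl⟩ := b.sur γ
  have mX : ∀ r, r ∈ (C_[π y].comap f).map C_[z].subtype ↔ r ∈ C_[z] ∧ π r * π y = π y * π r := fun r =>
    ⟨by rintro ⟨r, k, rfl⟩; exact ⟨r.2, (b.pf r) ▸ mem_cent1.1 k⟩, fun k => ⟨⟨r, k.1⟩, mem_cent1.2 ((b.pf ⟨r, k.1⟩).symm ▸ k.2), rfl⟩⟩
  have cm : ∀ x ∈ A, ∀ y ∈ A, π x * π y = π y * π x := fun x i y j => by
    rw [← b.mul x (l i) y (l j), e.comm i j, b.mul y (l j) x (l i)]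
  obtain ⟨k, k1, k2⟩ := fc (X := (C_[π y].comap f).map C_[z].subtype) (g := h) u e c
    (fun r k => (mX r).2 ⟨l k, cm r k y j⟩) fun r k => by
      obtain ⟨r', k', rfl⟩ := BG.mem_cj'.1 k
      refine (mX _).2 ⟨mul_mem (mul_mem hi (l k')) (inv_mem hi), ?_⟩
      rw [cj h hi r' (l k'), ← o, conj_mul, conj_mul, cm r' k' x i]
  obtain ⟨k3, k4⟩ := (mX k).1 k1
  have a := mul_mem (conj_mem_of_norm k2 i) j
  refine ⟨_, k2, mul_inv_eq_iff_eq_mul.2 (mem_cent1.1 (mul_mem k3 hi)), e3.le ⟨a, (b.ker _ (l a)).1 ?_⟩⟩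
  rw [b.mul _ (l (conj_mem_of_norm k2 i)) _ (l j), cj _ (mul_mem k3 hi) _ (l i), b.mul _ k3 _ hi,
    show π k * π h * π x * (π k * π h)⁻¹ = π k * (π h * π x * (π h)⁻¹) * (π k)⁻¹ by group, o, k4, mul_inv_cancel_right, s2 y j]

end H20.FtB
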