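import Mathlib
import Cfsg.Agent.H21.Abel
import Cfsg.Agent.H21.Nilp
import Cfsg.Agent.H21.CFam

/-!
Brauer's bound for heights by the centre of a defect group (namespace H20).
* `cf_le_sum_re` (trace of a totally positive cyclotomic integer), `cf_sm` (uniform level);
* `card_center_mul_le` : `|Z(D)| p^h ≤ p^d e`; `exists_pair_of_sup` (blocks of `D C(D)` and Brauer pairs).
-/

set_option autoImplicit false
set_option linter.unusedSectionVars false
set_option linter.unusedVariables false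

open Cfsg H05 H21 MonoidAlgebra Classical Polynomial
open scoped ComplexConjugate

namespace H20

local notation:max "𝐂" Q:max => Subgroup.centralizer (SetLike.coe Q)
local notation:max "𝐍" Q:max => Subgroup.normalizer (SetLike.coe Q)
local notation:max "⟪" u "⟫" => Subgroup.zpowers u

theorem cf_le_sum_re {p k : ℕ} {ζ : ℂ} (hp : p.Prime) (hζ : IsPrimitiveRoot ζ (p ^ (k + 1))) {x : ℕ → ℂ}
    (h : CF p ζ x) (h1 : x 1 ≠ 0) (h2 : ∀ j, ¬ p ∣ j → 0 ≤ (x j).re ∧ (x j).im = 0) :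
    ((U p k).card : ℝ) ≤ ∑ j ∈ U p k, (x j).re := by
  obtain ⟨F, hF⟩ := h
  have hN : 1 < p ^ (k + 1) := Nat.one_lt_pow (by omega) hp.one_lt
  have hco : ∀ j, ¬ p ∣ j → j.Coprime (p ^ (k + 1)) := fun j hj =>
    ((hp.coprime_iff_not_dvd.2 hj).symm).pow_right _
  have hmod : ∀ j, ζ ^ (j % p ^ (k + 1)) = ζ ^ j := fun j => by
    rw [hζ.eq_orderOf, pow_mod_orderOf]
  have hdvd : ∀ j, p ∣ j % p ^ (k + 1) ↔ p ∣ j := fun j => Nat.dvd_mod_iff (dvd_pow_self p (by omega))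
  have h3 : ∀ j, ¬ p ∣ j → aeval (ζ ^ j) F ≠ 0 := fun j hj e => by
    obtain ⟨i, -, hi⟩ := Nat.exists_mul_mod_eq_one_of_coprime (hco j hj) hN
    have h4 : ¬ p ∣ i := fun hd => hp.not_dvd_one (by rw [← hi, hdvd]; exact hd.mul_left _)
    have := CF.aeval_eq_zero hp (hζ.pow_of_coprime j (hco j hj)) e h4
    rw [← pow_mul, ← hmod, hi] at this
    exact h1 (by rw [hF 1 hp.not_dvd_one, this])
  have h4 : ∀ i, ¬ p ∣ i → ∏ j ∈ U p k, aeval (ζ ^ (i * j)) F = ∏ j ∈ U p k, aeval (ζ ^ j) F := fun i hi => by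
    have hm : ∀ j ∈ U p k, i * j % p ^ (k + 1) ∈ U p k := fun j hj =>
      mem_U.2 ⟨Nat.mod_lt _ (by omega), by rw [hdvd, hp.dvd_mul]; exact not_or.2 ⟨hi, (mem_U.1 hj).2⟩⟩
    have hinj : Set.InjOn (fun j => i * j % p ^ (k + 1)) (U p k) := fun j hj j' hj' e =>
      Nat.ModEq.eq_of_lt_of_lt (Nat.ModEq.cancel_left_of_coprime (hco i hi).symm e) (mem_U.1 hj).1 (mem_U.1 hj').1
    exact Finset.prod_nbij _ hm hinj (Finset.surjOn_of_injOn_of_card_le _ hm hinj le_rfl) fun j _ => by rw [hmod]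
  have h5 : CF p ζ fun _ => ∏ j ∈ U p k, aeval (ζ ^ j) F :=
    ⟨∏ j ∈ U p k, F.comp (X ^ j), fun i hi => by
      rw [← h4 i hi, map_prod]
      exact Finset.prod_congr rfl fun j _ => by rw [aeval_comp, map_pow, aeval_X, pow_mul]⟩
  have h6 := CF.le_sum_normSq hp hζ h5 (Finset.prod_ne_zero_iff.2 fun j hj => h3 j (mem_U.1 hj).2)
  have hU : (0 : ℝ) < (U p k).card := Nat.cast_pos.2 (card_U_pos hp k)
  rw [Finset.sum_const, nsmul_eq_mul, le_mul_iff_one_le_right hU] at h6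
  have h7 : ∀ j ∈ U p k, aeval (ζ ^ j) F = ((x j).re : ℂ) := fun j hj => by
    rw [← hF j (mem_U.1 hj).2]; exact Complex.ext rfl (by simp [(h2 j (mem_U.1 hj).2).2])
  have h8 : ∀ j ∈ U p k, 0 < (x j).re := fun j hj => lt_of_le_of_ne (h2 j (mem_U.1 hj).2).1 fun e =>
    h3 j (mem_U.1 hj).2 (by rw [h7 j hj, ← e]; simp)
  rw [Finset.prod_congr rfl h7, ← Complex.ofReal_prod, Complex.normSq_ofReal] at h6
  have h9 : 1 ≤ ∏ j ∈ U p k, (x j).re := by
    have := Finset.prod_pos h8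
    nlinarith
  have h10 := Real.log_nonneg h9
  rw [Real.log_prod fun j hj => (h8 j hj).ne'] at h10
  have h11 := Finset.sum_le_sum fun j hj => Real.log_le_sub_one_of_pos (h8 j hj)
  rw [Finset.sum_sub_distrib, Finset.sum_const, nsmul_eq_mul, mul_one] at h11
  linarith

variable {M : Ideal AlgInt} {G : Type*} [Group G] [Fintype G] {p : ℕ} {B : Set (IrrCharacter G)}

theorem cf_sm {C : Subgroup G} [Fintype C] {u : G} {b : Set (IrrCharacter C)} (h : Sub p M B C u b) {k : ℕ}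
    (hk : u ^ p ^ (k + 1) = 1) {ζ : ℂ} (hζ : IsPrimitiveRoot ζ (p ^ (k + 1))) {χ ψ : G → ℂ}
    (hχ : IsGeneralizedCharacter G χ) (hψ : IsGeneralizedCharacter G ψ) : CF p ζ fun j => sm p b (u ^ j) χ ψ := by
  have hp := h.mod.1
  obtain ⟨e, -, he⟩ := exists_root_bs hp h.mem h.comm hk hζ
  simp only [sm, he _ _ _ hχ, he _ _ _ hψ, pow_mul_contrib_comb hp]
  exact CF.sum fun ξ _ => CF.sum fun η _ => (((CF.int _).mul (CF.root _)).mul
    (((CF.int _).mul (CF.root _)).star hp hζ)).mul (CF.int _)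

variable [hMm : M.IsMaximal] {b : BrauerPairIdx G}

theorem mv_pow (h : Mx M p B b) {v : G} (hv : v ∈ b.1) {j : ℕ} (hj : ¬ p ∣ j) (χ ψ : G → ℂ) :
    sm p (sb M p b v) (v ^ j) χ ψ = (p : ℂ) ^ blockDefect p (sb M p b v) * mv M p b (v ^ j) χ ψ := by
  obtain ⟨k, hk⟩ := h.ord hv
  have e : ⟪v⟫ = ⟪v ^ j⟫ := le_antisymm (Subgroup.zpowers_le.2 (mem_zpowers_pow_iff.2 (by
    rw [hk]; exact ((h.mod.1.coprime_iff_not_dvd.2 hj).symm).pow_right _)))
    (Subgroup.zpowers_le.2 (Subgroup.npow_mem_zpowers v j))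
  rw [mv_eq_mm, ← h.sp_congr hv e]
  convert sm_eq_mm (a := sp M p b v)

theorem avg_major (h : Mx M p B b) {v : G} (hv : v ∈ b.1) (hc : b.1 ≤ 𝐂 ⟪v⟫) {k : ℕ} (hk : v ^ p ^ (k + 1) = 1)
    {χ : IrrCharacter G} (hχ : χ ∈ B) : ((U p k).card : ℝ) * p ^ blockHeight p B (χ : G → ℂ) ≤
      p ^ blockDefect p B * ∑ j ∈ U p k, (mv M p b (v ^ j) χ χ).re := by
  have hp := h.mod.1
  have hζ := Complex.isPrimitiveRoot_exp (p ^ (k + 1)) (pow_ne_zero _ hp.ne_zero)
  have hs := h.sub hv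
  have hd := h.defect_sb hv hc
  have hp0 : (0 : ℝ) < (p : ℝ) ^ blockHeight p B (χ : G → ℂ) := pow_pos (Nat.cast_pos.2 hp.pos) _
  have e : ∀ j, ¬ p ∣ j → sm p (sb M p b v) (v ^ j) χ χ / (p : ℂ) ^ blockHeight p B (χ : G → ℂ) =
      ((p ^ blockDefect p B * (mv M p b (v ^ j) χ χ).re / p ^ blockHeight p B (χ : G → ℂ) : ℝ) : ℂ) := fun j hj => by
    rw [mv_pow h hv hj, hd]
    push_cast
    congr 2
    exact Complex.ext rfl (by simp [mv_self_im])
  have h1 := cf_le_sum_re hp hζ ((cf_sm hs hk hζ χ.2.isGeneralizedCharacter χ.2.isGeneralizedCharacter).div_pow h.mod hζ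
    (blockHeight p B (χ : G → ℂ)) (by simpa using (hs.major_sm hd hχ hχ).1))
    (div_ne_zero (by simpa using hs.sm_self_ne_zero hd hχ) (pow_ne_zero _ (Nat.cast_ne_zero.2 hp.ne_zero)))
    fun j hj => by
      rw [e j hj, Complex.ofReal_re, Complex.ofReal_im]
      exact ⟨div_nonneg (mul_nonneg (by positivity) mv_self_re_nonneg) hp0.le, rfl⟩
  rw [Finset.sum_congr rfl fun j hj => by rw [e j (mem_U.1 hj).2, Complex.ofReal_re], ← Finset.sum_div,
    le_div_iff₀ hp0, ← Finset.mul_sum] at h1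
  exact h1

theorem fus_center (h : Mx M p B b) {v w : G} (hv : v ∈ b.1) (hc : b.1 ≤ 𝐂 ⟪v⟫) (hc' : b.1 ≤ 𝐂 ⟪w⟫)
    (h1 : Fus M p b v w) : ∃ t ∈ pstab b, t * v * t⁻¹ = w := by
  obtain ⟨x, rfl, h1⟩ := h1
  obtain ⟨y, hy, h2⟩ := h.max.exists_pstab_of_le h.mod (h.sp_ple hv) h1 (H := 𝐂 ⟪v⟫) le_rfl
    (centralizer_le_pstab (sp M p b v)) hc (by rwa [cj_centralizer, cj_zpowers])
  refine ⟨y, hy, ?_⟩
  nth_rw 1 [← mem_centralizer_zpowers.1 h2]
  group

theorem card_center_mul_le (h : Mx M p B b) {χ : IrrCharacter G} (hχ : χ ∈ B) :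
    Nat.card (Subgroup.center b.1) * p ^ blockHeight p B (χ : G → ℂ) ≤
      p ^ blockDefect p B * (b.1 ⊔ 𝐂 b.1).relIndex (pstab b) := by
  have hp := h.mod.1
  have : Fact p.Prime := ⟨hp⟩
  set e := (b.1 ⊔ 𝐂 b.1).relIndex (pstab b)
  let f : G → ℝ := fun v => (mv M p b v χ χ).re
  have hcen : ∀ z : Subgroup.center b.1, b.1 ≤ 𝐂 ⟪(z.1.1 : G)⟫ := fun z g hg =>
    mem_centralizer_zpowers.2 (by
      have := congrArg Subtype.val (Subgroup.mem_center_iff.1 z.2 ⟨g, hg⟩)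
      rw [mul_inv_eq_iff_eq_mul]; exact this)
  have h1 : ∑ w with w ∈ b.1, (nf M p b w : ℝ)⁻¹ * f w = 1 := by
    have := congrArg Complex.re (h.classInner_eq (blockPart_irr_of_mem hχ) χ.2.isClassFunction)
    rw [χ.2.classInner_self, Complex.re_sum, Complex.one_re] at this
    rw [this]
    refine Finset.sum_congr rfl fun w _ => ?_
    rw [← Complex.ofReal_natCast, ← Complex.ofReal_inv, Complex.re_ofReal_mul]
  have h2 : ∀ w, (Finset.univ.filter fun z : Subgroup.center b.1 => Fus M p b z.1.1 w).card ≤ e := fun w => by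
    rcases (Finset.univ.filter fun z : Subgroup.center b.1 => Fus M p b z.1.1 w).eq_empty_or_nonempty with h3 | ⟨z, hz⟩
    · rw [h3]; exact Nat.zero_le _
    refine le_trans ?_ (Nat.le_of_dvd (Nat.pos_of_ne_zero (Subgroup.FiniteIndex.index_ne_zero))
      (Subgroup.relIndex_dvd_of_le_left (pstab b) (sup_le (hcen z) (centralizer_anti (Subgroup.zpowers_le.2 z.1.2)))))
    rw [relIndex_centralizer_zpowers]
    refine Finset.card_le_card_of_injOn (fun z => z.1.1) (fun z' hz' => ?_) fun a _ a' _ e => Subtype.ext (Subtype.ext e)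
    simp only [Finset.coe_filter, Finset.mem_univ, true_and, Set.mem_ofPred_eq] at hz' ⊢
    exact fus_center h z.1.2 (hcen z) (hcen z') (h.fus_trans (Finset.mem_filter.1 hz).2 (h.fus_symm z'.1.2 hz'))
  have h3 : ∑ z : Subgroup.center b.1, f z.1.1 ≤ e := by
    calc _ = ∑ z : Subgroup.center b.1, ∑ w with w ∈ b.1, if Fus M p b z.1.1 w then (nf M p b w : ℝ)⁻¹ * f w else 0 := by
          refine Finset.sum_congr rfl fun z _ => ?_
          rw [← Finset.sum_filter, Finset.filter_filter, Finset.sum_congr (s₂ := Finset.univ.filter (Fus M p b z.1.1))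
            (by ext w; simp only [Finset.mem_filter, Finset.mem_univ, true_and]; exact ⟨fun h => h.2, fun h => ⟨h.mem, h⟩⟩)
            (g := fun _ => (nf M p b z.1.1 : ℝ)⁻¹ * f z.1.1) fun w hw => by
              simp only [f]
              rw [h.nf_congr z.1.2 (Finset.mem_filter.1 hw).2,
                h.mv_congr χ.2.isClassFunction χ.2.isClassFunction (Finset.mem_filter.1 hw).2],
            Finset.sum_const, nsmul_eq_mul, ← nf, mul_inv_cancel_left₀ (Nat.cast_ne_zero.2 (h.nf_pos z.1.2).ne')]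
      _ ≤ ∑ w with w ∈ b.1, e * ((nf M p b w : ℝ)⁻¹ * f w) := by
          rw [Finset.sum_comm]
          refine Finset.sum_le_sum fun w _ => ?_
          rw [← Finset.sum_filter, Finset.sum_const, nsmul_eq_mul]
          exact mul_le_mul_of_nonneg_right (Nat.cast_le.2 (h2 w)) (mul_nonneg (by positivity) mv_self_re_nonneg)
      _ = e := by rw [← Finset.mul_sum, h1, mul_one]
  obtain ⟨k, hk⟩ := IsPGroup.iff_card.1 h.bp.1
  obtain ⟨c, hc⟩ := IsPGroup.iff_card.1 (h.bp.1.to_subgroup (Subgroup.center b.1))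
  have h4 : ∀ j ∈ U p k, ∑ z : Subgroup.center b.1, f (z.1.1 ^ j) = ∑ z : Subgroup.center b.1, f z.1.1 := fun j hj =>
    Equiv.sum_comp (powCoprime (G := Subgroup.center b.1) (n := j)
      (by rw [hc]; exact (hp.coprime_iff_not_dvd.2 (mem_U.1 hj).2).pow_left _)) fun z => f z.1.1
  have h5 := Finset.sum_le_sum fun (z : Subgroup.center b.1) (_ : z ∈ Finset.univ) =>
    avg_major h z.1.2 (hcen z) (k := k) (by
      rw [pow_succ, pow_mul, ← hk, ← Subgroup.coe_pow, pow_card_eq_one', OneMemClass.coe_one, one_pow]) hχ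
  rw [← Finset.mul_sum, ← Finset.mul_sum, Finset.sum_comm, Finset.sum_congr rfl h4, Finset.sum_const, Finset.sum_const,
    Finset.card_univ, ← Nat.card_eq_fintype_card, nsmul_eq_mul, nsmul_eq_mul, mul_left_comm ((p : ℝ) ^ _)] at h5
  have h6 := (le_of_mul_le_mul_left h5 (Nat.cast_pos.2 (card_U_pos hp k))).trans
    (mul_le_mul_of_nonneg_left h3 (by positivity))
  exact_mod_cast h6

theorem exists_pair_of_sup (hM : IsPModular p M) {D : Subgroup G} (hD : IsPGroup p D)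
    {c : Set (IrrCharacter (D ⊔ 𝐂 D : Subgroup G))} (hc : IsInducedBlock M _ c B) :
    ∃ f, POf p M B ⟨D, f⟩ ∧ iI _ c = iI _ f := by
  have h1 : ∃ f ∈ blocks (𝐂 D) M, iB M _ c * iB M _ f ≠ 0 := by
    by_contra hne
    push Not at hne
    exact H20.Cfsg.IsPBlock.iB_ne_zero hc.1 (by rw [← mul_one (iB M _ c), ← sum_iB (𝐂 D), Finset.mul_sum]; exact Finset.sum_eq_zero hne)
  obtain ⟨f, hf, h2⟩ := h1
  have ha : BP p M ⟨D, f⟩ := ⟨hD, mem_blocks.1 hf⟩
  obtain ⟨F, hF, h3, h4⟩ := ha.exists_iI_eq hM (H := D ⊔ 𝐂 D) le_sup_left le_sup_right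
    (sup_le (le_pstab ⟨D, f⟩) (centralizer_le_pstab ⟨D, f⟩))
  obtain rfl := H20.Cfsg.IsPBlock.eq_of_iB_mul_ne_zero hc.1 hF (by rwa [h3])
  refine ⟨f, (pOf_iff hM).2 ⟨ha, hc.2.1, ?_⟩, h4⟩
  rw [← h3]
  exact (isInducedBlock_iff_iB hM hD le_sup_left le_sup_right
    (sup_le Subgroup.le_normalizer (Subgroup.centralizer_le_normalizer _)) hc.1 hc.2.1).1 hc

end H20
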