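import Mathlib

set_option autoImplicit false
set_option linter.unusedSectionVars false

/-! Jordan's original counting argument, in abstract form. -/

open Subgroup Classical

namespace H20.Jor

scoped notation "𝐂 " S:max => Subgroup.centralizer (SetLike.coe S)
scoped notation "𝐂₁ " x:max => Subgroup.centralizer (Singleton.singleton x)
scoped notation "𝐍 " S:max => Subgroup.normalizer (SetLike.coe S)
scoped notation "𝐙" => Subgroup.center _

variable {G : Type*} [Group G] [Finite G]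

theorem card_dvd_sum {X : Type*} [Fintype X] [MulAction G X] (a : X → ℕ)
    (ha : ∀ (g : G) x, a (g • x) = a x) (h : ∀ x, Nat.card (MulAction.stabilizer G x) ∣ a x) :
    Nat.card G ∣ ∑ x, a x := by
  have := Fintype.ofFinite (MulAction.orbitRel.Quotient G X)
  rw [← Finset.sum_fiberwise (s := Finset.univ)
    (g := fun x => (Quotient.mk'' x : MulAction.orbitRel.Quotient G X))]
  refine Finset.dvd_sum fun ω _ => ?_
  obtain ⟨x, rfl⟩ := Quotient.exists_rep ω
  have h1 : ∀ y, (Quotient.mk'' y : MulAction.orbitRel.Quotient G X) = ⟦x⟧ ↔ y ∈ MulAction.orbit G x :=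
    fun y => Quotient.eq''.trans MulAction.orbitRel_apply
  rw [Finset.sum_congr rfl (g := fun _ => a x) (by
    intro y hy
    obtain ⟨g, rfl⟩ := (h1 y).1 (Finset.mem_filter.1 hy).2
    exact ha g x), Finset.sum_const, smul_eq_mul]
  have h2 : (Finset.univ.filter fun y => (Quotient.mk'' y : MulAction.orbitRel.Quotient G X) = ⟦x⟧).card =
      (MulAction.stabilizer G x).index := by
    rw [MulAction.index_stabilizer, ← Set.ncard_coe_finset]
    congr 1
    ext y
    simp [h1]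
  rw [h2, ← (MulAction.stabilizer G x).index_mul_card]
  exact Nat.mul_dvd_mul_left _ (h x)

/-- conjugate subgroup -/
def cj (c : G) (F : Subgroup G) : Subgroup G := F.map (MulAut.conj c).toMonoidHom

omit [Finite G] in
theorem mem_cj {c x : G} {F : Subgroup G} : x ∈ cj c F ↔ c⁻¹ * x * c ∈ F := by
  constructor
  · rintro ⟨y, hy, rfl⟩; simpa [mul_assoc] using hy
  · intro h; exact ⟨_, h, by simp [mul_assoc]⟩

omit [Finite G] in
theorem cj_cj (a b : G) (F : Subgroup G) : cj a (cj b F) = cj (a * b) F := by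
  ext x; simp [mem_cj, mul_assoc]

omit [Finite G] in
theorem cj_one (F : Subgroup G) : cj 1 F = F := by ext x; simp [mem_cj]

omit [Finite G] in
theorem cj_mono (c : G) {F K : Subgroup G} (h : F ≤ K) : cj c F ≤ cj c K := map_mono h

omit [Finite G] in
theorem cj_le_iff {c : G} {F K : Subgroup G} : cj c F ≤ K ↔ F ≤ cj c⁻¹ K := by
  constructor
  · intro h; simpa [cj_cj, cj_one] using cj_mono c⁻¹ h
  · intro h; simpa [cj_cj, cj_one] using cj_mono c h

omit [Finite G] in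
theorem cj_eq_iff {c : G} {F : Subgroup G} : cj c F = F ↔ c ∈ 𝐍 F := by
  rw [← inv_mem_iff, mem_normalizer_iff, Subgroup.ext_iff]
  simp only [mem_cj, inv_inv]
  exact forall_congr' fun x => Iff.comm

omit [Finite G] in
theorem cent_cj (c : G) (F : Subgroup G) : 𝐂 (cj c F) = cj c (𝐂 F) := by
  ext x
  simp only [mem_centralizer_iff, SetLike.mem_coe, mem_cj]
  constructor
  · intro h y hy
    have := h (c * y * c⁻¹) (by simpa [mul_assoc] using hy)
    calc _ = c⁻¹ * (c * y * c⁻¹ * x) * c := by group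
      _ = _ := by rw [this]; group
  · intro h y hy
    have := h _ hy
    calc _ = c * (c⁻¹ * y * c * (c⁻¹ * x * c)) * c⁻¹ := by group
      _ = _ := by rw [this]; group

omit [Finite G] in
theorem cent_conj (c g : G) : 𝐂₁ (c * g * c⁻¹) = cj c (𝐂₁ g) := by
  ext x
  simp only [mem_centralizer_iff, mem_cj, Set.mem_singleton_iff, forall_eq]
  constructor
  · intro h
    calc _ = c⁻¹ * (c * g * c⁻¹ * x) * c := by group
      _ = _ := by rw [h]; group
  · intro h
    calc _ = c * (g * (c⁻¹ * x * c)) * c⁻¹ := by group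
      _ = _ := by rw [h]; group

omit [Finite G] in
theorem cj_center (c : G) : cj c (𝐙 : Subgroup G) = 𝐙 :=
  cj_eq_iff.2 (by rw [normalizer_eq_top]; trivial)

omit [Finite G] in
theorem card_cj (c : G) (F : Subgroup G) : Nat.card (cj c F) = Nat.card F :=
  card_map_of_injective (MulAut.conj c).injective

omit [Finite G] in
theorem relIndex_cj (c : G) (F K : Subgroup G) : (cj c F).relIndex (cj c K) = F.relIndex K :=
  relIndex_map_map_of_injective _ _ (MulAut.conj c).injective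

theorem card_dvd_sum_sub [Fintype (Subgroup G)] (a : Subgroup G → ℕ)
    (ha : ∀ (g : G) F, a (cj g F) = a F) (h : ∀ F : Subgroup G, Nat.card (𝐍 F) ∣ a F) :
    Nat.card G ∣ ∑ F, a F := by
  let : MulAction G (Subgroup G) :=
    { smul := cj, one_smul := cj_one, mul_smul := fun a b F => (cj_cj a b F).symm }
  refine card_dvd_sum a ha fun F => ?_
  have : MulAction.stabilizer G F = 𝐍 F := Subgroup.ext fun c => cj_eq_iff
  rw [this]; exact h F

theorem card_dvd_ncard {T : Set G} (A : Subgroup G) (h : ∀ g ∈ T, ∀ a ∈ A, g * a ∈ T) :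
    Nat.card A ∣ T.ncard := by
  have : T = QuotientGroup.mk ⁻¹' ((QuotientGroup.mk : G → G ⧸ A) '' T) := by
    ext x
    refine ⟨fun hx => ⟨x, hx, rfl⟩, ?_⟩
    rintro ⟨y, hy, e⟩
    simpa using h y hy _ (QuotientGroup.eq.1 e)
  rw [this, ← Nat.card_coe_set_eq, QuotientGroup.card_preimage_mk]
  exact dvd_mul_right _ _

theorem ncard_eq_sum [Fintype (Subgroup G)] (S : Set G) (τ : G → Subgroup G) :
    S.ncard = ∑ F, {g ∈ S | τ g = F}.ncard := by
  have := Fintype.ofFinite G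
  rw [Set.ncard_eq_toFinset_card', Finset.card_eq_sum_card_fiberwise (f := τ) (t := Finset.univ)
    (fun _ _ => Finset.mem_coe.2 (Finset.mem_univ _))]
  refine Finset.sum_congr rfl fun F _ => ?_
  rw [← Set.ncard_coe_finset]
  congr 1
  ext x; simp

theorem card_dvd_fiber (S : Set G) (τ : G → Subgroup G) (L : ℕ)
    (h1 : ∀ g ∈ S, ∀ c, c * g * c⁻¹ ∈ S ∧ τ (c * g * c⁻¹) = cj c (τ g))
    (h2 : ∀ g ∈ S, ∃ A : Subgroup G, (∀ g' ∈ S, τ g' = τ g → ∀ a ∈ A, g' * a ∈ S ∧ τ (g' * a) = τ g) ∧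
      Nat.card (𝐍 (τ g)) ∣ L * Nat.card A) : Nat.card G ∣ L * S.ncard := by
  have := Fintype.ofFinite (Subgroup G)
  rw [ncard_eq_sum S τ, Finset.mul_sum]
  refine card_dvd_sum_sub _ (fun c F => ?_) fun F => ?_
  · congr 1
    symm
    refine Set.ncard_congr (fun g _ => c * g * c⁻¹) ?_ ?_ ?_
    · rintro g ⟨hg, rfl⟩; exact h1 g hg c
    · intro a b _ _ h; simpa using h
    · rintro g ⟨hg, h⟩
      refine ⟨c⁻¹ * g * c⁻¹⁻¹, ⟨(h1 g hg _).1, ?_⟩, by group⟩
      rw [(h1 g hg _).2, h, cj_cj, inv_mul_cancel, cj_one]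
  · by_cases h : ∃ g ∈ S, τ g = F
    · obtain ⟨g, hg, rfl⟩ := h
      obtain ⟨A, h3, h4⟩ := h2 g hg
      exact h4.trans (Nat.mul_dvd_mul_left _ (card_dvd_ncard A fun g' hg' a ha => h3 g' hg'.1 hg'.2 a ha))
    · have : {g ∈ S | τ g = F} = ∅ := Set.eq_empty_of_forall_notMem fun g hg => h ⟨g, hg⟩
      simp [this]

/-- rigid abelian subgroups -/
def Rig (M : ℕ) (F : Subgroup G) : Prop :=
  F ≤ 𝐂 F ∧ ∀ H ≤ F, H.relIndex F < M → 𝐂 H ≤ 𝐂 F

variable {M N : ℕ} {F F' A L : Subgroup G}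

theorem rig_center : Rig M (𝐙 : Subgroup G) :=
  have : 𝐂 (𝐙 : Subgroup G) = ⊤ := centralizer_eq_top_iff_subset.2 subset_rfl
  ⟨this ▸ le_top, fun _ _ _ => this ▸ le_top⟩

theorem Rig.of_lt (h : Rig M F) {H : Subgroup G} (hH : H.relIndex F < M) : 𝐂 H ≤ 𝐂 F :=
  (centralizer_le (inf_le_left (b := F))).trans (h.2 (H ⊓ F) inf_le_right (by rwa [inf_relIndex_right]))

theorem relIndex_le {H K L : Subgroup G} (h : K ≤ L) : H.relIndex K ≤ H.relIndex L :=
  relIndex_le_of_le_right h index_ne_zero_of_finite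

omit [Finite G] in
theorem le_cent_sup {H K L : Subgroup G} (h1 : H ≤ 𝐂 K) (h2 : H ≤ 𝐂 L) : H ≤ 𝐂 (K ⊔ L : Subgroup G) :=
  le_centralizer_iff.1 (sup_le (le_centralizer_iff.1 h1) (le_centralizer_iff.1 h2))

theorem Rig.sup (h : Rig M F) (h' : Rig M F') (hc : F ≤ 𝐂 F') : Rig M (F ⊔ F') :=
  ⟨sup_le (le_cent_sup h.1 hc) (le_cent_sup (le_centralizer_iff.1 hc) h'.1), fun _ _ hH =>
    le_cent_sup (h.of_lt ((relIndex_le le_sup_left).trans_lt hH))
      (h'.of_lt ((relIndex_le le_sup_right).trans_lt hH))⟩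

theorem Rig.cj (h : Rig M F) (c : G) : Rig M (cj c F) := by
  refine ⟨by rw [cent_cj]; exact cj_mono c h.1, fun H _ hH => ?_⟩
  obtain ⟨H, rfl⟩ : ∃ K, H = Jor.cj c K := ⟨Jor.cj c⁻¹ H, by simp [cj_cj, cj_one]⟩
  rw [relIndex_cj] at hH
  rw [cent_cj, cent_cj]
  exact cj_mono c (h.of_lt hH)

theorem Rig.le_relIndex (h : Rig M F) (hZ : ¬ F ≤ 𝐙) : M ≤ (𝐙 : Subgroup G).relIndex F := by
  by_contra! h1
  have h2 := h.of_lt h1
  rw [centralizer_eq_top_iff_subset.2 subset_rfl, top_le_iff, centralizer_eq_top_iff_subset] at h2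
  exact hZ h2

theorem Rig.le_cent (h : Rig M F) (hA : A ≤ 𝐂 A) (hN : A.relIndex L < M) (hF : F ≤ L) : A ≤ 𝐂 F :=
  hA.trans (h.of_lt ((relIndex_le hF).trans_lt hN))

theorem Rig.comm (h : Rig M F) (h' : Rig M F') (hA : A ≤ 𝐂 A) (hN : A.relIndex L < M) (hF : F ≤ L)
    (hF' : F' ≤ L) : F ≤ 𝐂 F' :=
  (le_centralizer_iff.1 (h.le_cent hA hN hF)).trans (h'.of_lt ((relIndex_le hF').trans_lt hN))

/-- the largest rigid subgroup -/
def top (M : ℕ) (L : Subgroup G) : Subgroup G := sSup {F | Rig M F ∧ F ≤ L}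

theorem top_le : top M L ≤ L := sSup_le fun _ h => h.2

theorem Rig.le_top (h : Rig M F) (hF : F ≤ L) : F ≤ top M L := le_sSup ⟨h, hF⟩

theorem cj_top_le (c : G) : cj c (top M L) ≤ top M (cj c L) :=
  cj_le_iff.2 (sSup_le fun _ h => cj_le_iff.1 ((h.1.cj c).le_top (cj_mono c h.2)))

theorem top_cj (c : G) : top M (cj c L) = cj c (top M L) := by
  refine le_antisymm ?_ (cj_top_le c)
  have := cj_top_le (M := M) (L := cj c L) c⁻¹
  rw [cj_cj, inv_mul_cancel, cj_one, cj_le_iff, inv_inv] at this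
  exact this

theorem rig_top (hA : A ≤ 𝐂 A) (hN : A.relIndex L < M) : Rig M (top M L) := by
  have h0 : Rig M (⊥ : Subgroup G) := ⟨bot_le, fun H _ _ => le_centralizer_iff.1 bot_le⟩
  obtain ⟨F, hF⟩ := Set.Finite.exists_maximal (Set.toFinite {F | Rig M F ∧ F ≤ L}) ⟨⊥, h0, bot_le⟩
  have : top M L = F := le_antisymm (sSup_le fun F' h => le_sup_right.trans
    (hF.2 ⟨hF.1.1.sup h.1 (hF.1.1.comm h.1 hA hN hF.1.2 h.2), sup_le hF.1.2 h.2⟩ le_sup_left))
    (hF.1.1.le_top hF.1.2)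
  exact this ▸ hF.1.1

/-- a dimension function bounding chains of centralizers -/
structure Dim (δ : Subgroup G → ℕ) (d : ℕ) : Prop where
  le : ∀ H, δ H ≤ d
  lt : ∀ (x : G) (H K : Subgroup G), H ≤ K → H ≤ 𝐂₁ x → ¬ K ≤ 𝐂₁ x → δ H < δ K

variable {δ : Subgroup G → ℕ} {d : ℕ}

omit [Finite G] in
theorem exists_not_le {K : Subgroup G} (h : ¬ K ≤ 𝐂 A) : ∃ a ∈ A, ¬ K ≤ 𝐂₁ a := by
  by_contra! h1
  exact h fun x hx => mem_centralizer_iff.2 fun a ha => mem_centralizer_iff.1 (h1 a ha hx) a rfl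

theorem Dim.exists_rig (h : Dim δ d) (hM : 1 ≤ M) (k : ℕ) : ∀ A : Subgroup G, A ≤ 𝐂 A → d ≤ δ (𝐂 A) + k →
    ∃ F ≤ A, Rig M F ∧ F.relIndex A ≤ M ^ k := by
  induction k with
  | zero =>
    intro A hA hk
    refine ⟨A, le_rfl, ⟨hA, fun H hH _ => ?_⟩, by simp⟩
    by_contra h1
    obtain ⟨a, ha, h2⟩ := exists_not_le h1
    have := h.lt a _ _ (centralizer_le hH) (centralizer_le (Set.singleton_subset_iff.2 ha)) h2
    have := h.le (𝐂 H)
    omega
  | succ k ih =>
    intro A hA hk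
    by_cases h0 : Rig M A
    · exact ⟨A, le_rfl, h0, by simpa using Nat.one_le_pow _ _ hM⟩
    have : ∃ H ≤ A, H.relIndex A < M ∧ ¬ 𝐂 H ≤ 𝐂 A := by
      by_contra! h1
      exact h0 ⟨hA, h1⟩
    obtain ⟨H, hH, h1, h2⟩ := this
    obtain ⟨a, ha, h3⟩ := exists_not_le h2
    have := h.lt a _ _ (centralizer_le hH) (centralizer_le (Set.singleton_subset_iff.2 ha)) h3
    obtain ⟨F, hF, h4, h5⟩ := ih H (hH.trans (hA.trans (centralizer_le hH))) (by omega)
    refine ⟨F, hF.trans hH, h4, ?_⟩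
    rw [← relIndex_mul_relIndex F H A hF hH, pow_succ]
    exact Nat.mul_le_mul h5 h1.le

theorem Dim.relIndex_top (h : Dim δ d) (hM : 1 ≤ M) (hA : A ≤ 𝐂 A) (hAL : A ≤ L)
    (hN : A.relIndex L ≤ N) : (top M L).relIndex L ≤ M ^ d * N := by
  obtain ⟨F, hF, h1, h2⟩ := h.exists_rig hM d A hA (by omega)
  refine (relIndex_le_of_le_left (h1.le_top (hF.trans hAL)) index_ne_zero_of_finite).trans ?_
  rw [← relIndex_mul_relIndex F A L hF hAL]
  exact Nat.mul_le_mul h2 hN

theorem Dim.relIndex_cent {c : ℕ} (h : Dim δ d) (hc1 : 1 ≤ c)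
    (hc : ∀ x ∈ F, {y | y ∈ F ∧ IsConj x y}.ncard ≤ c) : (𝐂 F).relIndex (𝐍 F) ≤ c ^ d := by
  have key : ∀ k, ∀ K : Subgroup G, K ≤ 𝐍 F → δ K ≤ k → (𝐂 F).relIndex K ≤ c ^ k := by
    intro k
    induction k with
    | zero =>
      intro K _ hk
      by_cases h1 : K ≤ 𝐂 F
      · rw [relIndex_eq_one.2 h1]; simp
      · obtain ⟨a, ha, h2⟩ := exists_not_le h1
        have := h.lt a ⊥ K bot_le bot_le h2
        omega
    | succ k ih =>
      intro K hK hk
      by_cases h1 : K ≤ 𝐂 F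
      · rw [relIndex_eq_one.2 h1]; exact Nat.one_le_pow _ _ hc1
      obtain ⟨a, ha, h2⟩ := exists_not_le h1
      have h3 := h.lt a (𝐂₁ a ⊓ K) K inf_le_right inf_le_left h2
      have h4 := ih (𝐂₁ a ⊓ K) (inf_le_right.trans hK) (by omega)
      have h5 : (𝐂₁ a).relIndex K ≤ c := by
        refine le_trans ?_ (hc a ha)
        rw [← Nat.card_coe_set_eq]
        refine Nat.card_le_card_of_injective (fun q => (⟨q.out * a * (q.out : G)⁻¹,
          (mem_normalizer_iff.1 (hK q.out.2) a).1 ha, isConj_iff.2 ⟨_, rfl⟩⟩ :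
            {y | y ∈ F ∧ IsConj a y})) fun q q' e => ?_
        have e' : (q.out : G) * a * (q.out : G)⁻¹ = q'.out * a * (q'.out : G)⁻¹ := congrArg Subtype.val e
        rw [← q.out_eq', ← q'.out_eq', QuotientGroup.eq, mem_subgroupOf, mem_centralizer_iff]
        intro t ht
        rw [Set.mem_singleton_iff.1 ht]
        simp only [coe_mul, coe_inv]
        calc _ = (q.out : G)⁻¹ * ((q.out : G) * a * (q.out : G)⁻¹) * q'.out := by group
          _ = _ := by rw [e']; group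
      have h6 : 𝐂 F ⊓ K ≤ 𝐂₁ a ⊓ K :=
        inf_le_inf_right _ (centralizer_le (Set.singleton_subset_iff.2 ha))
      rw [← inf_relIndex_right, ← relIndex_mul_relIndex _ _ K h6 inf_le_right, inf_relIndex_right, pow_succ]
      refine Nat.mul_le_mul (le_trans (le_of_eq ?_) h4) h5
      rw [← inf_relIndex_right (𝐂 F), ← inf_relIndex_right (𝐂 F ⊓ K)]
      congr 1
      rw [inf_assoc, inf_comm K, inf_assoc, inf_idem]
  exact key d _ le_rfl (h.le _)

end H20.Jor
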