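import Mathlib
import Cfsg.Agent.H20.Jor1

set_option autoImplicit false
set_option linter.unusedSectionVars false

open Subgroup Classical

namespace H20.Jor

variable {G : Type*} [Group G] [Finite G] {M N b d : ℕ} {δ : Subgroup G → ℕ} {F F' A L : Subgroup G}

structure Hyp (δ : Subgroup G → ℕ) (d b N M : ℕ) : Prop where
  dim : Dim δ d
  aut : ∀ F : Subgroup G, F ≤ 𝐂 F → (𝐂 F).relIndex (𝐍 F) ≤ b
  loc : ∀ g : G, g ∉ (𝐙 : Subgroup G) → ∃ A ≤ 𝐂₁ g, A ≤ 𝐂 A ∧ A.relIndex (𝐂₁ g) ≤ N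
  lt : N < M
  one : 1 ≤ N

/-- maximal rigid subgroups -/
def Mx (M : ℕ) (F : Subgroup G) : Prop := Rig M F ∧ ¬ F ≤ 𝐙 ∧ ∀ F', Rig M F' → F ≤ F' → F' ≤ F

theorem Mx.cj (h : Mx M F) (c : G) : Mx M (cj c F) :=
  ⟨h.1.cj c, by rw [cj_le_iff, cj_center]; exact h.2.1, fun F' h1 h2 => by
    have := h.2.2 _ (h1.cj c⁻¹) (cj_le_iff.1 h2)
    rwa [cj_le_iff, inv_inv] at this⟩

theorem mx_cj (c : G) : Mx M (cj c F) ↔ Mx M F :=
  ⟨fun h => by simpa [cj_cj, cj_one] using h.cj c⁻¹, fun h => h.cj c⟩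

theorem Mx.center_le (h : Mx M F) : (𝐙 : Subgroup G) ≤ F :=
  le_sup_right.trans (h.2.2 _ (h.1.sup rig_center (le_centralizer_iff.1 (center_le_centralizer _)))
    le_sup_left)

theorem card_eq_relIndex (h : A ≤ L) : Nat.card L = A.relIndex L * Nat.card A := by
  rw [relIndex, ← Nat.card_congr (subgroupOfEquivOfLe h).toEquiv, index_mul_card]

omit [Finite G] in
theorem le_cent1 {g : G} : F ≤ 𝐂₁ g ↔ g ∈ 𝐂 F :=
  ⟨fun h => mem_centralizer_iff.2 fun a ha => (mem_centralizer_iff.1 (h ha) g rfl).symm,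
    fun h a ha => mem_centralizer_iff.2 (by rintro _ rfl; exact (mem_centralizer_iff.1 h a ha).symm)⟩

omit [Finite G] in
theorem conj_mem_center {c g : G} : c * g * c⁻¹ ∈ (𝐙 : Subgroup G) ↔ g ∈ (𝐙 : Subgroup G) :=
  (mem_normalizer_iff.1 (by rw [normalizer_eq_top]; trivial) g).symm

omit [Finite G] in
theorem cent1_mul {g z : G} (hz : z ∈ (𝐙 : Subgroup G)) : 𝐂₁ (g * z) = 𝐂₁ g := by
  ext x
  simp only [mem_centralizer_iff, Set.mem_singleton_iff, forall_eq]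
  rw [mul_assoc, ← mem_center_iff.1 hz x, ← mul_assoc, ← mul_assoc, mul_left_inj]

theorem dvd_fact {q r K : ℕ} (hq : 0 < q) (hr : 0 < r) (h : q * r ≤ K) (n : ℕ) :
    q * (r * n) ∣ K.factorial * n := by
  rw [← mul_assoc]
  exact Nat.mul_dvd_mul_right (Nat.dvd_factorial (Nat.mul_pos hq hr) h) _

theorem relIndex_pos : 0 < A.relIndex L := Nat.pos_of_ne_zero index_ne_zero_of_finite

namespace Hyp
variable (h : Hyp δ d b N M)
include h

theorem rig {g : G} (hg : g ∉ (𝐙 : Subgroup G)) : Rig M (top M (𝐂₁ g)) := by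
  obtain ⟨A, -, h1, h2⟩ := h.loc g hg
  exact rig_top h1 (h2.trans_lt h.lt)

theorem idx {g : G} (hg : g ∉ (𝐙 : Subgroup G)) : (top M (𝐂₁ g)).relIndex (𝐂₁ g) ≤ M ^ d * N := by
  obtain ⟨A, h0, h1, h2⟩ := h.loc g hg
  exact h.dim.relIndex_top (by have := h.lt; omega) h1 h0 h2

theorem dvd0 : Nat.card G ∣ (b * (M ^ d * N)).factorial *
    {g : G | g ∉ (𝐙 : Subgroup G) ∧ top M (𝐂₁ g) ≤ 𝐙}.ncard := by
  refine card_dvd_fiber _ (fun g => zpowers g ⊔ 𝐙) _ ?_ ?_
  · rintro g ⟨h1, h2⟩ c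
    refine ⟨⟨by rwa [conj_mem_center], by rwa [cent_conj, top_cj, cj_le_iff, cj_center]⟩, ?_⟩
    conv_lhs => rw [← cj_center c]
    simp only [cj, Subgroup.map_sup, MonoidHom.map_zpowers]
    rfl
  · rintro g ⟨h1, h2⟩
    refine ⟨𝐙, ?_, ?_⟩
    · rintro g' ⟨h3, h4⟩ e z hz
      refine ⟨⟨fun h5 => h3 ((Subgroup.mul_mem_cancel_right _ hz).1 h5), by rwa [cent1_mul hz]⟩, ?_⟩
      rw [← e]
      refine le_antisymm (sup_le ?_ le_sup_right) (sup_le ?_ le_sup_right)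
      · rw [zpowers_le]
        exact mul_mem (mem_sup_left (mem_zpowers _)) (mem_sup_right hz)
      · rw [zpowers_le]
        exact (Subgroup.mul_mem_cancel_right _ (mem_sup_right hz)).1 (mem_sup_left (mem_zpowers _))
    · have h3 : 𝐂 (zpowers g ⊔ 𝐙 : Subgroup G) = 𝐂₁ g := by
        refine le_antisymm (centralizer_le (Set.singleton_subset_iff.2
          (mem_sup_left (mem_zpowers g)))) (le_cent_sup ?_ (le_centralizer_iff.1 (center_le_centralizer _)))
        rw [le_centralizer_iff, zpowers_le, ← le_cent1]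
      have h4 : zpowers g ⊔ 𝐙 ≤ 𝐂 (zpowers g ⊔ 𝐙 : Subgroup G) := by
        rw [h3]
        exact sup_le (zpowers_le.2 (mem_centralizer_iff.2 (by rintro _ rfl; rfl)))
          (center_le_centralizer _)
      have h5 := h.aut _ h4
      have h6 : top M (𝐂₁ g) = 𝐙 := le_antisymm h2 (rig_center.le_top (center_le_centralizer _))
      have h7 := h.idx h1
      rw [h6] at h7
      rw [card_eq_relIndex (centralizer_le_normalizer _), h3,
        card_eq_relIndex (center_le_centralizer {g})]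
      rw [h3] at h5
      exact dvd_fact relIndex_pos relIndex_pos (Nat.mul_le_mul h5 h7) _

theorem dvd1 : Nat.card G ∣ (b * (M ^ d * N)).factorial *
    {g : G | g ∉ (𝐙 : Subgroup G) ∧ ¬ top M (𝐂₁ g) ≤ 𝐙 ∧ ¬ Mx M (top M (𝐂₁ g))}.ncard := by
  refine card_dvd_fiber _ (fun g => top M (𝐂₁ g)) _ ?_ ?_
  · rintro g ⟨h1, h2, h3⟩ c
    have : top M (𝐂₁ (c * g * c⁻¹)) = cj c (top M (𝐂₁ g)) := by rw [cent_conj, top_cj]
    exact ⟨⟨by rwa [conj_mem_center], by rwa [this, cj_le_iff, cj_center], by rwa [this, mx_cj]⟩, this⟩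
  · rintro g ⟨h1, h2, h3⟩
    have hr := h.rig h1
    generalize top M (𝐂₁ g) = F at *
    obtain ⟨f, hf, hf'⟩ := SetLike.not_le_iff_exists.1 h2
    obtain ⟨A, hA0, hA, hAN⟩ := h.loc f hf'
    have hlt := hAN.trans_lt h.lt
    have key : ∀ F', Rig M F' → F ≤ F' → A ≤ 𝐂 F' := fun F' h4 h5 =>
      h4.le_cent hA hlt (le_cent1.2 (h4.1 (h5 hf)))
    have hAF := key F hr le_rfl
    refine ⟨A, ?_, ?_⟩
    · rintro g' ⟨h4, -, -⟩ e a ha
      have hg' : g' ∈ 𝐂 F := le_cent1.1 (e ▸ top_le)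
      have h5 : g' * a ∉ (𝐙 : Subgroup G) := by
        intro h5
        refine h3 ⟨hr, h2, fun F' h6 h7 => ?_⟩
        rw [← e]
        refine h6.le_top (le_cent1.2 ?_)
        exact (Subgroup.mul_mem_cancel_right _ (key F' h6 h7 ha)).1 (center_le_centralizer _ h5)
      have h6 : F ≤ top M (𝐂₁ (g' * a)) := hr.le_top (le_cent1.2 (mul_mem hg' (hAF ha)))
      have h7 : top M (𝐂₁ (g' * a)) = F := by
        refine le_antisymm ?_ h6
        rw [← e]
        refine (h.rig h5).le_top (le_cent1.2 ?_)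
        exact (Subgroup.mul_mem_cancel_right _ (key _ (h.rig h5) h6 ha)).1 (le_cent1.1 top_le)
      exact ⟨⟨h5, by rwa [h7], by rwa [h7]⟩, h7⟩
    · rw [card_eq_relIndex (centralizer_le_normalizer _), card_eq_relIndex hAF]
      refine dvd_fact relIndex_pos relIndex_pos (Nat.mul_le_mul (h.aut F hr.1) ?_) _
      refine ((relIndex_le (centralizer_le (Set.singleton_subset_iff.2 hf))).trans hAN).trans ?_
      exact Nat.le_mul_of_pos_left _ (pow_pos (by have := h.lt; omega) _)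

theorem dvdT (T : Finset (Subgroup G)) (hT : ∀ F ∈ T, Mx M F) (hT' : ∀ c F, cj c F ∈ T ↔ F ∈ T) :
    Nat.card G ∣ b.factorial * ∑ F ∈ T, Nat.card (𝐂 F) := by
  have := Fintype.ofFinite (Subgroup G)
  rw [Finset.mul_sum, ← Finset.univ_inter T, ← Finset.sum_ite_mem]
  refine card_dvd_sum_sub _ (fun c F => ?_) fun F => ?_
  · simp only [hT', cent_cj, card_cj]
  · split_ifs with hF
    · rw [card_eq_relIndex (centralizer_le_normalizer _)]
      exact Nat.mul_dvd_mul_right (Nat.dvd_factorial relIndex_pos (h.aut F (hT F hF).1.1)) _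
    · exact dvd_zero _

theorem fiber (hF : Mx M F) : {g : G | g ∉ (𝐙 : Subgroup G) ∧ top M (𝐂₁ g) = F}.ncard +
    Nat.card (𝐙 : Subgroup G) = Nat.card (𝐂 F) := by
  have : {g : G | g ∉ (𝐙 : Subgroup G) ∧ top M (𝐂₁ g) = F} = (𝐂 F : Set G) \ (𝐙 : Subgroup G) := by
    ext g
    constructor
    · rintro ⟨h1, h2⟩
      exact ⟨le_cent1.1 (h2 ▸ top_le), h1⟩
    · rintro ⟨h1, h2⟩
      have h3 := hF.1.le_top (le_cent1.2 h1)
      exact ⟨h2, le_antisymm (hF.2.2 _ (h.rig h2) h3) h3⟩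
  rw [this]
  exact Set.ncard_sdiff_add_ncard_of_subset (center_le_centralizer _)

theorem sumT (T : Finset (Subgroup G)) (hT : ∀ F ∈ T, Mx M F) :
    {g : G | g ∉ (𝐙 : Subgroup G) ∧ top M (𝐂₁ g) ∈ T}.ncard + T.card * Nat.card (𝐙 : Subgroup G) =
      ∑ F ∈ T, Nat.card (𝐂 F) := by
  have := Fintype.ofFinite (Subgroup G)
  rw [ncard_eq_sum _ fun g => top M (𝐂₁ g), ← Finset.sum_congr rfl fun F hF => h.fiber (hT F hF),
    Finset.sum_add_distrib, Finset.sum_const, smul_eq_mul, add_left_inj]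
  symm
  refine Finset.sum_subset_zero_on_sdiff (Finset.subset_univ _) (fun F hF => ?_) fun F hF => ?_
  · rw [Set.ncard_eq_zero]
    refine Set.eq_empty_of_forall_notMem ?_
    rintro g ⟨⟨-, h1⟩, rfl⟩
    exact (Finset.mem_sdiff.1 hF).2 h1
  · congr 1
    ext g
    exact ⟨fun h1 => ⟨⟨h1.1, h1.2 ▸ hF⟩, h1.2⟩, fun h1 => ⟨h1.1.1, h1.2⟩⟩

theorem le_card (hF : Mx M F) : M * Nat.card (𝐙 : Subgroup G) ≤ Nat.card F := by
  rw [card_eq_relIndex hF.center_le]
  exact Nat.mul_le_mul_right _ (hF.1.le_relIndex hF.2.1)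

theorem sumT_le (T : Finset (Subgroup G)) (hT : ∀ F ∈ T, Mx M F) :
    ∑ F ∈ T, Nat.card (𝐂 F) ≤ 2 * {g : G | g ∉ (𝐙 : Subgroup G) ∧ top M (𝐂₁ g) ∈ T}.ncard := by
  have h1 := h.sumT T hT
  have h2 : T.card * (2 * Nat.card (𝐙 : Subgroup G)) ≤ ∑ F ∈ T, Nat.card (𝐂 F) := by
    rw [← smul_eq_mul, ← Finset.sum_const]
    refine Finset.sum_le_sum fun F hF => ?_
    have := h.lt
    have := h.one
    exact (Nat.mul_le_mul_right _ (by omega)).trans
      ((h.le_card (hT F hF)).trans (card_le_of_le (hT F hF).1.1))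
  nlinarith

theorem step : (∃ A : Subgroup G, A ≤ 𝐂 A ∧ A.index ≤ (b * (M ^ d * N)).factorial + N * b) ∨
    Nat.card G ≤ 2 * b.factorial * {g : G | M * Nat.card (𝐙 : Subgroup G) ≤ Nat.card (𝐂₁ g) ∧
      Nat.card (𝐂₁ g) ≤ M ^ d * N * (2 * (b * (M ^ d * N)).factorial) *
        Nat.card (𝐙 : Subgroup G)}.ncard := by
  have := Fintype.ofFinite (Subgroup G)
  set D := (b * (M ^ d * N)).factorial with hD
  set T := Finset.univ.filter (Mx (G := G) M) with hTd
  have hT : ∀ F, F ∈ T ↔ Mx M F := by simp [hTd]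
  have h0 := h.dvd0
  have h1 := h.dvd1
  have h2 := h.dvdT T (fun F => (hT F).1) (by simp [hT, mx_cj])
  have h3 := h.sumT T fun F => (hT F).1
  have h4 := h.sumT_le T fun F => (hT F).1
  have hM : 0 < M := by have := h.lt; omega
  replace h2 := h2.trans (Nat.mul_dvd_mul_right (Nat.factorial_dvd_factorial
    (Nat.le_mul_of_pos_right b (Nat.mul_pos (pow_pos hM d) h.one))) _)
  rw [← hD] at h0 h1 h2
  set S0 := {g : G | g ∉ (𝐙 : Subgroup G) ∧ top M (𝐂₁ g) ≤ 𝐙}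
  set S1 := {g : G | g ∉ (𝐙 : Subgroup G) ∧ ¬ top M (𝐂₁ g) ≤ 𝐙 ∧ ¬ Mx M (top M (𝐂₁ g))}
  set S2 := {g : G | g ∉ (𝐙 : Subgroup G) ∧ top M (𝐂₁ g) ∈ T}
  have h5 : Nat.card G = Nat.card (𝐙 : Subgroup G) + (S0.ncard + (S1.ncard + S2.ncard)) := by
    rw [← Set.ncard_union_eq, ← Set.ncard_union_eq, ← Set.ncard_univ]
    · have : Nat.card (𝐙 : Subgroup G) = ((𝐙 : Subgroup G) : Set G).ncard := rfl
      rw [this, ← Set.ncard_union_eq]
      · congr 1
        ext g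
        simp only [S0, S1, S2, hT, Set.mem_univ, Set.mem_union, SetLike.mem_coe, Set.mem_ofPred_eq]
        tauto
      · rw [Set.disjoint_left]
        rintro g hg (h | h | h) <;> exact h.1 hg
    · rw [Set.disjoint_left]
      rintro g hg (h | h)
      · exact h.2.1 hg.2
      · exact ((hT _).1 h.2).2.1 hg.2
    · rw [Set.disjoint_left]
      intro g hg h
      exact hg.2.2 ((hT _).1 h.2)
  have hZ : 0 < Nat.card (𝐙 : Subgroup G) := Nat.card_pos
  have hD0 : 0 < D := Nat.factorial_pos _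
  obtain ⟨k0, h0⟩ := h0
  obtain ⟨k1, h1⟩ := h1
  obtain ⟨k2, h2⟩ := h2
  have h6 : Nat.card G * D + D * (T.card * Nat.card (𝐙 : Subgroup G)) =
      D * Nat.card (𝐙 : Subgroup G) + Nat.card G * (k0 + k1 + k2) := by
    rw [mul_add, mul_add, ← h0, ← h1, ← h2, ← h3]
    nth_rewrite 1 [h5]
    ring
  rcases Nat.lt_trichotomy T.card 1 with ht | ht | ht
  · left
    refine ⟨𝐙, center_le_centralizer _, le_add_right ?_⟩
    rw [Nat.lt_one_iff.1 ht, zero_mul, mul_zero, add_zero] at h6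
    have h7 : Nat.card G ∣ D * Nat.card (𝐙 : Subgroup G) :=
      (Nat.dvd_add_left (dvd_mul_right _ _)).1 (h6 ▸ dvd_mul_right _ _)
    rw [← index_mul_card (𝐙 : Subgroup G)] at h7
    exact Nat.le_of_dvd hD0 (Nat.dvd_of_mul_dvd_mul_right hZ h7)
  · left
    obtain ⟨F, hF⟩ := Finset.card_eq_one.1 ht
    have hF1 : Mx M F := (hT F).1 (hF ▸ Finset.mem_singleton_self F)
    have hN : 𝐍 F = ⊤ := eq_top_iff.2 fun c _ => cj_eq_iff.1
      (Finset.mem_singleton.1 (hF ▸ (hT _).2 (hF1.cj c)))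
    obtain ⟨f, hf, hf'⟩ := SetLike.not_le_iff_exists.1 hF1.2.1
    obtain ⟨A, hA0, hA, hAN⟩ := h.loc f hf'
    have hAF := hF1.1.le_cent hA (hAN.trans_lt h.lt) (le_cent1.2 (hF1.1.1 hf))
    refine ⟨A, hA, le_add_left ?_⟩
    have h7 := h.aut F hF1.1.1
    rw [hN, relIndex_top_right] at h7
    rw [← relIndex_mul_index hAF]
    exact Nat.mul_le_mul ((relIndex_le (centralizer_le (Set.singleton_subset_iff.2 hf))).trans hAN) h7
  right
  have h7 : Nat.card G ≤ D * (T.card * Nat.card (𝐙 : Subgroup G)) := by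
    obtain ⟨t, ht'⟩ : ∃ t, T.card = t + 1 := ⟨T.card - 1, by omega⟩
    have h8 : Nat.card G * D + D * (t * Nat.card (𝐙 : Subgroup G)) = Nat.card G * (k0 + k1 + k2) := by
      rw [ht'] at h6; nlinarith
    have h9 : Nat.card G ∣ D * (t * Nat.card (𝐙 : Subgroup G)) :=
      (Nat.dvd_add_right (dvd_mul_right _ _)).1 (h8 ▸ dvd_mul_right _ _)
    refine (Nat.le_of_dvd (Nat.mul_pos hD0 (Nat.mul_pos (by omega) hZ)) h9).trans ?_
    exact Nat.mul_le_mul_left _ (Nat.mul_le_mul_right _ (by omega))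
  obtain ⟨F, hF, hF'⟩ : ∃ F ∈ T, Nat.card (𝐂 F) ≤ 2 * D * Nat.card (𝐙 : Subgroup G) := by
    refine Finset.exists_le_of_sum_le (Finset.card_pos.1 (by omega)) ?_
    rw [Finset.sum_const, smul_eq_mul]
    nlinarith
  set T' := T.filter fun F => Nat.card (𝐂 F) ≤ 2 * D * Nat.card (𝐙 : Subgroup G) with hT'
  have h8 : ∀ F ∈ T', Mx M F := fun F hF => (hT F).1 (Finset.mem_filter.1 hF).1
  have h9 := h.dvdT T' h8 (by simp [hT', hT, mx_cj, cent_cj, card_cj])
  have h10 := h.sumT_le T' h8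
  have h11 : 0 < ∑ F ∈ T', Nat.card (𝐂 F) :=
    Finset.sum_pos (fun _ _ => Nat.card_pos) ⟨F, Finset.mem_filter.2 ⟨hF, hF'⟩⟩
  refine (Nat.le_of_dvd (Nat.mul_pos b.factorial_pos h11) h9).trans ?_
  rw [mul_comm 2, mul_assoc]
  refine Nat.mul_le_mul_left _ (h10.trans (Nat.mul_le_mul_left _ (Set.ncard_le_ncard ?_)))
  rintro g ⟨hg, hg'⟩
  refine ⟨(h.le_card (h8 _ hg')).trans (card_le_of_le top_le), ?_⟩
  rw [card_eq_relIndex (top_le (M := M)), mul_assoc]
  exact Nat.mul_le_mul (h.idx hg) ((card_le_of_le (h8 _ hg').1.1).trans (Finset.mem_filter.1 hg').2)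

end Hyp

/-- the sequence of levels -/
def lev (d b N : ℕ) : ℕ → ℕ
  | 0 => N + 1
  | i + 1 => lev d b N i ^ d * N * (2 * (b * (lev d b N i ^ d * N)).factorial) + lev d b N i + 1

theorem lev_mono (d b N : ℕ) : Monotone (lev d b N) :=
  monotone_nat_of_le_succ fun i => by rw [lev]; omega

theorem exists_bound (d b N : ℕ) : ∃ f : ℕ, ∀ (G : Type*) [Group G] [Finite G] (δ : Subgroup G → ℕ),
    Hyp δ d b N (N + 1) → ∃ A : Subgroup G, A ≤ 𝐂 A ∧ A.index ≤ f := by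
  refine ⟨∑ i ∈ Finset.range (2 * b.factorial + 1),
    ((b * (lev d b N i ^ d * N)).factorial + N * b), fun G _ _ δ h => ?_⟩
  by_contra hc
  have := Fintype.ofFinite G
  set E : ℕ → Finset G := fun i => Finset.univ.filter fun g =>
    lev d b N i * Nat.card (𝐙 : Subgroup G) ≤ Nat.card (𝐂₁ g) ∧
      Nat.card (𝐂₁ g) ≤ lev d b N i ^ d * N * (2 * (b * (lev d b N i ^ d * N)).factorial) *
        Nat.card (𝐙 : Subgroup G) with hE
  have h1 : ∀ i ∈ Finset.range (2 * b.factorial + 1), Nat.card G ≤ 2 * b.factorial * (E i).card := by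
    intro i hi
    have h2 : Hyp δ d b N (lev d b N i) := ⟨h.dim, h.aut, h.loc, lev_mono d b N (Nat.zero_le i), h.one⟩
    rcases h2.step with ⟨A, h3, h4⟩ | h3
    · exact absurd ⟨A, h3, h4.trans (Finset.single_le_sum (f := fun i =>
        (b * (lev d b N i ^ d * N)).factorial + N * b) (fun _ _ => Nat.zero_le _) hi)⟩ hc
    · rw [← Set.ncard_coe_finset]
      convert h3 using 3
      ext g; simp [hE]
  have h2 : ∀ i j, i < j → Disjoint (E i) (E j) := by
    intro i j hij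
    rw [Finset.disjoint_left]
    intro g h3 h4
    have h5 := ((Finset.mem_filter.1 h4).2.1.trans (Finset.mem_filter.1 h3).2.2)
    have h6 := Nat.le_of_mul_le_mul_right h5 Nat.card_pos
    have h7 := lev_mono d b N (Nat.succ_le_of_lt hij)
    rw [lev] at h7
    omega
  have h3 := Finset.sum_le_sum h1
  rw [← Finset.mul_sum, ← Finset.card_biUnion (fun i _ j _ hij => by
    rcases lt_or_gt_of_ne hij with h | h
    · exact h2 i j h
    · exact (h2 j i h).symm), Finset.sum_const, Finset.card_range, smul_eq_mul] at h3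
  have h4 := Finset.card_le_univ ((Finset.range (2 * b.factorial + 1)).biUnion E)
  rw [← Nat.card_eq_fintype_card] at h4
  have h5 : 0 < Nat.card G := Nat.card_pos
  nlinarith

universe u in
/-- abstract Jordan theorem -/
theorem jordan (c : ℕ) (hc : 1 ≤ c) (d : ℕ) : ∃ f : ℕ, ∀ (G : Type u) [Group G] [Finite G]
    (δ : Subgroup G → ℕ), Dim δ d →
    (∀ F : Subgroup G, F ≤ 𝐂 F → ∀ x ∈ F, {y | y ∈ F ∧ IsConj x y}.ncard ≤ c) →
    ∃ A : Subgroup G, A ≤ 𝐂 A ∧ A.index ≤ f := by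
  induction d with
  | zero =>
    refine ⟨1, fun G _ _ δ h _ => ⟨⊤, ?_, by simp⟩⟩
    by_contra h1
    obtain ⟨a, -, h2⟩ := exists_not_le h1
    have := h.lt a ⊥ ⊤ bot_le bot_le h2
    have := h.le ⊤
    omega
  | succ d ih =>
    obtain ⟨N, hN⟩ := ih
    obtain ⟨f, hf⟩ := exists_bound.{u} (d + 1) (c ^ (d + 1)) (N + 1)
    refine ⟨f, fun G _ _ δ h h1 => hf G δ ⟨h, fun F hF => h.relIndex_cent hc (h1 F hF), ?_,
      by omega, by omega⟩⟩
    intro g hg
    have hg' : ¬ (⊤ : Subgroup G) ≤ 𝐂₁ g := fun h2 => hg (mem_center_iff.2 fun x =>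
      (mem_centralizer_iff.1 (h2 (mem_top x)) g rfl).symm)
    have hm : ∀ (H : Subgroup (𝐂₁ g)) (x : 𝐂₁ g), H.map (𝐂₁ g).subtype ≤ 𝐂₁ (x : G) ↔ H ≤ 𝐂₁ x := by
      intro H x
      rw [map_le_iff_le_comap]
      refine forall_congr' fun y => ?_
      refine imp_congr_right fun _ => ?_
      simp only [mem_comap, mem_centralizer_iff, Set.mem_singleton_iff, forall_eq]
      exact (Subtype.ext_iff (a1 := x * y) (a2 := y * x)).symm
    obtain ⟨A, hA, hA'⟩ := hN (𝐂₁ g) (fun H => δ (H.map (𝐂₁ g).subtype)) ⟨fun H => by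
      have := h.lt g _ ⊤ le_top (map_subtype_le H) hg'
      have := h.le ⊤
      omega, fun x H K h2 h3 h4 => h.lt x _ _ (map_mono h2) ((hm _ _).2 h3) (by rwa [hm])⟩ (by
      intro F hF x hx
      refine le_trans ?_ (h1 (F.map (𝐂₁ g).subtype) ?_ x (mem_map_of_mem _ hx))
      · refine Set.ncard_le_ncard_of_injOn Subtype.val ?_ Subtype.val_injective.injOn
        rintro y ⟨h2, h3⟩
        exact ⟨mem_map_of_mem _ h2, (𝐂₁ g).subtype.map_isConj h3⟩
      · rintro _ ⟨a, ha, rfl⟩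
        refine mem_centralizer_iff.2 ?_
        rintro _ ⟨a', ha', rfl⟩
        exact congrArg Subtype.val (mem_centralizer_iff.1 (hF ha) a' ha'))
    refine ⟨A.map (𝐂₁ g).subtype, map_subtype_le A, ?_, ?_⟩
    · rintro _ ⟨a, ha, rfl⟩
      refine mem_centralizer_iff.2 ?_
      rintro _ ⟨a', ha', rfl⟩
      exact congrArg Subtype.val (mem_centralizer_iff.1 (hA ha) a' ha')
    · rw [relIndex, subgroupOf, comap_map_eq_self_of_injective (subtype_injective _)]
      omega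

end H20.Jor
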