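import Mathlib
import Cfsg.Agent.H21.Cyc
import Cfsg.Agent.H21.Height
import Cfsg.Agent.H06.Degree
import Cfsg.Agent.H07.SelfDual
import Cfsg.Agent.H07.Glb2
import Cfsg.Agent.H24.Lift

/-!
Knörr's criterion for the `k(GV)` problem (namespace H20.Kr).
* `RG` : families of generalized characters with coefficients in the `p`-th cyclotomic integers
* `Kn ρ U S` : a square root of Knörr's character of the submodule `U`
-/

set_option autoImplicit false
set_option linter.unusedSectionVars false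
set_option linter.unusedVariables false

open H20 Cfsg H05 H21 Finset
namespace H20.Kr
open Classical Polynomial
open scoped ComplexConjugate

variable {p : ℕ} {ζ : ℂ} {M : Ideal AlgInt} {H K : Type*} [Group H] [Group K]

/-- families of generalized characters with cyclotomic coefficients -/
inductive RG (p : ℕ) (ζ : ℂ) {H : Type*} [Group H] : (ℕ → H → ℂ) → Prop
  | base {c : ℕ → ℂ} {θ : H → ℂ} : CF p ζ c → IsGeneralizedCharacter H θ → RG p ζ fun j h => c j * θ h
  | add {η η' : ℕ → H → ℂ} : RG p ζ η → RG p ζ η' → RG p ζ fun j h => η j h + η' j h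
  | congr {η η' : ℕ → H → ℂ} : RG p ζ η → (∀ j, ¬ p ∣ j → ∀ h, η' j h = η j h) → RG p ζ η'

namespace RG
variable {η η' : ℕ → H → ℂ}

theorem gen {θ : H → ℂ} (h : IsGeneralizedCharacter H θ) : RG p ζ fun _ => θ :=
  (base (CF.int 1) h).congr fun j _ h => by simp

theorem sum {ι : Type*} {s : Finset ι} {η : ι → ℕ → H → ℂ} (h : ∀ i ∈ s, RG p ζ (η i)) :
    RG p ζ fun j g => ∑ i ∈ s, η i j g := by
  induction s using Finset.induction_on with
  | empty => exact (gen isGeneralizedCharacter_zero).congr fun j _ g => by simp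
  | insert a s ha ih =>
    exact ((h a (mem_insert_self _ _)).add (ih fun i hi => h i (mem_insert_of_mem hi))).congr
      fun j _ g => by rw [sum_insert ha]

theorem mul (h : RG p ζ η) (h' : RG p ζ η') : RG p ζ fun j g => η j g * η' j g := by
  induction h with
  | base hc hθ =>
    induction h' with
    | base hc' hθ' => exact (base (hc.mul hc') (hθ.mul hθ')).congr fun j _ g => by simp only [Pi.mul_apply]; ring
    | add _ _ h1 h2 => exact (h1.add h2).congr fun j _ g => by ring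
    | congr _ e h1 => exact h1.congr fun j hj g => by rw [e j hj]
  | add _ _ h1 h2 => exact (h1.add h2).congr fun j _ g => by ring
  | congr _ e h1 => exact h1.congr fun j hj g => by rw [e j hj]

theorem comp (h : RG p ζ η) (f : K →* H) : RG p ζ fun j g => η j (f g) := by
  induction h with
  | base hc hθ => exact base hc (hθ.comp f)
  | add _ _ h1 h2 => exact h1.add h2
  | congr _ e h1 => exact h1.congr fun j hj g => e j hj _

theorem cls (h : RG p ζ η) {j : ℕ} (hj : ¬ p ∣ j) (x g : H) : η j (x * g * x⁻¹) = η j g := by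
  induction h with
  | base hc hθ => simp only; rw [hθ.isClassFunction]
  | add _ _ h1 h2 => simp only; rw [h1, h2]
  | congr _ e h1 => rw [e j hj, e j hj, h1]

theorem inner [Fintype H] (h : RG p ζ η) {θ : H → ℂ} (hθ : IsGeneralizedCharacter H θ) :
    CF p ζ fun j => classInner (η j) θ := by
  induction h with
  | @base c φ hc hφ =>
    obtain ⟨n, hn⟩ := hφ.exists_classInner_eq_int hθ
    exact (hc.mul (CF.int n)).congr fun j _ => by rw [← hn, ← classInner_smul_left]; rfl
  | add _ _ h1 h2 => exact (h1.add h2).congr fun j _ => by rw [← classInner_add_left]; rfl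
  | @congr η η' _ e h1 => exact h1.congr fun j hj => by rw [show η' j = η j from funext (e j hj)]

theorem ring [Finite H] (hM : IsPModular p M) {k : ℕ} (hζ : IsPrimitiveRoot ζ (p ^ (k + 1))) (h : RG p ζ η) {j : ℕ}
    (hj : ¬ p ∣ j) (g : H) : MemLocalRing M (η j g) := by
  have := hM.2.1
  induction h with
  | base hc hθ => exact ring_mul (hc.ring hM.1 hζ hj) (ring_of_isIntegral (hθ.isIntegral g))
  | add _ _ h1 h2 => exact ring_add h1 h2
  | congr _ e h1 => rw [e j hj]; exact h1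

theorem div_pow [Finite H] (hM : IsPModular p M) {k : ℕ} (hζ : IsPrimitiveRoot ζ (p ^ (k + 1))) (hH : ¬ p ∣ Nat.card H)
    (h : RG p ζ η) (n : ℕ) (h1 : ∀ g, MemLocalRing M (η 1 g / p ^ n)) : RG p ζ fun j g => η j g / p ^ n := by
  have := hM.2.1
  have := Fintype.ofFinite H
  have := Fintype.ofFinite (IrrCharacter H)
  have h2 : ∀ φ : IrrCharacter H, CF p ζ fun j => classInner (η j) φ / p ^ n := fun φ =>
    (h.inner φ.2.isCharacter.isGeneralizedCharacter).div_pow hM hζ n (by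
      rw [classInner_def, mul_div_assoc, sum_div]
      refine ring_mul (ring_inv_natCast hM hH) (ring_sum fun g _ => ?_)
      rw [mul_div_right_comm]
      exact ring_mul (h1 g) (ring_of_isIntegral (φ.2.isCharacter.isGeneralizedCharacter.conj.isIntegral g)))
  refine (sum (s := univ) fun φ _ => base (h2 φ) φ.2.isCharacter.isGeneralizedCharacter).congr fun j hj g => ?_
  have h3 : IsClassFunction H (η j) := fun x g => h.cls hj _ _
  rw [h3.apply_eq_sum g, sum_div]
  exact sum_congr rfl fun φ _ => by ring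

/-- translation by the powers of a central element of order dividing `p` -/
theorem shift [Finite H] (hp : p.Prime) (hζ : IsPrimitiveRoot ζ p) {z : H} (hz : z ∈ Subgroup.center H) (h1 : z ^ p = 1)
    {χ : H → ℂ} (hχ : IsGeneralizedCharacter H χ) : RG p ζ fun j g => χ (z ^ j * g) := by
  have := Fintype.ofFinite H
  have := Fintype.ofFinite (IrrCharacter H)
  have : NeZero p := ⟨hp.ne_zero⟩
  obtain ⟨m, -, hm⟩ := hχ.exists_int_coeff
  have h2 : ∀ φ : IrrCharacter H, ∃ e, ∀ j g, φ.1 (z ^ j * g) = ζ ^ (j * e) * φ.1 g := fun φ => by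
    have h3 : ∀ j g, φ.1 (z ^ j * g) = (φ.1 z / φ.1 1) ^ j * φ.1 g := fun j => by
      induction j with
      | zero => simp
      | succ j ih => intro g; rw [pow_succ', mul_assoc, φ.2.apply_mul_of_mem_center hz, ih]; ring
    have h4 := h3 p 1
    rw [h1, mul_one] at h4
    obtain ⟨e, -, he⟩ := hζ.eq_pow_of_pow_eq_one (ξ := φ.1 z / φ.1 1)
      (mul_right_cancel₀ φ.2.apply_one_ne_zero (h4.symm.trans (one_mul _).symm))
    exact ⟨e, fun j g => by rw [h3, ← he, ← pow_mul, mul_comm e]⟩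
  choose e he using h2
  refine (sum (s := univ) fun φ _ => base ((CF.int (m φ)).mul (CF.root (e φ)))
    φ.2.isCharacter.isGeneralizedCharacter).congr fun j _ g => ?_
  rw [hm, Finset.sum_apply]
  exact sum_congr rfl fun φ _ => by rw [Pi.smul_apply, smul_eq_mul, he, mul_assoc]

end RG

theorem val_ideal (hM : IsPModular p M) (hζ : IsPrimitiveRoot ζ (p ^ (0 + 1))) {m k : ℕ} {G : ℤ[X]}
    (h : (ζ - 1) ^ k * aeval ζ G * conj ((ζ - 1) ^ k * aeval ζ G) = p ^ m) (hk : 2 * k < (p - 1) * m) :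
    MemLocalIdeal M (aeval ζ G) := by
  have := hM.2.1
  obtain ⟨W, h1, h2⟩ := CF.exists_pow_eq hM hζ
  simp only [zero_add, pow_one, pow_zero] at h1
  have h0 : ζ - 1 ≠ 0 := sub_ne_zero.2 (hζ.ne_one (Nat.one_lt_pow (by omega) hM.1.one_lt))
  have h3 : MemLocalIdeal M (ζ - 1) := ideal_sub_comm.1 (one_sub_root_mem hM hζ.pow_eq_one)
  have h4 : ζ * conj ζ = 1 := conj_mul_self_of_root (pow_ne_zero _ hM.1.ne_zero) hζ.pow_eq_one
  have h5 : conj ζ ^ p ^ (0 + 1) = 1 := by rw [← map_pow, hζ.pow_eq_one, map_one]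
  have hr := CF.ring_root (M := M) hM.1 hζ
  have hc : MemLocalRing M (conj ζ) := ring_of_isIntegral (H21.isIntegral_of_pow_eq_one (pow_ne_zero _ hM.1.ne_zero) h5)
  have h6 : conj (aeval ζ G) = aeval (conj ζ) G := by
    simpa using (aeval_algHom_apply (starRingEnd ℂ).toIntAlgHom ζ G).symm
  obtain ⟨d, hd⟩ := Nat.exists_eq_add_of_lt hk
  have h7 : conj (ζ - 1) = -conj ζ * (ζ - 1) := by rw [map_sub, map_one]; linear_combination h4
  have h8 : (ζ - 1) ^ (d + 1) = aeval ζ W ^ m * ((-conj ζ) ^ k * (aeval ζ G * aeval (conj ζ) G)) := by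
    apply mul_left_cancel₀ (pow_ne_zero (2 * k) h0)
    rw [← pow_add, ← add_assoc, ← hd, pow_mul, h1, mul_pow, ← h, map_mul, map_pow, h7, h6, mul_pow]
    ring
  have h9 := ideal_pow h3 d.succ_ne_zero
  rw [h8, ideal_unit_mul_iff (ring_pow (CF.ring_aeval hr _) _) (not_ideal_pow (CF.ring_aeval hr _) h2 _),
    ideal_unit_mul_iff (ring_pow (ring_neg hc) _) (not_ideal_pow (ring_neg hc) (fun e => not_ideal_one (by
      rw [← h4]; exact ideal_mul_left hr (ideal_neg_iff.1 e))) _)] at h9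
  rcases ideal_or_of_mul (CF.ring_aeval hr _) (CF.ring_aeval hc _) h9 with h | h
  · exact h
  · have := ideal_add (ideal_sub_trans (CF.ideal_aeval_sub hM hζ.pow_eq_one G)
      (ideal_sub_comm.1 (CF.ideal_aeval_sub hM h5 G))) h
    rwa [sub_add_cancel] at this

theorem val_div (hM : IsPModular p M) (hζ : IsPrimitiveRoot ζ (p ^ (0 + 1))) {x : ℕ → ℂ} (hx : CF p ζ x) {m d : ℕ}
    (h : x 1 * conj (x 1) = p ^ m) (hd : 2 * d ≤ m) :
    MemLocalRing M (x 1 / p ^ d) ∧ (2 * d < m → MemLocalIdeal M (x 1 / p ^ d)) := by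
  have := hM.2.1
  obtain ⟨F, hF⟩ := hx
  rw [hF 1 hM.1.not_dvd_one, pow_one] at h ⊢
  have h1 : ∀ k, 2 * k ≤ (p - 1) * m → ∃ G : ℤ[X], aeval ζ F = (ζ - 1) ^ k * aeval ζ G := fun k hk => by
    induction k with
    | zero => exact ⟨F, by simp⟩
    | succ k ih =>
      obtain ⟨G, hG⟩ := ih (by omega)
      obtain ⟨G', hG'⟩ := CF.exists_of_ideal hM hζ (val_ideal hM hζ (hG ▸ h) (by omega))
      exact ⟨G', by rw [hG, hG', pow_succ, mul_assoc]⟩
  obtain ⟨W, h2, -⟩ := CF.exists_pow_eq hM hζ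
  simp only [zero_add, pow_one, pow_zero] at h2
  have hp : 0 < p - 1 := by have := hM.1.two_le; omega
  obtain ⟨G, hG⟩ := h1 ((p - 1) * d) (by nlinarith)
  have h3 : aeval ζ F / p ^ d = aeval ζ W ^ d * aeval ζ G := by
    rw [hG, pow_mul, h2, mul_pow, div_eq_iff (pow_ne_zero _ (by exact_mod_cast hM.1.ne_zero))]; ring
  have hr := CF.ring_root (M := M) hM.1 hζ
  rw [h3]
  exact ⟨ring_mul (ring_pow (CF.ring_aeval hr _) _) (CF.ring_aeval hr _), fun e =>
    ideal_mul_left (ring_pow (CF.ring_aeval hr _) _) (val_ideal hM hζ (hG ▸ h) (by nlinarith))⟩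

/-- a square root of `n / π` -/
def Kn (p : ℕ) (ζ : ℂ) (M : Ideal AlgInt) (π : H → ℕ) (n : ℕ) (S : Set H) : Prop :=
  ∃ η : ℕ → H → ℂ, RG p ζ η ∧ (∀ j, ¬ p ∣ j → ∀ h, Complex.normSq (η j h) * π h ≤ n) ∧ η 1 1 = 1 ∧
    ∀ h ∉ S, MemLocalIdeal M (η 1 h)

section
variable [Finite H] (hM : IsPModular p M) (hζ : IsPrimitiveRoot ζ (p ^ (0 + 1))) {π π' : H → ℕ} {n n' : ℕ} {S S' : Set H}

theorem Kn.mono (h : Kn p ζ M π n S) (h1 : ∀ g, π' g ≤ π g) (h2 : n ≤ n') (h3 : S ⊆ S') : Kn p ζ M π' n' S' := by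
  obtain ⟨η, a, b, c, d⟩ := h
  refine ⟨η, a, fun j hj g => ?_, c, fun g hg => d g fun e => hg (h3 e)⟩
  exact (mul_le_mul_of_nonneg_left (Nat.cast_le.2 (h1 g)) (Complex.normSq_nonneg _)).trans
    ((b j hj g).trans (Nat.cast_le.2 h2))

theorem Kn.triv (h : ∀ g, π g ≤ n) : Kn p ζ M π n Set.univ :=
  ⟨fun _ => 1, RG.gen isGeneralizedCharacter_one, fun j _ g => by simpa using h g, rfl, fun _ e => absurd trivial e⟩

include hM hζ

theorem Kn.mul (h : Kn p ζ M π n S) (h' : Kn p ζ M π' n' S') : Kn p ζ M (fun g => π g * π' g) (n * n') (S ∩ S') := by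
  have := hM.2.1
  obtain ⟨η, a, b, c, d⟩ := h
  obtain ⟨η', a', b', c', d'⟩ := h'
  refine ⟨_, a.mul a', fun j hj g => ?_, by rw [c, c', mul_one], fun g hg => ?_⟩
  · have := mul_le_mul (b j hj g) (b' j hj g) (mul_nonneg (Complex.normSq_nonneg _) (Nat.cast_nonneg _)) (Nat.cast_nonneg _)
    rw [map_mul]; push_cast; linarith
  · by_cases e : g ∈ S
    · exact ideal_mul_left (a.ring hM hζ hM.1.not_dvd_one g) (d' g fun e' => hg ⟨e, e'⟩)
    · exact ideal_mul_right (d g e) (a'.ring hM hζ hM.1.not_dvd_one g)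

theorem Kn.of_sq (hH : ¬ p ∣ Nat.card H) {ω : ℕ → H → ℂ} (hω : RG p ζ ω) (hc : ∀ g, CF p ζ fun j => ω j g)
    (hπ : IsGeneralizedCharacter H fun g => (π g : ℂ)) (hd : ∀ g, ∃ d, π g = p ^ d) (hle : ∀ g, π g ≤ π 1)
    (hn : ∀ j, ¬ p ∣ j → ∀ g, ω j g * conj (ω j g) = π g) : Kn p ζ M π (π 1) {g | π g = π 1} := by
  choose d hd using hd
  have h0 : (p : ℂ) ≠ 0 := by exact_mod_cast hM.1.ne_zero
  have hl : ∀ g, d g ≤ d 1 := fun g => (Nat.pow_le_pow_iff_right hM.1.one_lt).1 (by rw [← hd, ← hd]; exact hle g)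
  have h1 : ∀ m, ∃ (N : ℕ) (γ : H → ℂ), IsGeneralizedCharacter H γ ∧
      ∀ g, ∏ i ∈ range m, ((p : ℂ) ^ i - π g) = p ^ N - π g * γ g := fun m => by
    induction m with
    | zero => exact ⟨0, 0, isGeneralizedCharacter_zero, fun g => by simp⟩
    | succ m ih =>
      obtain ⟨N, γ, a, b⟩ := ih
      refine ⟨N + m, _, ((isGeneralizedCharacter_one.natCast_smul (p ^ N)).add (a.natCast_smul (p ^ m))).sub (hπ.mul a),
        fun g => ?_⟩
      rw [prod_range_succ, b]
      simp only [Pi.sub_apply, Pi.add_apply, Pi.smul_apply, Pi.mul_apply, Pi.one_apply, smul_eq_mul]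
      push_cast; ring
  obtain ⟨N, γ, a, b⟩ := h1 (d 1 + 1)
  have h2 : ∀ g j, conj (ω j 1) * 1 * ω j g * γ g / p ^ N = conj (ω j 1) * ω j g / p ^ d g := fun g j => by
    have := b g
    rw [prod_eq_zero (mem_range.2 (Nat.lt_succ_of_le (hl g))) (by rw [hd g]; simp), hd g, Nat.cast_pow] at this
    rw [div_eq_div_iff (pow_ne_zero _ h0) (pow_ne_zero _ h0)]
    linear_combination (conj (ω j 1) * ω j g) * this
  have h3 : ∀ g j, ¬ p ∣ j → conj (ω j 1) * ω j g * conj (conj (ω j 1) * ω j g) = p ^ (d 1 + d g) := fun g j hj => by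
    have e1 := hn j hj 1
    have e2 := hn j hj g
    rw [hd, Nat.cast_pow] at e1 e2
    rw [map_mul, Complex.conj_conj, pow_add, ← e1, ← e2]; ring
  have h4 := fun g => val_div hM hζ (((hc 1).star hM.1 hζ).mul (hc g)) (h3 g 1 hM.1.not_dvd_one) (d := d g)
    (by have := hl g; omega)
  refine ⟨fun j g => conj (ω j 1) * ω j g / p ^ d g, ((((RG.base ((hc 1).star hM.1 hζ) isGeneralizedCharacter_one).mul hω).mul
    (RG.gen a)).div_pow hM hζ hH N fun g => ?_).congr fun j _ g => (h2 g j).symm, fun j hj g => le_of_eq ?_, ?_, fun g hg => ?_⟩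
  · exact (h2 g 1).symm ▸ (h4 g).1
  · rw [← Complex.ofReal_inj, Complex.ofReal_mul, ← Complex.mul_conj, map_div₀, div_mul_div_comm, h3 g j hj, hd, hd]
    simp only [map_pow, map_natCast]
    push_cast; field_simp; ring
  · show conj (ω 1 1) * ω 1 1 / p ^ d 1 = 1
    rw [mul_comm, hn 1 hM.1.not_dvd_one, hd, Nat.cast_pow, div_self (pow_ne_zero _ h0)]
  · refine (h4 g).2 ?_
    have : d g ≠ d 1 := fun e => hg (show π g = π 1 by rw [hd, hd, e])
    have := hl g
    omega

end

section Main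
variable {X : Type*} [Group X] [Finite X] {V G : Subgroup X} [V.Normal] {v : X}

theorem card_conj (hp : p.Prime) (hV : ∀ x ∈ V, x ^ p = 1) (hG : ¬ p ∣ Nat.card G) (hab : V ≤ Subgroup.centralizer V)
    (hGV : Subgroup.IsComplement' V G) (hv : v ∈ V) {j : ℕ} (hj : ¬ p ∣ j) [Fintype X]
    [Fintype ↥(G ⊓ Subgroup.centralizer {v})] (a b : ↥(G ⊓ Subgroup.centralizer {v})) :
    #{x : X | x * (v ^ j * a) * x⁻¹ = v ^ j * b} ≤ Nat.card ↥(V ⊓ Subgroup.centralizer {(b : X)}) *
      #{c : ↥(G ⊓ Subgroup.centralizer {v}) | c * a * c⁻¹ = b} := by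
  have := Fintype.ofFinite ↥(V ⊓ Subgroup.centralizer {(b : X)})
  rw [Nat.card_eq_fintype_card, ← card_univ, ← card_product]
  refine card_le_card_of_surjOn (fun y => (y.1 : X) * y.2) fun x hx => ?_
  have hx : x * (v ^ j * a) * x⁻¹ = v ^ j * b := by simpa using hx
  have h0 : ∀ a : ↥(G ⊓ Subgroup.centralizer {v}), (v ^ j * a) ^ Nat.card G = v ^ (j * Nat.card G) := fun a => by
    have e : (a : X) ^ Nat.card G = 1 := congrArg Subtype.val (pow_card_eq_one' (x := (⟨a, a.2.1⟩ : G)))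
    rw [((show Commute v a from a.2.2 v rfl).pow_left j).mul_pow, e, mul_one, pow_mul]
  have h1 : Commute x v := by
    have e : Commute x (v ^ (j * Nat.card G)) := by
      have := congrArg (· ^ Nat.card G) hx
      simp only [conj_pow, h0] at this
      exact mul_inv_eq_iff_eq_mul.1 this
    obtain ⟨m, hm⟩ := exists_pow_eq_self_of_coprime (x := v) (n := j * Nat.card G)
      (((hp.coprime_iff_not_dvd.2 (hp.not_dvd_mul hj hG)).symm).coprime_dvd_right (orderOf_dvd_of_pow_eq_one (hV v hv)))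
    exact hm ▸ e.pow_right m
  have h2 : x * a * x⁻¹ = b := by
    apply mul_left_cancel (a := v ^ j)
    rw [← hx, ← mul_assoc, ← mul_assoc, ← (h1.pow_right j).eq, mul_assoc x]
  obtain ⟨⟨u, c⟩, rfl⟩ := hGV.2 x
  have h3 : (c : X) ∈ Subgroup.centralizer {v} := by
    rintro _ rfl
    apply mul_left_cancel (a := (u : X))
    rw [← mul_assoc, ← hab u.2 _ hv, mul_assoc, ← h1.eq, mul_assoc]
  have h4 := hGV.1 (a₁ := (⟨_, mul_mem u.2 (‹V.Normal›.conj_mem _ (inv_mem u.2) ((c : X) * a * (c : X)⁻¹))⟩,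
    ⟨_, mul_mem (mul_mem c.2 a.2.1) (inv_mem c.2)⟩)) (a₂ := (⟨1, one_mem V⟩, ⟨_, b.2.1⟩)) (by
      simp only at h2 ⊢
      rw [← h2]; group)
  have h5 : (c : X) * a * (c : X)⁻¹ = b := congrArg (fun y => (y.2 : X)) h4
  refine ⟨(⟨u, u.2, ?_⟩, ⟨c, c.2, h3⟩), by simpa using Subtype.ext h5, rfl⟩
  rintro _ rfl
  simp only at h2
  rw [eq_comm, ← mul_inv_eq_iff_eq_mul]
  conv_lhs => rw [← h5]
  rw [← h2]; group

theorem main (hM : IsPModular p M) (hζ : IsPrimitiveRoot ζ (p ^ (0 + 1))) (hV : ∀ x ∈ V, x ^ p = 1) (hi : ¬ p ∣ V.index)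
    (hab : V ≤ Subgroup.centralizer V) (hGV : Subgroup.IsComplement' V G) (hv : v ∈ V)
    (h : Kn p ζ M (fun b : ↥(G ⊓ Subgroup.centralizer {v}) => Nat.card ↥(V ⊓ Subgroup.centralizer {(b : X)})) (Nat.card V) {1}) :
    Nat.card (ConjClasses X) ≤ Nat.card V := by
  have := hM.2.1
  have hp := hM.1
  have := Fintype.ofFinite X
  have := Fintype.ofFinite (IrrCharacter X)
  have hG : ¬ p ∣ Nat.card G := hGV.symm.index_eq_card ▸ hi
  have hk := fun j hj => card_conj hp hV hG hab hGV hv (j := j) hj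
  set C := G ⊓ Subgroup.centralizer {v}
  have hC : ¬ p ∣ Nat.card C := fun e => hG (e.trans (Subgroup.card_dvd_of_le inf_le_left))
  have : IsMulCommutative V := ⟨⟨fun a b => Subtype.ext (hab b.2 a a.2)⟩⟩
  obtain ⟨η, h1, h2, h3, h4⟩ := h
  have hz : (⟨v, Subgroup.mem_centralizer_singleton_iff.2 rfl⟩ : Subgroup.centralizer {v}) ∈ Subgroup.center _ :=
    Subgroup.mem_center_iff.2 fun g => Subtype.ext (Subgroup.mem_centralizer_singleton_iff.1 g.2)
  have h5 : ∀ χ : IrrCharacter X, CF p ζ fun j => (Nat.card C : ℂ)⁻¹ * ∑ g : C, χ.1 (v ^ j * g) * η j g := fun χ =>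
    ((((RG.shift hp (by simpa using hζ) hz (Subtype.ext (hV v hv))
      (χ.2.isCharacter.isGeneralizedCharacter.comp (Subgroup.subtype _))).comp
      (Subgroup.inclusion (inf_le_right : C ≤ _))).mul h1).inner isGeneralizedCharacter_one).congr
      fun j _ => by rw [classInner_one_right]; rfl
  have h6 : ∀ χ : IrrCharacter X, (Nat.card C : ℂ)⁻¹ * ∑ g : C, χ.1 (v ^ 1 * g) * η 1 g ≠ 0 := fun χ => by
    refine mul_ne_zero (inv_ne_zero (Nat.cast_ne_zero.2 Nat.card_pos.ne')) (ne_zero_of_not_ideal (M := M) ?_)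
    rw [← add_sum_erase _ _ (mem_univ 1), h3, mul_one, pow_one]
    refine not_ideal_of_sub (y := χ.1 1) ?_ ?_
    · rw [add_sub_right_comm]
      refine ideal_add (ideal_sub_of_commute hM χ.2.isCharacter ?_ (Commute.one_right v)) (ideal_sum fun g hg =>
        ideal_mul_left (ring_of_isIntegral (χ.2.isCharacter.isGeneralizedCharacter.isIntegral _)) (h4 g (ne_of_mem_erase hg)))
      obtain ⟨k, -, hk⟩ := (Nat.dvd_prime_pow hp (m := 1)).1 (by simpa using orderOf_dvd_of_pow_eq_one (hV v hv))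
      exact ⟨k, hk⟩
    · rw [← χ.2.charDegree_eq, ideal_natCast_iff hM]
      exact fun e => hi (e.trans (H06.ito_charDegree_dvd_index χ.2 V))
  have h7 : ∀ j, ¬ p ∣ j → ∑ χ : IrrCharacter X,
      Complex.normSq ((Nat.card C : ℂ)⁻¹ * ∑ g : C, χ.1 (v ^ j * g) * η j g) ≤ Nat.card V := fun j hj => by
    have e1 : ∀ x y : X, ∑ χ : IrrCharacter X, χ.1 x * conj (χ.1 y) = #{z : X | z * x * z⁻¹ = y} := fun x y => by
      by_cases e : IsConj x y
      · rw [sum_irr_mul_conj_of_isConj e, card_filter_conj_eq e]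
      · rw [sum_irr_mul_conj_of_not_isConj e, filter_eq_empty_iff.2 fun z _ e' => e (isConj_iff.2 ⟨z, e'⟩)]; simp
    have e2 : ∑ χ : IrrCharacter X, Complex.normSq (∑ g : C, χ.1 (v ^ j * g) * η j g) =
        ∑ b : C, ∑ a : C, Complex.normSq (η j b) * #{z : X | z * (v ^ j * a) * z⁻¹ = v ^ j * b} := by
      rw [← Complex.ofReal_inj]
      push_cast
      simp only [← Complex.mul_conj, map_sum, sum_mul_sum]
      simp only [sum_comm (s := (univ : Finset (IrrCharacter X)))]
      rw [sum_comm]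
      refine sum_congr rfl fun b _ => sum_congr rfl fun a _ => ?_
      by_cases e : #{c : C | c * a * c⁻¹ = b} = 0
      · have e3 := hk j hj a b
        rw [e, mul_zero, Nat.le_zero] at e3
        rw [e3, Nat.cast_zero, mul_zero, ← mul_zero (η j a * conj (η j b)), ← Nat.cast_zero, ← e3, ← e1, mul_sum]
        exact sum_congr rfl fun χ _ => by rw [map_mul]; ring
      · obtain ⟨c, hc⟩ := card_ne_zero.1 e
        rw [← e1, mul_sum, ← h1.cls hj c a, (mem_filter.1 hc).2]
        exact sum_congr rfl fun χ _ => by rw [map_mul]; ring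
    have e3 : ∀ b : C, ∑ a : C, #{c : C | c * a * c⁻¹ = b} = Nat.card C := fun b => by
      rw [Nat.card_eq_fintype_card, ← card_univ, card_eq_sum_card_fiberwise (f := fun c : C => c⁻¹ * b * c)
        fun _ _ => mem_univ _]
      refine sum_congr rfl fun a _ => congrArg card (filter_congr fun c _ => ?_)
      constructor <;> rintro rfl <;> group
    have e4 : (0 : ℝ) < Nat.card C := Nat.cast_pos.2 Nat.card_pos
    simp only [map_mul, ← mul_sum, e2, map_inv₀, Complex.normSq_natCast]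
    rw [inv_mul_le_iff₀ (mul_pos e4 e4)]
    calc _ ≤ ∑ b : C, (Nat.card V * Nat.card C : ℝ) := sum_le_sum fun b _ => by
          refine le_trans ?_ (mul_le_mul_of_nonneg_right (h2 j hj b) e4.le)
          rw [mul_assoc]
          refine mul_le_mul_of_nonneg_left ?_ (Complex.normSq_nonneg _)
          rw [← e3 b]
          exact_mod_cast (sum_le_sum fun a _ => hk j hj a b).trans_eq (mul_sum _ _ _).symm
      _ = _ := by rw [sum_const, card_univ, nsmul_eq_mul, ← Nat.card_eq_fintype_card]; ring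
  have h8 := sum_le_sum fun χ (_ : χ ∈ (univ : Finset (IrrCharacter X))) => (h5 χ).le_sum_normSq hp hζ (h6 χ)
  rw [sum_comm, sum_const, card_univ, nsmul_eq_mul, ← Nat.card_eq_fintype_card, card_irr_eq_card_conjClasses] at h8
  have h9 := h8.trans (sum_le_sum fun j hj => h7 j (mem_U.1 hj).2)
  rw [sum_const, nsmul_eq_mul, mul_comm] at h9
  exact_mod_cast le_of_mul_le_mul_left h9 (Nat.cast_pos.2 (card_U_pos hp 0))

end Main

end H20.Kr
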