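import Mathlib
import Cfsg.Agent.H20.KGV

/-!
Knörr's criterion: square roots of Knörr's character for abelian groups and for self-dual modules (namespace H20.Kr).
-/

set_option autoImplicit false
set_option linter.unusedSectionVars false
set_option linter.unusedVariables false

open H20 Cfsg H05 H21 Finset H07.SD
namespace H20.Kr
open Classical LinearMap
open scoped ComplexConjugate

variable {p : ℕ} {ζ : ℂ} {M : Ideal AlgInt} {H : Type*} [Group H] [Finite H]

section Weil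
variable {Γ : Type*} [Group Γ] [Finite Γ]

theorem deg_sq {β : Γ → ℂ} (hβ : IsIrrCharacter Γ β) {z : Γ} (hz : z ∈ Subgroup.center Γ) (h1 : β z ≠ β 1)
    (h : ∀ g ∉ Subgroup.zpowers z, ∃ c, c * g * c⁻¹ = z * g) :
    (∀ g ∉ Subgroup.zpowers z, β g = 0) ∧ charDegree β ^ 2 * orderOf z = Nat.card Γ := by
  have := Fintype.ofFinite Γ
  have h2 : ∀ g ∉ Subgroup.zpowers z, β g = 0 := fun g hg => by
    obtain ⟨c, hc⟩ := h g hg
    have := hβ.isCharacter.isClassFunction g c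
    rw [hc, hβ.apply_mul_of_mem_center hz] at this
    exact eq_zero_of_mul_eq_self_left (fun e => h1 ((div_eq_one_iff_eq hβ.apply_one_ne_zero).1 e)) this
  refine ⟨h2, ?_⟩
  have h3 := card_mul_classInner (φ := β) (ψ := β)
  rw [hβ.classInner_self, mul_one, ← sum_filter_add_sum_filter_not univ (· ∈ Subgroup.zpowers z),
    sum_eq_zero (s := filter (fun x => ¬ _) _) fun g hg => by rw [h2 g (mem_filter.1 hg).2, zero_mul], add_zero,
    sum_congr rfl (g := fun _ => (charDegree β : ℂ) ^ 2) fun g hg => by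
      rw [Complex.mul_conj, Complex.normSq_eq_norm_sq, hβ.norm_eq_of_mem_center
        (Subgroup.zpowers_le_of_mem hz (mem_filter.1 hg).2)]; simp,
    sum_const, nsmul_eq_mul, ← Fintype.card_subtype, ← Nat.card_eq_fintype_card, Nat.card_zpowers] at h3
  rw [mul_comm]; exact_mod_cast h3.symm

theorem exists_weil (E : Subgroup Γ) [hE : E.Normal] (hc : Nat.Coprime E.index (Nat.card E)) {z : Γ} (h0 : z ∈ E)
    (hz : z ∈ Subgroup.center Γ) (h1 : z ≠ 1) (h : ∀ g ∈ E, g ∉ Subgroup.zpowers z → ∃ c ∈ E, c * g * c⁻¹ = z * g) :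
    ∃ χ, IsCharacter Γ χ ∧ ∀ x, (orderOf x).Coprime (Nat.card E) → (∀ g ∈ E ⊓ Subgroup.centralizer {x},
      g ∉ Subgroup.zpowers z → ∃ c ∈ E ⊓ Subgroup.centralizer {x}, c * g * c⁻¹ = z * g) →
      ∃ n : ℤ, χ x = n ∧ n ^ 2 * orderOf z = Nat.card ↥(E ⊓ Subgroup.centralizer {x}) := by
  have key : ∀ (C : Subgroup Γ) (hC : z ∈ C) (β : C → ℂ), IsIrrCharacter C β → β ⟨z, hC⟩ ≠ β 1 →
      (∀ g ∈ C, g ∉ Subgroup.zpowers z → ∃ c ∈ C, c * g * c⁻¹ = z * g) →
      (∀ g : C, (g : Γ) ∉ Subgroup.zpowers z → β g = 0) ∧ charDegree β ^ 2 * orderOf z = Nat.card C :=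
    fun C hC β a b d => by
      have e : ∀ g : C, g ∈ Subgroup.zpowers (⟨z, hC⟩ : C) ↔ (g : Γ) ∈ Subgroup.zpowers z := fun g =>
        exists_congr fun k => Subtype.ext_iff
      obtain ⟨h2, h3⟩ := deg_sq a (Subgroup.mem_center_iff.2 fun g => Subtype.ext (Subgroup.mem_center_iff.1 hz g)) b
        fun g hg => by
          obtain ⟨c, hc, h⟩ := d g g.2 fun e' => hg ((e g).2 e')
          exact ⟨⟨c, hc⟩, Subtype.ext h⟩
      exact ⟨fun g hg => h2 g fun e' => hg ((e g).1 e'), by rwa [Subgroup.orderOf_mk] at h3⟩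
  obtain ⟨θ, hθ⟩ : ∃ θ : IrrCharacter E, θ.1 ⟨z, h0⟩ ≠ θ.1 1 := by
    by_contra e
    push Not at e
    exact h1 (congrArg Subtype.val (eq_one_of_forall_irr e))
  have h2 := (key E h0 _ θ.2 hθ h).1
  obtain ⟨χ, hχ, h3⟩ := H07.exists_canon hc θ.2 (eq_top_iff.2 fun x _ => (H07.mem_stab' (E.normalizer_eq_top ▸ trivial)).2 fun g g' e => by
    by_cases e' : (g : Γ) ∈ Subgroup.zpowers z
    · rw [Subgroup.mem_center_iff.1 (Subgroup.zpowers_le_of_mem hz e') x, mul_inv_cancel_right] at e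
      rw [Subtype.ext e]
    · rw [h2 g e', h2 g' fun e'' => e' ?_]
      have := Subgroup.mem_center_iff.1 (Subgroup.zpowers_le_of_mem hz e'') x
      rwa [show (g : Γ) = g' from mul_left_cancel (a := x) (by rw [this, e, inv_mul_cancel_right])])
  refine ⟨χ, hχ.ch, fun x hx h4 => ?_⟩
  have := Fintype.ofFinite ↥(E ⊓ Subgroup.centralizer {x})
  obtain ⟨β, ε, a, b, c⟩ := hχ.exists_slice hc hx rfl
  have hi := H05.Cfsg.IsIrrCharacter.of_restrict hχ.ch E hχ.irr
  have h5 : z ∈ E ⊓ Subgroup.centralizer {x} :=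
    ⟨h0, Subgroup.mem_centralizer_singleton_iff.2 (Subgroup.mem_center_iff.1 hz x).symm⟩
  have h6 := c 1
  rw [Subgroup.coe_one, one_mul] at h6
  have h7 : (ε : ℂ) ≠ 0 := by rcases b with rfl | rfl <;> simp
  refine ⟨ε * charDegree β, by rw [h6, ← a.charDegree_eq]; simp, ?_⟩
  rw [← (key _ h5 β a (fun e => hθ ?_) h4).2, mul_pow]
  · rcases b with rfl | rfl <;> simp
  · have h8 := c ⟨z, h5⟩
    rw [e, ← h6, hi.apply_mul_of_mem_center hz] at h8
    have h9 := mul_right_cancel₀ (by rw [h6]; exact mul_ne_zero h7 a.apply_one_ne_zero) (h8.trans (one_mul _).symm)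
    rw [← h3, ← h3]
    exact (div_eq_one_iff_eq hi.apply_one_ne_zero).1 h9

end Weil

variable [hp : Fact p.Prime] {V : Type*} [AddCommGroup V] [Module (ZMod p) V] [Finite V]
  {ρ : Representation (ZMod p) H V} {U W : Submodule (ZMod p) V}

/-- fixed points -/
def fx (ρ : Representation (ZMod p) H V) (h : H) : Submodule (ZMod p) V := eqLocus (ρ h) LinearMap.id

theorem mem_fx {h : H} {v : V} : v ∈ fx ρ h ↔ ρ h v = v := Iff.rfl

/-- Knörr's condition for a submodule -/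
def KR (ζ : ℂ) (M : Ideal AlgInt) (ρ : Representation (ZMod p) H V) (U : Submodule (ZMod p) V) : Prop :=
  Kn p ζ M (fun h => Nat.card ↥(U ⊓ fx ρ h)) (Nat.card U) {h | U ≤ fx ρ h}

/-- Knörr's condition for a module -/
def KT (ζ : ℂ) (M : Ideal AlgInt) (ρ : Representation (ZMod p) H V) : Prop :=
  Kn p ζ M (fun h => Nat.card (fx ρ h)) (Nat.card V) {h | ∀ v, ρ h v = v}

theorem card_sup (h : U ⊓ W = ⊥) : Nat.card ↥(U ⊔ W) = Nat.card U * Nat.card W := by
  have := Submodule.finrank_sup_add_finrank_inf_eq U W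
  rw [h, finrank_bot, add_zero] at this
  rw [Module.natCard_eq_pow_finrank (K := ZMod p), this, pow_add, ← Module.natCard_eq_pow_finrank,
    ← Module.natCard_eq_pow_finrank]

theorem card_sup_fx (h : U ⊓ W = ⊥) (hU : Inv ρ U) (hW : Inv ρ W) (g : H) :
    Nat.card ↥((U ⊔ W) ⊓ fx ρ g) = Nat.card ↥(U ⊓ fx ρ g) * Nat.card ↥(W ⊓ fx ρ g) := by
  rw [← card_sup (le_bot_iff.1 ((inf_le_inf inf_le_left inf_le_left).trans h.le))]
  refine congrArg (fun X : Submodule (ZMod p) V => Nat.card X) (le_antisymm (fun x hx => ?_) (sup_le (inf_le_inf_right _ le_sup_left) (inf_le_inf_right _ le_sup_right)))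
  obtain ⟨u, hu, w, hw, rfl⟩ := Submodule.mem_sup.1 hx.1
  have h1 : ρ g u + ρ g w = u + w := by rw [← map_add]; exact hx.2
  have h2 : ρ g u - u ∈ U ⊓ W := ⟨sub_mem (hU g u hu) hu, by
    rw [show ρ g u - u = w - ρ g w by rw [sub_eq_sub_iff_add_eq_add, h1, add_comm]]; exact sub_mem hw (hW g w hw)⟩
  rw [h, Submodule.mem_bot, sub_eq_zero] at h2
  rw [h2, add_right_inj] at h1
  exact Submodule.add_mem_sup ⟨hu, h2⟩ ⟨hw, h1⟩

theorem KT.sub (hU : Inv ρ U) (h : KT ζ M (ρ.subrepresentation U fun g u hu => hU g u hu)) : KR ζ M ρ U :=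
  Kn.mono h (fun g => Nat.card_le_card_of_injective (fun x => ⟨⟨x.1, x.2.1⟩, Subtype.ext x.2.2⟩)
    fun x y e => Subtype.ext (congrArg (fun z => z.1.1) e)) le_rfl fun g hg v hv => congrArg Subtype.val (hg ⟨v, hv⟩)

theorem isGen_perm (q : V → Prop) (hq : ∀ h x, q x → q (ρ h x)) [Fintype V] :
    IsGeneralizedCharacter H fun h => (#{x | q x ∧ ρ h x = x} : ℂ) := by
  let _ : MulAction H {x // q x} :=
    { smul h x := ⟨ρ h x, hq h x x.2⟩
      one_smul x := Subtype.ext (show ρ 1 x = x by simp)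
      mul_smul a b x := Subtype.ext (show ρ (a * b) x = ρ a (ρ b x) by simp) }
  convert (isCharacter_perm (G := H) {x // q x}).isGeneralizedCharacter using 3 with h
  rw [← Fintype.card_subtype, ← Nat.card_eq_fintype_card]
  exact Nat.card_congr ⟨fun x => ⟨⟨x.1, x.2.1⟩, Subtype.ext x.2.2⟩, fun x => ⟨x.1.1, x.1.2, congrArg Subtype.val x.2⟩,
    fun _ => rfl, fun _ => rfl⟩

theorem fx_nd (hH : ¬ p ∣ Nat.card H) {b : LinearMap.BilinForm (ZMod p) V} (hb : ∀ g x y, b (ρ g x) (ρ g y) = b x y) {h : H} {c : V}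
    (hc : c ∈ fx ρ h) (h0 : ∀ y ∈ fx ρ h, b c y = 0) (y : V) : b c y = 0 := by
  have h1 : ∀ i : ℕ, b c (ρ (h ^ i) y) = b c y := fun i => by
    induction i with
    | zero => simp
    | succ i ih => rw [pow_succ', map_mul, Module.End.mul_apply, ← ih, ← hb h c (ρ _ y), mem_fx.1 hc]
  have h2 := h0 (∑ i ∈ range (Nat.card H), ρ (h ^ i) y) (by
    have e := sum_range_succ' (fun i => ρ (h ^ i) y) (Nat.card H)
    rw [sum_range_succ, pow_card_eq_one', pow_zero, add_left_inj] at e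
    rw [mem_fx, map_sum, e]
    exact sum_congr rfl fun i _ => by rw [pow_succ', map_mul, Module.End.mul_apply])
  rw [map_sum, sum_congr rfl fun i _ => h1 i, sum_const, card_range, nsmul_eq_mul, mul_eq_zero,
    ZMod.natCast_eq_zero_iff] at h2
  exact h2.resolve_left hH

variable (hM : IsPModular p M) (hζ : IsPrimitiveRoot ζ (p ^ (0 + 1)))
include hM hζ

theorem KR.sup (h : U ⊓ W = ⊥) (hU : Inv ρ U) (hW : Inv ρ W) (h1 : KR ζ M ρ U) (h2 : KR ζ M ρ W) : KR ζ M ρ (U ⊔ W) :=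
  (Kn.mul hM hζ h1 h2).mono (fun g => (card_sup_fx h hU hW g).le) (card_sup h).ge fun g hg => sup_le (a := U) hg.1 hg.2

theorem KT.of_sq (hH : ¬ p ∣ Nat.card H) {ω : ℕ → H → ℂ} (hω : RG p ζ ω) (hc : ∀ g, CF p ζ fun j => ω j g)
    (hn : ∀ j, ¬ p ∣ j → ∀ g, ω j g * conj (ω j g) = Nat.card (fx ρ g)) : KT ζ M ρ := by
  have := Fintype.ofFinite V
  have h1 : Nat.card (fx ρ 1) = Nat.card V := Nat.card_congr (Equiv.subtypeUnivEquiv fun x => by simp [mem_fx])
  refine (Kn.of_sq hM hζ hH hω hc ?_ (fun g => ⟨_, by rw [Module.natCard_eq_pow_finrank (K := ZMod p), Nat.card_zmod]⟩)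
    (fun g => h1 ▸ Finite.card_subtype_le _) hn).mono (fun _ => le_rfl) h1.le fun g hg v => ?_
  · convert isGen_perm (ρ := ρ) (fun _ => True) (fun _ _ _ => trivial) using 3 with h
    rw [← Fintype.card_subtype, ← Nat.card_eq_fintype_card]
    exact Nat.card_congr (Equiv.subtypeEquivRight fun x => by simp [mem_fx])
  · have := AddSubgroup.eq_top_of_card_eq (fx ρ g).toAddSubgroup (hg.trans h1)
    exact (show v ∈ (fx ρ g).toAddSubgroup from this ▸ trivial)

omit hM in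
theorem exists_ac : ∃ e : ℕ → AddChar (ZMod p) ℂ, (∀ j t, e j t = ζ ^ (j * t.val)) ∧ ∀ j, ¬ p ∣ j → ∀ t, e j t = 1 → t = 0 := by
  rw [zero_add, pow_one] at hζ
  have h : ∀ j t, (AddChar.zmodChar p hζ.pow_eq_one ^ j) t = ζ ^ (j * t.val) := fun j t => by
    rw [AddChar.pow_apply, AddChar.zmodChar_apply, ← pow_mul, mul_comm]
  refine ⟨_, h, fun j hj t e => ?_⟩
  rw [h, hζ.pow_eq_one_iff_dvd, hp.out.dvd_mul, or_iff_right hj, ← ZMod.natCast_eq_zero_iff, ZMod.natCast_zmod_val] at e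
  exact e

theorem KT.quad (hH : ¬ p ∣ Nat.card H) {B : LinearMap.BilinForm (ZMod p) V} (hB : ∀ g x y, B (ρ g x) (ρ g y) = B x y)
    (h0 : ∀ x, (∀ y, B x y + B y x = 0) → x = 0) : KT ζ M ρ := by
  have := Fintype.ofFinite V
  obtain ⟨e, h1, h2⟩ := exists_ac hζ
  refine KT.of_sq hM hζ hH (ω := fun j g => ∑ x : fx ρ g, e j (B x x)) ?_ (fun g => ?_) fun j hj g => ?_
  · refine (RG.sum (s := univ) fun (t : ZMod p) _ => RG.base (CF.root t.val)
      (isGen_perm (ρ := ρ) (fun x => B x x = t) fun h x hx => (hB h x x).trans hx)).congr fun j _ g => ?_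
    rw [← sum_subtype (filter (fun x => ρ g x = x) univ) (by simp [mem_fx]) fun x => e j (B x x),
      ← sum_fiberwise _ fun x => B x x]
    refine sum_congr rfl fun t _ => ?_
    rw [sum_congr rfl (g := fun _ => e j t) fun x hx => by rw [(mem_filter.1 hx).2], sum_const, nsmul_eq_mul, h1, mul_comm,
      filter_filter]
    simp only [and_comm]
  · exact (CF.sum fun (x : fx ρ g) _ => CF.root (B x x).val).congr fun j _ => sum_congr rfl fun x _ => h1 _ _
  · rw [map_sum, sum_mul_sum, sum_comm]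
    have h3 : ∀ y : fx ρ g, ∑ x : fx ρ g, e j (B x x) * conj (e j (B y y)) = ∑ x : fx ρ g, e j (B x x) * e j (B x y + B y x) :=
      fun y => (Fintype.sum_equiv (Equiv.addRight y) _ _ fun x => by
        rw [← AddChar.map_neg_eq_conj, ← AddChar.map_add_eq_mul, ← AddChar.map_add_eq_mul]
        simp only [Equiv.coe_addRight, Submodule.coe_add, map_add, LinearMap.add_apply]
        congr 1; ring).symm
    rw [sum_congr rfl fun y _ => h3 y, sum_comm, Fintype.sum_eq_single 0]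
    · simp
    · intro x hx
      rw [← mul_sum]
      refine mul_eq_zero_of_right _ ?_
      have h4 := AddChar.sum_eq_zero_iff_ne_zero (ψ := (e j).compAddMonoidHom
        (((B + B.flip) x).comp (fx ρ g).subtype).toAddMonoidHom)
      refine h4.2 fun e' => hx (Subtype.ext (h0 _ (fx_nd (b := B + B.flip) hH (fun g x y => by simp [hB]) x.2 fun y hy => ?_)))
      exact h2 j hj _ (DFunLike.congr_fun e' ⟨y, hy⟩)

theorem KT.field (hc : ∀ a b : H, a * b = b * a) [Nontrivial V] (hirr : ∀ U, Inv ρ U → U = ⊥ ∨ U = ⊤) : KT ζ M ρ := by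
  have := hM.2.1
  let _ : CommGroup H := { ‹Group H› with mul_comm := hc }
  obtain ⟨K, _, _, ε, ψ, h1⟩ := exists_field ρ hirr
  obtain ⟨e, h2, h3⟩ := exists_ac hζ
  have := Finite.of_equiv _ ε.toEquiv.symm
  have := Fintype.ofFinite K
  obtain ⟨f, hf⟩ : ∃ f : K →ₗ[ZMod p] ZMod p, f 1 ≠ 0 := by
    by_contra h
    push Not at h
    exact one_ne_zero ((Module.forall_dual_apply_eq_zero_iff (ZMod p) (1 : K)).1 h)
  obtain ⟨ι⟩ := MulChar.mulEquiv_units K ℂ
  have h4 : ∀ j, ¬ p ∣ j → (e j).compAddMonoidHom f.toAddMonoidHom ≠ 1 := fun j hj h =>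
    hf (h3 j hj _ (DFunLike.congr_fun h 1))
  have h5 : ∀ h, ι.symm (ψ.toHomUnits h) = 1 → ∀ v, ρ h v = v := fun h e v => by
    obtain ⟨x, rfl⟩ := ε.surjective v
    rw [← h1, show ψ h = 1 from congrArg Units.val ((map_eq_one_iff _ ι.symm.injective).1 e), one_mul]
  have h6 : ∀ x : K, IsGeneralizedCharacter H fun h => ι.symm (ψ.toHomUnits h) x := fun x => by
    by_cases hx : x = 0
    · simp only [hx, MulChar.map_zero]; exact isGeneralizedCharacter_zero
    · exact (isIrrCharacter_monoidHom' (G := H) ⟨⟨fun h => ι.symm (ψ.toHomUnits h) x, by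
        rw [map_one, map_one, MulChar.one_apply (IsUnit.mk0 x hx)]⟩, fun a b => by
        simp only [map_mul, MulChar.mul_apply]⟩).isCharacter.isGeneralizedCharacter
  refine ⟨fun j h => -gaussSum (ι.symm (ψ.toHomUnits h)) ((e j).compAddMonoidHom f.toAddMonoidHom), ?_, fun j hj h => ?_, ?_,
    fun h hh => ?_⟩
  · refine (RG.sum (s := univ) fun (x : K) _ => RG.base ((CF.int (-1)).mul (CF.root (f x).val)) (h6 x)).congr fun j _ h => ?_
    rw [gaussSum, ← sum_neg_distrib]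
    exact sum_congr rfl fun x _ => by rw [← h2]; simp [mul_comm]
  · beta_reduce
    by_cases e' : ι.symm (ψ.toHomUnits h) = 1
    · rw [e', gaussSum_one_left (h4 j hj)]
      simpa using Finite.card_subtype_le _
    · have h7 : fx ρ h = ⊥ := eq_bot_iff.2 fun v hv => by
        obtain ⟨x, rfl⟩ := ε.surjective v
        rw [mem_fx, ← h1, ε.injective.eq_iff] at hv
        by_contra hx
        refine e' ((map_eq_one_iff _ ι.symm.injective).2 (Units.ext (mul_right_cancel₀ (b := x) (fun e => hx ?_)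
          (hv.trans (one_mul x).symm))))
        simp [e]
      have h8 := gaussSum_mul_gaussSum_eq_card e' (AddChar.IsPrimitive.of_ne_one (h4 j hj))
      rw [← star_gaussSum_eq, ← starRingEnd_apply, Complex.mul_conj, ← Nat.card_eq_fintype_card,
        Nat.card_congr ε.toEquiv] at h8
      rw [h7, Complex.normSq_neg, Nat.card_unique, Nat.cast_one, mul_one]
      exact le_of_eq (by exact_mod_cast h8)
  · simp only [map_one, gaussSum_one_left (h4 1 hp.out.not_dvd_one), neg_neg]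
  · have h7 := MulChar.sum_eq_zero_of_ne_one fun e => hh (h5 h e)
    rw [ideal_neg_iff, gaussSum, ← sub_zero (∑ _, _), ← h7, ← sum_sub_distrib]
    refine ideal_sum fun x _ => ?_
    rw [← mul_sub_one]
    refine ideal_mul_left (ring_of_isIntegral ((h6 x).isIntegral h)) (ideal_sub_comm.1 (one_sub_root_mem hM (k := 0 + 1) ?_))
    rw [AddChar.compAddMonoidHom_apply, h2, pow_right_comm, hζ.pow_eq_one, one_pow]

theorem KR.abelian (hH : ¬ p ∣ Nat.card H) (hc : ∀ a b : H, a * b = b * a) (U : Submodule (ZMod p) V) (hU : Inv ρ U) :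
    KR ζ M ρ U := by
  have : NeZero (Nat.card H : ZMod p) := ⟨fun e => hH ((ZMod.natCast_eq_zero_iff _ _).1 e)⟩
  induction U using WellFoundedLT.induction with
  | ind U ih =>
  by_cases h0 : U = ⊥
  · exact (Kn.triv fun g => Nat.card_le_card_of_injective _ (Submodule.inclusion_injective inf_le_left)).mono
      (fun _ => le_rfl) le_rfl fun g _ => (h0.le.trans bot_le : U ≤ _)
  obtain ⟨X, ⟨h1, h2, h3⟩, h4⟩ := exists_minimal_of_wellFoundedLT (fun X => Inv ρ X ∧ X ≤ U ∧ X ≠ ⊥) ⟨U, hU, le_rfl, h0⟩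
  obtain ⟨Y, h5, h6, h7, rfl⟩ := maschke h1 hU h2
  refine KR.sup hM hζ h7 h5 h1 (ih Y (lt_of_le_of_ne h6 fun e => h3 ?_) h5) (KT.sub h1 ?_)
  · rwa [inf_eq_right.2 (h2.trans e.ge)] at h7
  · have := Submodule.nontrivial_iff_ne_bot.2 h3
    refine KT.field hM hζ hc fun W hW => or_iff_not_imp_left.2 fun e => ?_
    have := h4 (y := W.map X.subtype) ⟨by rintro g _ ⟨x, hx, rfl⟩; exact ⟨_, hW g x hx, rfl⟩, (X.map_subtype_le W).trans h2,
      fun e' => e (Submodule.map_injective_of_injective X.injective_subtype (by rw [e', Submodule.map_bot]))⟩ (X.map_subtype_le W)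
    exact eq_top_iff.2 fun x _ => by
      obtain ⟨y, hy, e⟩ := this x.2
      exact (Subtype.ext e : y = x) ▸ hy

omit hM hζ

/-- the Heisenberg group of an invariant form, extended by the acting group -/
@[ext] structure Hs (ρ : Representation (ZMod p) H V) (A : LinearMap.BilinForm (ZMod p) V)
    (hA : ∀ g x y, A (ρ g x) (ρ g y) = A x y) where
  u : V
  t : ZMod p
  h : H

namespace Hs
variable {A : LinearMap.BilinForm (ZMod p) V} {hA : ∀ g x y, A (ρ g x) (ρ g y) = A x y}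

instance : Mul (Hs ρ A hA) := ⟨fun a b => ⟨a.u + ρ a.h b.u, a.t + b.t + A a.u (ρ a.h b.u), a.h * b.h⟩⟩
instance : One (Hs ρ A hA) := ⟨⟨0, 0, 1⟩⟩
instance : _root_.Inv (Hs ρ A hA) := ⟨fun a => ⟨-ρ a.h⁻¹ a.u, A a.u a.u - a.t, a.h⁻¹⟩⟩
@[simp] theorem mul_u (a b : Hs ρ A hA) : (a * b).u = a.u + ρ a.h b.u := rfl
@[simp] theorem mul_t (a b : Hs ρ A hA) : (a * b).t = a.t + b.t + A a.u (ρ a.h b.u) := rfl
@[simp] theorem mul_h (a b : Hs ρ A hA) : (a * b).h = a.h * b.h := rfl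
@[simp] theorem one_u : (1 : Hs ρ A hA).u = 0 := rfl
@[simp] theorem one_t : (1 : Hs ρ A hA).t = 0 := rfl
@[simp] theorem one_h : (1 : Hs ρ A hA).h = 1 := rfl
@[simp] theorem inv_u (a : Hs ρ A hA) : a⁻¹.u = -ρ a.h⁻¹ a.u := rfl
@[simp] theorem inv_t (a : Hs ρ A hA) : a⁻¹.t = A a.u a.u - a.t := rfl
@[simp] theorem inv_h (a : Hs ρ A hA) : a⁻¹.h = a.h⁻¹ := rfl

instance : Group (Hs ρ A hA) := Group.ofLeftAxioms
  (fun a b c => by ext <;> simp [hA, add_assoc, mul_assoc]; ring) (fun a => by ext <;> simp) fun a => by ext <;> simp [hA]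

instance : Finite (Hs ρ A hA) := Finite.of_injective (fun a => (a.u, a.t, a.h)) fun a b e => by
  simp only [Prod.mk.injEq] at e; exact Hs.ext e.1 e.2.1 e.2.2

/-- projection -/
def pr : Hs ρ A hA →* H := ⟨⟨fun a => a.h, rfl⟩, fun _ _ => rfl⟩
/-- inclusion -/
def inc : H →* Hs ρ A hA := ⟨⟨fun h => ⟨0, 0, h⟩, rfl⟩, fun _ _ => by ext <;> simp⟩

theorem z_pow (n : ℕ) : (⟨0, 1, 1⟩ : Hs ρ A hA) ^ n = ⟨0, n, 1⟩ := by
  induction n with
  | zero => ext <;> simp
  | succ n ih => rw [pow_succ, ih]; ext <;> simp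

theorem mem_zpowers {g : Hs ρ A hA} (h1 : g.h = 1) (h2 : g.u = 0) : g ∈ Subgroup.zpowers (⟨0, 1, 1⟩ : Hs ρ A hA) :=
  ⟨g.t.val, by simp only [zpow_natCast, z_pow]; ext <;> simp [h1, h2]⟩

theorem card_fx (h : H) : Nat.card ↥((pr (hA := hA)).ker ⊓ Subgroup.centralizer {inc h}) = Nat.card (fx ρ h) * p := by
  exact (Nat.card_congr (β := fx ρ h × ZMod p)
    ⟨fun x => (⟨x.1.u, by simpa [inc, mem_fx] using congrArg Hs.u (x.2.2 _ rfl)⟩, x.1.t),
    fun y => ⟨⟨y.1, y.2, 1⟩, rfl, by rintro _ rfl; ext <;> simp [inc, mem_fx.1 y.1.2]⟩,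
    fun x => Subtype.ext (Hs.ext rfl rfl x.2.1.symm), fun y => rfl⟩).trans (by rw [Nat.card_prod, Nat.card_zmod])

end Hs

include hM hζ

theorem KT.alt (hH : ¬ p ∣ Nat.card H) (h2 : (2 : ZMod p) ≠ 0) {A : LinearMap.BilinForm (ZMod p) V}
    (hA : ∀ g x y, A (ρ g x) (ρ g y) = A x y) (ha : Alt A) (h0 : ∀ x, (∀ y, A x y = 0) → x = 0) : KT ζ M ρ := by
  have h1 : ∀ h : H, ∀ g ∈ (Hs.pr (hA := hA)).ker ⊓ Subgroup.centralizer {Hs.inc h}, g ∉ Subgroup.zpowers ⟨0, 1, 1⟩ →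
      ∃ c ∈ (Hs.pr (hA := hA)).ker ⊓ Subgroup.centralizer {Hs.inc h}, c * g * c⁻¹ = ⟨0, 1, 1⟩ * g := fun h g hg e => by
    have e1 : g.h = 1 := hg.1
    have e2 : g.u ∈ fx ρ h := by simpa [Hs.inc, mem_fx] using congrArg Hs.u (hg.2 _ rfl)
    obtain ⟨y, hy, e3⟩ : ∃ y ∈ fx ρ h, A g.u y ≠ 0 := by
      by_contra e'
      push Not at e'
      exact e (Hs.mem_zpowers e1 (h0 _ (fx_nd hH hA e2 e')))
    refine ⟨⟨(-(2 * A g.u y)⁻¹) • y, 0, 1⟩, ⟨rfl, ?_⟩, ?_⟩
    · rintro _ rfl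
      ext <;> simp [Hs.inc, mem_fx.1 hy]
    · have e4 : A y g.u = -A g.u y := (LinearMap.IsAlt.neg ha _ _).symm
      rw [mul_inv_eq_iff_eq_mul]
      ext <;> simp [e1, e4, add_comm]
      field_simp; ring
  have h3 : (Hs.pr (hA := hA)).ker ⊓ Subgroup.centralizer {Hs.inc 1} = Hs.pr.ker :=
    inf_eq_left.2 fun x _ => Subgroup.mem_centralizer_singleton_iff.2 (by simp)
  have h4 : ∀ n, n ∣ Nat.card H → n.Coprime (Nat.card (Hs.pr (hA := hA)).ker) := fun n hn => by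
    rw [← h3, Hs.card_fx, Module.natCard_eq_pow_finrank (K := ZMod p), Nat.card_zmod, ← pow_succ]
    exact ((hp.out.coprime_iff_not_dvd.2 fun e => hH (e.trans hn)).symm).pow_right _
  have h5 : (⟨0, 1, 1⟩ : Hs ρ A hA) ≠ 1 := fun e => one_ne_zero (congrArg Hs.t e)
  obtain ⟨χ, h6, h7⟩ := exists_weil (Hs.pr (hA := hA)).ker (h4 _ (by
      rw [Subgroup.index_ker]; exact Subgroup.card_subgroup_dvd_card _))
    (z := ⟨0, 1, 1⟩) rfl (Subgroup.mem_center_iff.2 fun g => by ext <;> simp [add_comm]) h5 (h3 ▸ h1 1)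
  have h8 : orderOf (⟨0, 1, 1⟩ : Hs ρ A hA) = p := orderOf_eq_prime (by rw [Hs.z_pow]; ext <;> simp) h5
  have h9 : ∀ h, ∃ n : ℤ, χ (Hs.inc h) = n ∧ n ^ 2 = Nat.card (fx ρ h) := fun h => by
    obtain ⟨n, a, b⟩ := h7 (Hs.inc h) (h4 _ ((orderOf_map_dvd _ _).trans (orderOf_dvd_natCard h))) (h1 h)
    rw [h8, Hs.card_fx, Nat.cast_mul] at b
    exact ⟨n, a, mul_right_cancel₀ (by exact_mod_cast hp.out.ne_zero) b⟩
  choose n a b using h9
  exact KT.of_sq hM hζ hH (RG.gen (h6.isGeneralizedCharacter.comp Hs.inc)) (fun g => (CF.int (n g)).congr fun j _ => a g)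
    fun j _ g => by rw [a, map_intCast, ← sq]; exact_mod_cast b g

theorem KT.alt' (hH : ¬ p ∣ Nat.card H) {A : LinearMap.BilinForm (ZMod p) V}
    (hA : ∀ g x y, A (ρ g x) (ρ g y) = A x y) (ha : Alt A) (h0 : ∀ x, (∀ y, A x y = 0) → x = 0) : KT ζ M ρ := by
  by_cases h2 : (2 : ZMod p) = 0
  swap
  · exact KT.alt hM hζ hH h2 hA ha h0
  have := Fintype.ofFinite H
  obtain ⟨B, hB⟩ : ∃ B : LinearMap.BilinForm (ZMod p) V, ∀ x y, B x y - B y x = A x y := by
    let b := Module.finBasis (ZMod p) V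
    let B : LinearMap.BilinForm (ZMod p) V :=
      b.constr (ZMod p) fun i => b.constr (ZMod p) fun j => if i < j then A (b i) (b j) else 0
    have : B - B.flip = A := LinearMap.ext_basis b b fun i j => by
      simp only [B, LinearMap.sub_apply, LinearMap.BilinForm.flip_apply, Module.Basis.constr_basis]
      rcases lt_trichotomy i j with e | rfl | e
      · simp [e, e.not_gt]
      · simp [ha _]
      · simp [e, e.not_gt, LinearMap.IsAlt.neg ha]
    exact ⟨B, fun x y => by rw [← this]; rfl⟩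
  refine KT.quad hM hζ hH (B := ∑ g, B.comp (ρ g) (ρ g)) (fun g x y => ?_) fun x hx => h0 x fun y => ?_
  · simp only [LinearMap.sum_apply, LinearMap.BilinForm.comp_apply]
    exact Fintype.sum_equiv (Equiv.mulRight g) _ _ fun k => by simp
  · have h3 := hx y
    simp only [LinearMap.sum_apply, LinearMap.BilinForm.comp_apply, ← sum_add_distrib] at h3
    rw [sum_congr rfl (g := fun _ => A x y) fun g _ => by
      rw [← hA g, ← hB]; linear_combination B (ρ g y) (ρ g x) * h2, sum_const, card_univ, nsmul_eq_mul, mul_eq_zero,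
      ZMod.natCast_eq_zero_iff, ← Nat.card_eq_fintype_card] at h3
    exact h3.resolve_left hH

theorem KR.good (hH : ¬ p ∣ Nat.card H) (h : Good ρ U) : KR ζ M ρ U := by
  obtain ⟨X, Y, h1, rfl, h2, h3, ⟨A, a1, a2, a3⟩, ⟨B, b1, b2, b3⟩, h4⟩ := h
  refine KR.sup hM hζ h1 h2 h3 (KT.sub h2 (KT.alt' hM hζ hH (A := A.restrict X) (fun g x y => a2 g _ x.2 _ y.2)
    (fun x => a1 _) fun x hx => Subtype.ext (a3 _ x.2 fun y hy => hx ⟨y, hy⟩))) ?_
  by_cases e : (2 : ZMod p) = 0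
  · exact (Kn.triv fun g => Nat.card_le_card_of_injective _ (Submodule.inclusion_injective inf_le_left)).mono
      (fun _ => le_rfl) le_rfl fun g _ => h4 e g
  · refine KT.sub h3 (KT.quad hM hζ hH (B := B.restrict Y) (fun g x y => b2 g _ x.2 _ y.2) fun x hx =>
      Subtype.ext (b3 _ x.2 fun y hy => (mul_eq_zero.1 ?_).resolve_left e))
    rw [two_mul]
    nth_rw 2 [b1]
    exact hx ⟨y, hy⟩

theorem KT.selfDual (hH : ¬ p ∣ Nat.card H) (f : V → V → ZMod p) (h1 : ∀ x x' y, f (x + x') y = f x y + f x' y)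
    (h2 : ∀ x y y', f x (y + y') = f x y + f x y') (h3 : ∀ g x y, f (ρ g x) (ρ g y) = f x y)
    (h4 : ∀ x, (∀ y, f x y = 0) → x = 0) : KT ζ M ρ := by
  have : NeZero (Nat.card H : ZMod p) := ⟨fun e => hH ((ZMod.natCast_eq_zero_iff _ _).1 e)⟩
  exact Kn.mono (KR.good hM hζ hH (good_of_sep (ρ := ρ) (B := (AddMonoidHom.mk' (fun x => (AddMonoidHom.mk' (f x)
    (h2 x)).toZModLinearMap p) fun x x' => LinearMap.ext (h1 x x')).toZModLinearMap p) h3 ⊤ (fun _ _ _ => trivial)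
    fun x _ h => h4 x fun y => h y trivial)) (fun g => by rw [top_inf_eq]) (Finite.card_subtype_le _)
    fun g hg v => hg trivial

theorem KR.top (hH : ¬ p ∣ Nat.card H) (hU : Inv ρ U) (h : KR ζ M ρ U) :
    Kn p ζ M (fun g => Nat.card (fx ρ g)) (Nat.card V) {g | U ≤ fx ρ g} := by
  have : NeZero (Nat.card H : ZMod p) := ⟨fun e => hH ((ZMod.natCast_eq_zero_iff _ _).1 e)⟩
  obtain ⟨Y, h4, -, h5, h6⟩ := maschke hU (C := ⊤) (fun _ _ _ => trivial) le_top
  refine (Kn.mul hM hζ (Kn.triv fun g => Nat.card_le_card_of_injective _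
    (Submodule.inclusion_injective (inf_le_left (a := Y) (b := fx ρ g)))) h).mono (fun g => ?_) ?_ fun g hg => hg.2
  · rw [← card_sup_fx h5 h4 hU, h6, top_inf_eq]
  · rw [← card_sup h5, h6]
    exact (Nat.card_congr Submodule.topEquiv.toEquiv).le

omit hM hζ in
theorem bridge.{u} {X : Type u} [Group X] [Finite X] {V G : Subgroup X} [V.Normal] {v : X} (hV : ∀ x ∈ V, x ^ p = 1)
    (hi : ¬ p ∣ V.index) (hab : V ≤ Subgroup.centralizer V) (hGV : Subgroup.IsComplement' V G) (hv : v ∈ V)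
    (h : ∀ (W : Type u) [AddCommGroup W] [Module (ZMod p) W] [Finite W]
      (ρ : Representation (ZMod p) ↥(G ⊓ Subgroup.centralizer {v}) W) (e : W ≃ V), (∀ a b, e (a + b) = e a * e b) →
      (∀ c x, (e (ρ c x) : X) = c * e x * (c : X)⁻¹) → ∀ ζ M, IsPModular p M → IsPrimitiveRoot ζ (p ^ (0 + 1)) →
      ¬ p ∣ Nat.card ↥(G ⊓ Subgroup.centralizer {v}) → ∃ U, Inv ρ U ∧ KR ζ M ρ U ∧ ∀ c, U ≤ fx ρ c → c = 1) :
    Nat.card (ConjClasses X) ≤ Nat.card V := by
  obtain ⟨M, hM⟩ := exists_isPModular hp.out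
  have hζ := Complex.isPrimitiveRoot_exp _ (pow_ne_zero (0 + 1) hp.out.ne_zero)
  have hC : ¬ p ∣ Nat.card ↥(G ⊓ Subgroup.centralizer {v}) := fun e =>
    hi (hGV.symm.index_eq_card ▸ e.trans (Subgroup.card_dvd_of_le inf_le_left))
  let _ : CommGroup V := { (inferInstance : Group V) with mul_comm := fun a b => Subtype.ext (hab b.2 a a.2) }
  let _ : Module (ZMod p) (Additive V) := AddCommGroup.zmodModule (n := p) fun x => by
    change Additive.ofMul (x.toMul ^ p) = 0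
    rw [show x.toMul ^ p = 1 from Subtype.ext (hV _ x.toMul.2)]; rfl
  obtain ⟨U, h1, h2, h3⟩ := h _ (H24.zmodRep (MulAut.conjNormal.comp (Subgroup.subtype _))) Additive.toMul (fun _ _ => rfl)
    (fun _ _ => rfl) _ M hM hζ hC
  exact main hM hζ hV hi hab hGV hv ((h2.top hM hζ hC h1).mono (fun g => Nat.card_le_card_of_injective
    (fun x => ⟨Additive.ofMul ⟨x.1, x.2.1⟩, Subtype.ext (mul_inv_eq_iff_eq_mul.2 (x.2.2 _ rfl))⟩)
    fun x y e => Subtype.ext (congrArg (fun z => z.1.toMul.1) e)) le_rfl h3)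

end H20.Kr
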