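import Cfsg.Agent.H23.K0

/-! Part U of S5567. -/

set_option autoImplicit false
open Cfsg BG Subgroup H20.FtW

namespace H20.KU
universe u

theorem u : Cfsg.Agent.H23.K.UStmt.{u} := by
  intro G _ _ h P p
  have : Fact (Nat.Prime 2) := ⟨Nat.prime_two⟩
  obtain ⟨T, l⟩ := p.exists_le_sylow
  obtain ⟨V, ⟨-, -, cV⟩, un⟩ := h T
  have k : ∀ B ≤ P, EA B → Nat.card B = 2048 → B = V := fun B i e c =>
    un B ⟨i.trans l, ⟨⟨⟨fun x y => Subtype.ext (e.comm x.2 y.2)⟩⟩, fun x j => (pow_two x).trans (e x j)⟩, c⟩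
  refine ⟨fun B i e => ?_, fun B i C j e e' c c' => (k B i e c).trans (k C j e' c').symm⟩
  obtain ⟨n, c⟩ := IsPGroup.iff_card.1 e.pg
  by_cases m : n ≤ 11
  · rw [c]; exact (Nat.pow_le_pow_right (by norm_num) m).trans (by norm_num)
  refine (card_le_of_le (K := V) fun x j => ?_).trans_eq cV
  by_cases x1 : x = 1
  · exact x1 ▸ one_mem _
  obtain ⟨K, cK, lK⟩ := Sylow.exists_subgroup_card_pow_prime_le 2 (G := B) (n := 1) (m := 11)
    (c ▸ pow_dvd_pow 2 (by omega)) (zpowers ⟨x, j⟩) (by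
      rw [Nat.card_zpowers, pow_one]
      exact orderOf_eq_prime (Subtype.ext ((pow_two x).trans (e x j))) fun e => x1 (congrArg Subtype.val e)) (by omega)
  rw [← k (K.map B.subtype) ((map_subtype_le _).trans i) (fun y o => e y (map_subtype_le _ o))
    (by rw [card_map_of_injective (subtype_injective _), cK]; norm_num)]
  exact ⟨_, lK (mem_zpowers _), rfl⟩

end H20.KU
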