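import Cfsg.Agent.H26.Qa1

set_option autoImplicit false

open BG Cfsg H22 Subgroup
open scoped commutatorElement

namespace H20.Qa
open Cfsg.Agent.H26.Qa

universe u

theorem part2 {G : Type u} [Group G] [Finite G] {n : ℕ} {J K : Subgroup G} {z t : G}
    (hi : ∀ {J K : Subgroup G} {z t y : G}, Om n J z → Om n K t → y ∈ K → IsPGroup 2 (zpowers y) → y * y ≠ 1 →
      y * z = z * y → y ∈ N_(J))
    (hd : ∀ {J K X : Subgroup G} {z t a k : G}, Om n J z → Om n K t → z * t = t * z → t ∉ N_(J) → z ∈ N_(K) →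
      IsPGroup 2 X → a ∈ X → a ∈ J → a * a = z → t ∈ X → k ∈ K → ⁅a * (t * a * t⁻¹), k⁆ ∈ OC t)
    (hJ : Om n J z) (hK : Om n K t) (zN : z ∈ N_(K)) : t ∈ N_(J) := by
  by_contra mv
  have zt : z * t = t * z := mul_inv_eq_iff_eq_mul.1 ((hK.uq _ (conj_mem_of_norm zN hK.mem) (by
    rw [show z * t * z⁻¹ * (z * t * z⁻¹) = z * (t * t) * z⁻¹ by group, hK.sq]; group)).resolve_left fun e => hK.ne (by simpa using e))
  obtain ⟨S, T, h, -⟩ := exists_pr hJ hK (fun e => mv (e ▸ le_norm J hJ.mem)) zt pg_bot bot_le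
  obtain ⟨y, y1, y2, yy, hy⟩ := h.hK.good
  obtain ⟨a, a1, a2, aa, -⟩ := h.hJ.good
  have zy : z * y * z⁻¹ = y⁻¹ := (hy z h.zT zN).resolve_left fun e => mv (yy ▸ (fun m => mul_mem m m)
    (hi hJ hK y2 (pg_le h.hK.pg (zpowers_le.2 y1)) (h.hK.nesq yy) (mul_inv_eq_iff_eq_mul.1 e).symm))
  have tS := h.tS
  have tC : t ∈ C_[z] := h.hJ.sy.le tS
  have b1 : t * a * t⁻¹ ∈ S := mul_mem (mul_mem tS a1) (inv_mem tS)
  have b2 : t * a * t⁻¹ ∈ BG.cj t J := BG.conj_mem_cj t a2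
  have ab := h.hJ.mvcom a1 a2 tS mv a1 a2
  have dR := fun k (k2 : k ∈ K) => hd hJ hK zt mv zN h.hJ.pg a1 a2 aa tS k2
  have ta : t * a = t * a * t⁻¹ * t := by group
  have tb : t * (t * a * t⁻¹) = a * t := by rw [← mul_assoc, ← mul_assoc, hK.sq, one_mul, h.hK.iv]
  generalize t * a * t⁻¹ = b at *
  have az := h.hJ.cz a1
  have bz := h.hJ.cz b1
  have d1 : a * b ∈ S := mul_mem a1 b1
  have dt : a * b * t = t * (a * b) := by rw [← mul_assoc, ta, mul_assoc b, tb, ← mul_assoc, ab]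
  have dT := h.toT d1 dt
  have dk : ∀ k ∈ T, k ∈ K → a * b * k = k * (a * b) := fun k k1 k2 => commutatorElement_eq_one_iff_mul_comm.1
    (eq_one_of h.hK.pg (mul_mem (mul_mem (mul_mem dT k1) (inv_mem dT)) (inv_mem k1)) (dR k k2))
  have e1 : a * t * a⁻¹ = a * b * (z * t) := by
    rw [h.hJ.inv4 aa, show a * t * (a * z) = a * (t * a) * z by group, ta, zt]; group
  have e2 : y * z * y⁻¹ = z * t := by
    rw [zt, ← yy, show y * z * y⁻¹ = y * (z * y * z⁻¹)⁻¹ * z⁻¹⁻¹ by group, zy]; group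
  have yt : y * t = t * y := h.hK.cz y1
  have ew : y * a * t * (y * a)⁻¹ = z * (a * b) := by
    calc _ = y * (a * t * a⁻¹) * y⁻¹ := by group
      _ = (y * (a * b)) * y⁻¹ * (y * z * y⁻¹) * (y * t) * y⁻¹ := by rw [e1]; group
      _ = a * b * z * (t * t) := by rw [← dk y y1 y2, e2, yt]; group
      _ = _ := by rw [hK.sq, mul_one, h.hJ.cz d1]
  have ez : y * a * (a * b * t) * (y * a)⁻¹ = z := by
    calc _ = y * (a * (a * b)) * t * a⁻¹ * y⁻¹ := by group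
      _ = y * (a * b) * (a * t * a⁻¹) * y⁻¹ := by nth_rewrite 1 [ab]; group
      _ = y * (a * (b * a) * b) * (z * t) * y⁻¹ := by rw [e1]; group
      _ = y * (a * a * (b * b)) * y⁻¹ * (y * z * y⁻¹) * (y * t) * y⁻¹ := by rw [← ab]; group
      _ = z := by
        have bb : b * b = z := by
          have : b * b * t = t * (a * a) := by rw [mul_assoc, ← ta, ← mul_assoc, ← ta, mul_assoc]
          rw [aa, ← zt] at this; exact mul_right_cancel this
        rw [aa, bb, hJ.sq, e2, yt, show y * 1 * y⁻¹ * (z * t) * (t * y) * y⁻¹ = z * (t * t) by group, hK.sq, mul_one]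
  have hK1 := hK.cj (y * a)
  rw [ew] at hK1
  have R1 : BG.cj (y * a) (T ⊓ K) ≤ C_[z] ⊓ C_[z * (a * b)] := le_inf (fun x hx => by
    obtain ⟨k, hk, rfl⟩ := mem_cj'.1 hx
    rw [← ez, ← cj_cent1]
    refine BG.conj_mem_cj _ (mem_cent1.2 ?_)
    rw [← mul_assoc, ← dk k hk.1 hk.2, mul_assoc, h.hK.cz hk.1, mul_assoc (a * b)]) ((cj_mono _ inf_le_right).trans hK1.le)
  have ne : z ≠ z * (a * b) := fun e => by
    have e' : b = a⁻¹ := eq_inv_of_mul_eq_one_right (left_eq_mul.1 e)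
    rcases h.hJ.int (h.hJ.cj tS) (mvne mv) b1 (e' ▸ inv_mem a2) b2 with f | f
    · exact hJ.ne (by rw [← aa, inv_eq_one.1 (e'.symm.trans f), mul_one])
    · exact hJ.ne (by rw [← aa, inv_eq_iff_eq_inv.1 (e'.symm.trans f), h.hJ.iv, hJ.sq])
  obtain ⟨S1, T1, h1, hX⟩ := exists_pr (X := S ⊓ C_[z * (a * b)]) hJ hK1 ne
    (by rw [← h.hJ.cz (mul_mem h.hJ.zm d1)]) (pg_le h.hJ.pg inf_le_left) (inf_le_inf_right _ h.hJ.sy.le)
  have a3 : a ∈ S1 := (hX ⟨a1, mem_cent1.2 (by rw [← mul_assoc, az, mul_assoc, mul_assoc, mul_assoc, ab])⟩).1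
  have b3 : b ∈ S1 := (hX ⟨b1, mem_cent1.2 (by rw [← mul_assoc, bz, mul_assoc, ← mul_assoc b, ← ab, mul_assoc z])⟩).1
  obtain ⟨c, hc, R2⟩ := sylow_Jsub (X := BG.cj (y * a) (T ⊓ K)) Nat.prime_two h1.sy ((pg_le h.hK.pg inf_le_left).map _ : IsPGroup 2 (BG.cj (y * a) (T ⊓ K))) R1
  have hK2 := hK1.cj' hc.2
  have R3 : BG.cj c (BG.cj (y * a) (T ⊓ K)) ≤ BG.cj c (BG.cj (y * a) K) := cj_mono _ (cj_mono _ inf_le_right)
  have cR : Nat.card (BG.cj c (BG.cj (y * a) (T ⊓ K))) = 2 ^ n := by rw [BG.card_cj, BG.card_cj, h.hK.card]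
  generalize BG.cj c (BG.cj (y * a) (T ⊓ K)) = R at *
  have RS := R2.trans inf_le_left
  have RN : R ≤ N_(J) := fun x hx => by
    by_cases e : x * x = 1
    · rcases hK2.uq x (R3 hx) e with rfl | rfl
      · exact one_mem _
      · exact mul_mem (le_norm J hJ.mem) (mul_mem (le_norm J a2) (hJ.norm (hJ.cj' tC) b2))
    · exact hi hJ hK2 (R3 hx) (pg_le h1.hJ.pg (zpowers_le.2 (RS hx))) e (h1.hJ.cz (RS hx))
  refine h.hJ.nesq aa (h1.hJ.cen a3 a2 fun q q1 q2 => ?_)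
  have qb := hJ.comm (hJ.cj' tC) (mvne mv) h1.hJ.pg q1 q2 b3 b2
  have qw : q * (z * (a * b)) = z * (a * b) * q := by
    by_contra hq
    let f : R → ↥(S1 ⊓ J) := fun x => ⟨x * q * (x : G)⁻¹, S1.mul_mem (S1.mul_mem (RS x.2) q1) (S1.inv_mem (RS x.2)),
      conj_mem_of_norm (RN x.2) q2⟩
    have fi : Function.Injective f := fun x x' e => by
      by_contra ne'
      have m : (x' : G)⁻¹ * x ∈ R := mul_mem (inv_mem x'.2) x.2
      obtain ⟨i, ei⟩ := hK2.pw h1.hJ.pg (RS m) (R3 m) fun e' => ne' (Subtype.ext (inv_mul_eq_one.1 e').symm)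
      have e3 : (x : G) * q * (x : G)⁻¹ = x' * q * (x' : G)⁻¹ := congrArg Subtype.val e
      have cm : Commute q ((x' : G)⁻¹ * x) := by
        calc q * ((x' : G)⁻¹ * x) = (x' : G)⁻¹ * (x' * q * (x' : G)⁻¹) * x := by group
          _ = _ := by rw [← e3]; group
      exact hq (ei ▸ cm.pow_right i)
    obtain ⟨x, hx⟩ := (fi.bijective_of_nat_card_le (by rw [cR, h1.hJ.card])).2 1
    have e4 : (x : G) * q * (x : G)⁻¹ = 1 := congrArg Subtype.val hx
    have : q = 1 := by simpa using e4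
    exact hq (by rw [this, one_mul, mul_one])
  rw [← mul_assoc, h1.hJ.cz q1, mul_assoc, mul_assoc, mul_assoc, ← qb, mul_right_inj, ← mul_assoc, ← mul_assoc] at qw
  exact mul_right_cancel qw

end H20.Qa
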