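import Mathlib
import Cfsg.Agent.H10.SubfL

/-! # Overgroups of `SL_n(K)` in `GL_n(F)` for `n ≥ 4` (`H10.SubfL5` with the sharp bound); conjunct 5 of S5780 -/

namespace H20.S45

open Module H10

variable {F V : Type*} [Field F] [AddCommGroup V] [Module F V]

/-- a `K`-structure `L` and an overgroup of the rational transvections -/
structure RatL4 (K : Subfield F) (L : Submodule K V) (M : Subgroup (V ≃ₗ[F] V)) : Prop where
  basis : ∃ (n : ℕ) (b : Basis (Fin n) F V), 4 ≤ n ∧ ∀ x, x ∈ L ↔ ∀ i, b.repr x i ∈ K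
  mem : ∀ p ∈ L, ∀ f, RatF L f → f p = 0 → Tv M p f

namespace RatL4
variable {K : Subfield F} {L : Submodule K V} {M : Subgroup (V ≃ₗ[F] V)} (h : RatL4 K L M)
include h

theorem mem_of_ratF {v : V} (hv : ∀ f, RatF L f → f v ∈ K) : v ∈ L := by
  obtain ⟨n, b, -, hb⟩ := h.basis
  exact (hb v).2 fun i => hv (b.coord i) fun x hx => (hb x).1 hx i

theorem eq_zero {f : Dual F V} (hf : ∀ x ∈ L, f x = 0) : f = 0 := by
  obtain ⟨n, b, -, hb⟩ := h.basis
  exact b.ext fun i => hf _ ((hb _).2 fun j => by by_cases h : i = j <;> simp [h])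

theorem exists_ext (f₀ : Dual K L) : ∃ f, RatF L f ∧ ∀ x : L, f x = f₀ x := by
  obtain ⟨n, b, -, hb⟩ := h.basis
  have h1 : ∀ i, b i ∈ L := fun i => (hb _).2 fun j => by by_cases h : i = j <;> simp [h]
  have h2 : ∀ x : L, b.constr F (fun i => (f₀ ⟨b i, h1 i⟩ : F)) x = f₀ x := fun x => by
    have : x = ∑ i, (⟨b.repr x i, (hb x).1 x.2 i⟩ : K) • (⟨b i, h1 i⟩ : L) :=
      Subtype.ext (by simp [Subfield.smul_def])
    conv_rhs => rw [this, map_sum]
    simp only [map_smul]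
    simp [Basis.constr_apply_fintype]
  exact ⟨_, fun x hx => h2 ⟨x, hx⟩ ▸ (f₀ _).2, h2⟩

theorem exists_sep {W : Submodule F V} {u : V} (hu : u ∈ L) (hu' : u ∉ W) :
    ∃ f, RatF L f ∧ (∀ x ∈ L, x ∈ W → f x = 0) ∧ f u = 1 := by
  obtain ⟨f₀, h1, h2⟩ := exists_dual_sep (W := (W.restrictScalars K).comap L.subtype)
    (u := ⟨u, hu⟩) hu'
  obtain ⟨f, h3, h4⟩ := h.exists_ext f₀
  exact ⟨f, h3, fun x hx hx' => by rw [h4 ⟨x, hx⟩, h1 ⟨x, hx⟩ hx']; rfl, by rw [h4 ⟨u, hu⟩, h2]; rfl⟩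

theorem exists_sep' (l : List V) (hl : ∀ x ∈ l, x ∈ L) :
    ∀ v ∉ Submodule.span F {x | x ∈ l}, ∃ f, RatF L f ∧ (∀ x ∈ l, f x = 0) ∧ f v ≠ 0 := by
  induction l with
  | nil =>
    intro v hv
    obtain ⟨n, b, -, hb⟩ := h.basis
    by_contra h0
    push Not at h0
    have : v = 0 := b.ext_elem fun i => by
      simpa using h0 (b.coord i) (fun x hx => (hb x).1 hx i) (by simp)
    exact hv (this ▸ zero_mem _)
  | cons x l ih =>
    intro v hv
    have h1 : Submodule.span F {y | y ∈ l} ≤ Submodule.span F {y | y ∈ x :: l} :=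
      Submodule.span_mono fun y hy => List.mem_cons_of_mem _ hy
    replace ih := ih fun y hy => hl y (List.mem_cons_of_mem _ hy)
    by_cases hx : x ∈ Submodule.span F {y | y ∈ l}
    · obtain ⟨f, h2, h3, h4⟩ := ih v fun h => hv (h1 h)
      exact ⟨f, h2, List.forall_mem_cons.2 ⟨Submodule.span_le (p := LinearMap.ker f).2 h3 hx, h3⟩, h4⟩
    obtain ⟨p, h2, h3, h4⟩ := h.exists_sep (hl x (by simp)) hx
    obtain ⟨f, h5, h6, h7⟩ := ih (v - p v • x) fun h => hv (by
      rw [← sub_add_cancel v (p v • x)]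
      exact add_mem (h1 h) (Submodule.smul_mem _ (p v) (Submodule.subset_span (by simp))))
    refine ⟨f - f x • p, fun y hy => K.sub_mem (h5 y hy) (K.mul_mem (h5 x (hl x (by simp))) (h2 y hy)),
      List.forall_mem_cons.2 ⟨by simp [h4], fun y hy => ?_⟩, by simpa [mul_comm] using h7⟩
    simp [h6 y hy, h3 y (hl y (List.mem_cons_of_mem _ hy)) (Submodule.subset_span hy)]

theorem pair (l : List (Dual F V)) (l' : List V) (hl : ∀ f ∈ l, RatF L f) (hl' : ∀ x ∈ l', x ∈ L)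
    (hn : l.length + l'.length ≤ 3) :
    ∃ e ∈ L, ∃ f, RatF L f ∧ f e = 1 ∧ (∀ g ∈ l, g e = 0) ∧ ∀ x ∈ l', f x = 0 := by
  obtain ⟨n, b, h7, hb⟩ := h.basis
  let E : (Fin n → K) ≃ₗ[K] L := LinearEquiv.symm
    { toFun := fun x i => ⟨b.repr x i, (hb x).1 x.2 i⟩
      map_add' := fun _ _ => by ext; simp
      map_smul' := fun _ _ => by ext; simp [Subfield.smul_def]
      invFun := fun u => ⟨b.equivFun.symm fun i => u i, (hb _).2 fun i => by
        rw [← Basis.equivFun_apply, LinearEquiv.apply_symm_apply]; exact (u i).2⟩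
      left_inv := fun x => Subtype.ext (b.equivFun.symm_apply_apply x)
      right_inv := fun u => by
        ext i; exact congrFun (b.equivFun.apply_symm_apply fun i => (u i : F)) i }
  have := E.finiteDimensional
  have h1 : finrank K L = n := by simpa using E.finrank_eq.symm
  let G : L →ₗ[K] (Fin l.length → K) :=
    { toFun := fun x i => ⟨l.get i x, hl _ (List.get_mem _ _) x x.2⟩
      map_add' := fun _ _ => by ext; simp
      map_smul' := fun _ _ => by ext; simp [Subfield.smul_def] }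
  lift l' to List L using hl'
  obtain ⟨e, h2, h3⟩ : ∃ e ∈ LinearMap.ker G, e ∉ Submodule.span K {x | x ∈ l'} := by
    by_contra h0
    push Not at h0
    have h4 := Submodule.finrank_mono (show LinearMap.ker G ≤ _ from h0)
    have h5 := G.finrank_range_add_finrank_ker
    have h6 := (LinearMap.range G).finrank_le
    have := finrank_span_list_le (F := K) l'
    simp at h6 hn
    omega
  obtain ⟨f₀, h4, h5⟩ := exists_dual_sep h3
  obtain ⟨f, h8, h9⟩ := h.exists_ext f₀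
  refine ⟨e, e.2, f, h8, by rw [h9, h5]; rfl, fun g hg => ?_, ?_⟩
  · obtain ⟨i, rfl⟩ := List.get_of_mem hg
    exact congrArg Subtype.val (congrFun h2 i)
  · simpa using fun x hx hx' => by rw [h9 ⟨x, hx⟩, h4 _ (Submodule.subset_span hx')]; rfl

theorem exists_one {p : V} (hp : p ∈ L) (hp0 : p ≠ 0) : ∃ f, RatF L f ∧ f p = 1 := by
  obtain ⟨f, h1, -, h2⟩ := h.exists_sep (W := ⊥) hp hp0
  exact ⟨f, h1, h2⟩

theorem exists_one' {u : Dual F V} (hu : RatF L u) (hu0 : u ≠ 0) : ∃ x ∈ L, u x = 1 := by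
  obtain ⟨x, hx, hx'⟩ : ∃ x ∈ L, u x ≠ 0 := by
    by_contra h0; push Not at h0; exact hu0 (h.eq_zero h0)
  exact ⟨_, Form.RatS.smul_mem (K.inv_mem (hu x hx)) hx, by simp [hx']⟩

omit h in
variable (L M) in
/-- coefficients of transvections on rational pairs -/
def Coef (c : F) : Prop := ∀ p ∈ L, ∀ f, RatF L f → f p = 0 → Tv M p (c • f)

/-- the coefficient algebra -/
def coefAlg : Subalgebra K F where
  carrier := {c | Coef L M c}
  mul_mem' {c d} hc hd p hp w hw h0 := by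
    obtain ⟨z, hz, u, hu, h1, h2, h3⟩ := h.pair [w] [p] (by simpa) (by simpa) (by simp)
    simp only [List.mem_singleton, forall_eq] at h2 h3
    simpa [h1, smul_smul] using (hc p hp u hu h3).extract (hd z hz w hw h2) (by simp [h3])
      (by simp [h2]) (by simp [h0])
  add_mem' {c d} hc hd p hp w hw h0 := add_smul c d w ▸ (hc p hp w hw h0).add (hd p hp w hw h0)
    (by simp [h0])
  algebraMap_mem' c p hp w hw h0 := h.mem p hp _ (fun x hx => K.mul_mem c.2 (hw x hx)) (by simp [h0])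

theorem coef_move {c : F} {p : V} {u w : Dual F V} (hp : p ∈ L) (hu : RatF L u) (hw : RatF L w)
    (hu0 : u ≠ 0) (h1 : u p = 0) (h2 : w p = 0) (h3 : Tv M p (c • u)) : Tv M p (c • w) := by
  obtain ⟨z, hz, h4⟩ := h.exists_one' hu hu0
  obtain ⟨e, he, f, hf, h5, h6, h7⟩ := h.pair [w] [p, z] (by simpa) (by simp [hp, hz]) (by simp)
  simp only [List.mem_cons, List.not_mem_nil, or_false, forall_eq_or_imp, forall_eq] at h6 h7
  simpa [h4, h5] using (h3.extract (h.mem z hz f hf h7.2) (by simp [h1]) h7.2 h7.1).extract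
    (h.mem e he w hw h6) (by simp [h7]) h6 h2

theorem coef_of_pair {c : F} {p : V} {u : Dual F V} (hp : p ∈ L) (hu : RatF L u) (hp0 : p ≠ 0)
    (hu0 : u ≠ 0) (h1 : u p = 0) (h3 : Tv M p (c • u)) : Coef L M c := by
  intro y hy w hw h0
  obtain ⟨g, hg, h2⟩ := h.exists_one hp hp0
  obtain ⟨e, he, f, hf, h5, -, h7⟩ := h.pair [] [p, y] (by simp) (by simp [hp, hy]) (by simp)
  obtain ⟨e', he', f', hf', h8, h9, h10⟩ := h.pair [f, g] [y] (by simp [hf, hg]) (by simpa) (by simp)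
  simp only [List.mem_cons, List.not_mem_nil, or_false, forall_eq_or_imp, forall_eq] at h7 h9 h10
  refine h.coef_move hy hf hw (by rintro rfl; simp at h5) h7.2 h0 ?_
  simpa [h2, h8] using ((h.coef_move hp hu hf hu0 h1 h7.1 h3).extract_left (h.mem e' he' g hg h9.2)
    (by simp [h7]) h9.2 (by simp [h9])).extract_left (h.mem y hy f' hf' h10) (by simp [h9]) h10
    (by simp [h7])

theorem mem_fullSub_of_coef (hc : ∀ c, Coef L M c) (v : V) : v ∈ fullSub M := by
  obtain ⟨n, b, -, hb⟩ := h.basis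
  rw [← b.sum_repr v]
  refine Submodule.sum_mem _ fun i _ => Submodule.smul_mem _ _ fun f hf => ?_
  have h1 : f = ∑ j ∈ Finset.univ.erase i, f (b j) • b.coord j := by
    rw [Finset.sum_erase _ (by simp [hf]), b.sum_dual_apply_smul_coord]
  rw [h1]
  refine (Finset.sum_induction _ (fun f : Dual F V => f (b i) = 0 ∧ Tv M (b i) f)
    (fun f g h1 h2 => ⟨by simp [h1.1, h2.1], h1.2.add h2.2 h1.1⟩) ⟨rfl, tv_zero⟩ fun j hj => ?_).2
  have h2 : b.coord j (b i) = 0 := by simp [(Finset.ne_of_mem_erase hj).symm]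
  exact ⟨by simp only [LinearMap.smul_apply, h2, smul_zero], hc _ _ ((hb _).2 fun j => by
    by_cases h : i = j <;> simp [h]) _ (fun x hx => (hb x).1 hx j) h2⟩

section rat
variable (hc : ∀ c, Coef L M c → c ∈ K)
include hc

theorem mem_of_tv {v : V} {u : Dual F V} (hu : RatF L u) (hu0 : u ≠ 0) (h1 : u v = 0)
    (h2 : Tv M v u) : v ∈ L := h.mem_of_ratF fun w hw => by
  obtain ⟨z, hz, f, -, h3, h4, -⟩ := h.pair [u, w] [] (by simp [hu, hw]) (by simp) (by simp)
  simp only [List.mem_cons, List.not_mem_nil, or_false, forall_eq_or_imp, forall_eq] at h4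
  exact hc _ (h.coef_of_pair hz hu (by rintro rfl; simp at h3) hu0 h4.1
    (h2.extract_left (h.mem z hz w hw h4.2) h1 h4.2 h4.1))

theorem exists_smul_map_mem {k : V ≃ₗ[F] V} (hk : k ∈ M) {u : Dual F V} (hu : RatF L u) (hu0 : u ≠ 0)
    (hk' : ∀ x ∈ L, u x = 0 → u (k x) = 0) :
    ∃ c : F, c ≠ 0 ∧ ∀ x ∈ L, u x = 0 → c • k x ∈ L := by
  obtain ⟨e, he, h1⟩ := h.exists_one' hu hu0
  have h2 : u ∘ₗ (k : V →ₗ[F] V) = u (k e) • u := sub_eq_zero.1 (h.eq_zero fun x hx => by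
    simpa [h1, mul_comm] using hk' _ (L.sub_mem hx (Form.RatS.smul_mem (hu x hx) he)) (by simp [h1]))
  have h3 : u (k e) ≠ 0 := fun h0 => hu0 (LinearMap.ext fun x => by
    simpa [h0] using LinearMap.congr_fun h2 (k.symm x))
  have h4 : u ∘ₗ (k.symm : V →ₗ[F] V) = (u (k e))⁻¹ • u := LinearMap.ext fun x => by
    have := LinearMap.congr_fun h2 (k.symm x)
    simp only [LinearMap.comp_apply, LinearEquiv.coe_coe, LinearEquiv.apply_symm_apply,
      LinearMap.smul_apply, smul_eq_mul] at this ⊢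
    rw [this, inv_mul_cancel_left₀ h3]
  exact ⟨(u (k e))⁻¹, inv_ne_zero h3, fun x hx h5 => h.mem_of_tv hc hu hu0 (by simp [hk' x hx h5])
    ((tv_smul _).2 (h4 ▸ (h.mem x hx u hu h5).conj hk))⟩

theorem exists_smul_mem_of_tv [Finite F] {v : V} {f : Dual F V} (hf : f ≠ 0) (h0 : f v = 0)
    (ht : Tv M v f) : ∃ c : F, c ≠ 0 ∧ c • v ∈ L := by
  obtain ⟨y, hy, hy'⟩ : ∃ y ∈ L, f y ≠ 0 := by
    by_contra h0; push Not at h0; exact hf (h.eq_zero h0)
  obtain ⟨a, ha, ha'⟩ := id ht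
  by_cases h1 : ∃ x ∈ L, v ∈ Submodule.span F {z | z ∈ [x, y]}
  · obtain ⟨x, hx, h1⟩ := h1
    obtain ⟨e, he, u, hu, h2, -, h3⟩ := h.pair [] [x, y] (by simp) (by simp [hx, hy]) (by simp)
    have h4 : u v = 0 := Submodule.span_le (p := LinearMap.ker u).2 h3 h1
    have h5 := (h.mem y hy u hu (h3 y (by simp))).conj ha
    have h6 : u ∘ₗ (a.symm : V →ₗ[F] V) = u := LinearMap.ext fun x => by
      conv_rhs => rw [← a.apply_symm_apply x, ha']
      simp [h4]
    have h7 := h.mem_of_tv hc hu (by rintro rfl; simp at h2) (by simp [ha', h4, h3]) (h6 ▸ h5)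
    exact ⟨f y, hy', by simpa [ha'] using L.sub_mem h7 hy⟩
  push Not at h1
  obtain ⟨w, hw, hw'⟩ := h.exists_one hy (by rintro rfl; simp at hy')
  have h2 : ∀ x ∈ L, ∀ g, RatF L g → g x = 1 → g y = 0 → f x / f y ∈ K := fun x hx g hg h2 h3 => by
    obtain ⟨u, hu, h4, h5⟩ := h.exists_sep' [x, y] (by simp [hx, hy]) v (h1 x hx)
    obtain ⟨e, he, g', hg', h6, h7, h8⟩ : ∃ e ∈ L, ∃ g', RatF L g' ∧ g' e = 1 ∧ (u e = 0 ∧ g e = 0) ∧
        g' x = 0 ∧ g' y = 0 := by
      obtain ⟨e, he, k, hk, h6, h7, h8⟩ := h.pair [u, g] [y] (by simp [hu, hg]) (by simp [hy]) (by simp)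
      simp only [List.mem_cons, List.not_mem_nil, or_false, forall_eq_or_imp, forall_eq] at h7 h8
      exact ⟨e, he, k - k x • g, fun z hz => K.sub_mem (hk z hz) (K.mul_mem (hk x hx) (hg z hz)),
        by simp [h6, h7.2], h7, by simp [h2], by simp [h8, h3]⟩
    simp only [List.mem_cons, List.not_mem_nil, or_false, forall_eq_or_imp, forall_eq] at h4
    obtain ⟨y', h9, h10, h11, h12, h13⟩ : ∃ y' ∈ L, f y' ≠ 0 ∧ u y' = 0 ∧ g y' = 0 ∧ g' y' = 1 := by
      by_cases h9 : f e = 0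
      · exact ⟨y + e, L.add_mem hy he, by simpa [h9], by simp [h4, h7], by simp [h3, h7],
          by simp [h8, h6]⟩
      · exact ⟨e, he, h9, h7.1, h7.2, h6⟩
    have key : ∀ y ∈ L, f y ≠ 0 → u y = 0 → ∃ γ ∈ M, ∃ μ : F, μ ≠ 0 ∧
        (∀ x, f x = 0 → u x = 0 → γ x = x) ∧ γ y = μ • v := fun y hy h14 h15 => by
      obtain ⟨b, hb, hb'⟩ := h.mem y hy u hu h15
      obtain ⟨γ, h16, μ, h17, h18, h19⟩ := exists_weyl (MonoidHom.id _) ha hb h14 h5
      exact ⟨γ, h16, μ, h17, fun x h20 h21 => h18 x (by simp [ha', h20]) (by simp [hb', h21]),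
        h19 v y (by simp [ha', h0]) (ha' y) (by simp [hb', h15]) (hb' v)⟩
    obtain ⟨γ, h14, μ, h15, h16, h17⟩ := key y hy hy' h4.2
    obtain ⟨γ', h18, μ', h19, h20, h21⟩ := key y' h9 h10 h11
    have h22 : ∀ x, u x = 0 → (γ'⁻¹ * γ) x = x - (f x / f y) • y + (f x / f y * μ * μ'⁻¹) • y' :=
      fun x hx => by
        rw [LinearEquiv.mul_apply, LinearEquiv.coe_inv, LinearEquiv.symm_apply_eq, map_add,
          h20 _ (by simp [hy']) (by simp [hx, h4]), ← h16 (x - _) (by simp [hy']) (by simp [hx, h4]),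
          map_sub, map_smul, map_smul, h21, h17, smul_smul, smul_smul, inv_mul_cancel_right₀ h19,
          sub_add_cancel]
    obtain ⟨c, h23, h24⟩ := h.exists_smul_map_mem hc (M.mul_mem (M.inv_mem h18) h14) hu
      (by rintro rfl; simp at h5) fun x _ hx => by simp [h22 x hx, hx, h4, h11]
    have h25 := h24 x hx h4.1
    rw [h22 x h4.1] at h25
    have h26 : c ∈ K := by simpa [h2, h3, h12] using hg _ h25
    have h27 : c * (f x / f y * μ * μ'⁻¹) ∈ K := by simpa [h8, h13] using hg' _ h25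
    have h28 := hw _ (L.sub_mem (L.add_mem (Form.RatS.smul_mem h26 hx) (Form.RatS.smul_mem h27 h9)) h25)
    refine Form.mem_of_mul_mem ?_ h26 h23
    convert h28 using 1
    simp [hw']; ring
  have h3 : RatF L ((f y)⁻¹ • f) := fun x hx => by
    obtain ⟨e, he, g, hg, h3, -, h4⟩ := h.pair [] [x, y] (by simp) (by simp [hx, hy]) (by simp)
    simp only [List.mem_cons, List.not_mem_nil, or_false, forall_eq_or_imp, forall_eq] at h4
    convert K.sub_mem (h2 _ (L.add_mem hx he) g hg (by simp [h3, h4]) h4.2) (h2 e he g hg h3 h4.2) using 1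
    simp; ring
  refine ⟨f y, hy', h.mem_of_tv hc h3 (by simp [hy', hf]) (by simp [h0]) ((tv_smul _).2 ?_)⟩
  simpa [smul_smul, hy'] using ht

end rat

theorem exists_smul_of_forall {g : V ≃ₗ[F] V} (H : ∀ y ∈ L, ∃ c : F, c ≠ 0 ∧ c • g y ∈ L) :
    ∃ c : F, c ≠ 0 ∧ ∀ x ∈ L, c • g x ∈ L := by
  have h1 : ∀ y ∈ L, ∀ z ∈ L, y ∉ F ∙ z → z ≠ 0 →
      ∀ c : F, c ≠ 0 → c • g y ∈ L → c • g z ∈ L := fun y hy z hz h5 h6 c hc h7 => by
    obtain ⟨a, ha, h8⟩ := H _ (L.add_mem hy hz)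
    obtain ⟨b, hb, h9⟩ := H z hz
    have h10 : ∀ y z : V, y ∉ F ∙ z → ∀ b c : F, b ≠ 0 → c ≠ 0 → c • g y ∈ L → b • g z ∈ L →
        a • g (y + z) ∈ L → a / c ∈ K := fun y z h10 b c hb hc h11 h12 h13 => by
      obtain ⟨w, hw, h14, h15⟩ := h.exists_sep (W := F ∙ g z) h11 fun h0 => by
        obtain ⟨d, hd⟩ := Submodule.mem_span_singleton.1 h0
        exact h10 (Submodule.mem_span_singleton.2 ⟨c⁻¹ * d, g.injective (by
          rw [map_smul, mul_smul, hd, smul_smul, inv_mul_cancel₀ hc, one_smul])⟩)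
      have h16 : w (g z) = 0 := by
        simpa [hb] using h14 _ h12 (Submodule.smul_mem _ _ (Submodule.mem_span_singleton_self _))
      convert hw _ h13 using 1
      simp only [map_smul, map_add, smul_eq_mul, h16, add_zero] at h15 ⊢
      rw [div_eq_iff hc, mul_assoc, mul_comm _ c, h15, mul_one]
    have h11 := h10 y z h5 b c hb hc h7 h9 h8
    have h12 := h10 z y (Form.not_mem_span_singleton_symm h6 h5) c b hc hb h9 h7 (add_comm y z ▸ h8)
    convert Form.RatS.smul_mem (K.div_mem h12 h11) h9 using 1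
    rw [smul_smul]; congr 1; field_simp
  obtain ⟨p, hp, f, hf, h3, -⟩ := h.pair [] [] (by simp) (by simp) (by simp)
  obtain ⟨c, hc, h2⟩ := H p hp
  refine ⟨c, hc, fun z hz => ?_⟩
  by_cases hz0 : z = 0
  · simp [hz0]
  obtain ⟨e, he, e', he', h4, -, h6⟩ := h.pair [] [p, z] (by simp) (by simp [hp, hz]) (by simp)
  simp only [List.mem_cons, List.not_mem_nil, or_false, forall_eq_or_imp, forall_eq] at h6
  have h5 : ∀ x, e' x = 0 → e ∉ F ∙ x := fun x hx h0 => by
    obtain ⟨a, rfl⟩ := Submodule.mem_span_singleton.1 h0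
    simp [hx] at h4
  exact h1 e he z hz (h5 z h6.2) hz0 c hc (h1 p hp e he (Form.not_mem_span_singleton_symm
    (by rintro rfl; simp at h3) (h5 p h6.1)) (by rintro rfl; simp at h4) c hc h2)

theorem dichotomy [Finite F] (hK : (finrank K F).Prime) :
    (∀ v, v ∈ fullSub M) ∨ ∀ g ∈ M, ∃ c : F, c ≠ 0 ∧ ∀ x ∈ L, c • g x ∈ L := by
  have := Subalgebra.isSimpleOrder_of_finrank_prime K F hK
  rcases eq_bot_or_eq_top h.coefAlg with h0 | h0
  swap
  · exact Or.inl (h.mem_fullSub_of_coef fun c => (h0.ge Algebra.mem_top : c ∈ h.coefAlg))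
  have hc : ∀ c, Coef L M c → c ∈ K := fun c hc => by
    obtain ⟨a, rfl⟩ := Algebra.mem_bot.1 (h0.le hc)
    exact a.2
  refine Or.inr fun g hg => h.exists_smul_of_forall fun y hy => ?_
  obtain ⟨e, he, f, hf, h1, -, h2⟩ := h.pair [] [y] (by simp) (by simpa) (by simp)
  exact h.exists_smul_mem_of_tv hc (fun h0 => by simpa [h1] using LinearMap.congr_fun h0 (g e))
    (by simpa using h2) ((h.mem y hy f hf (by simpa using h2)).conj hg)

end RatL4

section gl
open Matrix Cfsg Cfsg.Geo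

theorem isMaximalIn_subfield_sl4 [Finite F] {n : ℕ} (hn : 4 ≤ n) {K : Subfield F} (P : GL (Fin n) F)
    (hK : (finrank K F).Prime) :
    IsMaximalIn (specialLinear (Fin n) F) (subfieldSubgroup K P ⊓ specialLinear (Fin n) F) := by
  have h0 : ∃ (m : ℕ) (b : Basis (Fin m) F (Fin n → F)), 4 ≤ m ∧
      ∀ x, x ∈ ratL K P ↔ ∀ i, b.repr x i ∈ K :=
    ⟨n, (Pi.basisFun F _).map (glEquiv P), hn, fun x => by
      rw [mem_ratL, ← glEquiv_apply, map_inv]; rfl⟩
  refine ⟨lt_of_le_of_ne inf_le_right fun h1 => ?_, fun M hM hM' => ?_⟩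
  · have h : RatL4 K (ratL K P) ⊤ := ⟨h0, fun p _ f _ hf => by
      obtain ⟨g, -, hg⟩ := exists_sl_tv p f hf
      exact ⟨glEquiv g, trivial, hg⟩⟩
    obtain ⟨c, hc⟩ := exists_not_mem_of_prime hK
    obtain ⟨p, hp, f, hf, h2, -⟩ := h.pair [] [] (by simp) (by simp) (by simp)
    obtain ⟨e, he, e', he', h4, h5, h6⟩ := h.pair [f] [p] (by simpa) (by simpa) (by simp)
    simp only [List.mem_singleton, forall_eq] at h5 h6
    obtain ⟨g, hg, hg'⟩ := exists_sl_tv p (c • e') (by simp [h6])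
    obtain ⟨d, hd, h7⟩ := mem_subfieldSubgroup_iff.1 (h1.ge hg).1
    exact hc (Form.mem_of_mul_mem (a := d) (by simpa [hg', h2, h4, h5] using hf _ (h7 e he))
      (by simpa [hg', h2, h6] using hf _ (h7 p hp)) hd)
  rcases RatL4.dichotomy (M := M.map glEquiv.toMonoidHom) ⟨h0, fun p hp f hf h1 => by
    obtain ⟨g, hg, hg'⟩ := exists_sl_tv p f h1
    exact ⟨glEquiv g, Subgroup.mem_map_of_mem _ (hM ⟨mem_subfieldSubgroup_iff.2 ⟨1, one_ne_zero,
      fun x hx => by rw [one_smul, hg']; exact add_mem hx (Form.RatS.smul_mem (hf x hx) hp)⟩, hg⟩),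
      hg'⟩⟩ hK with h1 | h1
  · exact Or.inr (le_antisymm hM' (specialLinear_le_of_fullSub h1))
  · exact Or.inl (le_antisymm (le_inf (fun g hg => mem_subfieldSubgroup_iff.2
      (h1 _ (Subgroup.mem_map_of_mem _ hg))) hM') hM)

end gl

theorem _root_.H20.sl4_5 {F : Type*} [Field F] [Fintype F] :
    ∀ (F₀ : Subfield F) (r : ℕ) (P : Matrix.GeneralLinearGroup (Fin 4) F), r.Prime → Fintype.card F = Nat.card F₀ ^ r → Cfsg.Geo.IsMaximalIn (Cfsg.Geo.specialLinear (Fin 4) F) (Cfsg.Geo.subfieldSubgroup F₀ P ⊓ Cfsg.Geo.specialLinear (Fin 4) F) :=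
  fun _ _ P hr h => isMaximalIn_subfield_sl4 le_rfl P (H10.finrank_eq_of_card h ▸ hr)

end H20.S45
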