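import Cfsg.Agent.L.Jt0
import Cfsg.Agent.H14.P24

/-! Part O4 of the 3-local cluster (S5564). -/

set_option autoImplicit false
open Cfsg BG Subgroup L.Jt

namespace H20.TO4
universe u

theorem sm {K : Type*} [Group K] [Finite K] (n : ℕ) (l : n ≤ 2) (c : Nat.card K = 3 ^ n) (x y : K) : x * y = y * x := by
  have : Fact (Nat.Prime 3) := ⟨Nat.prime_three⟩
  rcases Nat.lt_or_eq_of_le l with l | rfl
  · have : IsCyclic K := isCyclic_of_card_dvd_prime (p := 3) (c ▸ (pow_dvd_pow 3 (by omega : n ≤ 1)))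
    exact (IsCyclic.isMulCommutative (α := K)).is_comm.comm x y
  · exact (IsPGroup.isMulCommutative_of_card_eq_prime_sq c).is_comm.comm x y

theorem syl {H P : Type*} [Group H] [Finite H] [Group P] [Finite P] (θ : H →* P) (cP : ¬ 27 ∣ Nat.card P) {w d : H}
    (w2 : w ^ 2 = 1) (d3 : orderOf d = 3) (dz : ∀ g, g * d = d * g) (ker : ∀ x, θ x = 1 → ∃ i j : ℕ, x = w ^ i * d ^ j)
    (dc : d ∈ commutator H) (R : Sylow 3 H) : d ∈ R.1 ∧ Nat.card R.1 = 27 ∧ (∀ y ∈ R.1, θ y = 1 → y ∈ zpowers d) ∧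
      ∀ y ∈ R.1, y ∉ zpowers d → ∃ r ∈ R.1, r * y * r⁻¹ = d * y ∨ r * y * r⁻¹ = d⁻¹ * y := by
  classical
  have : Fact (Nat.Prime 3) := ⟨Nat.prime_three⟩
  have cd : Nat.card (zpowers d) = 3 := by rw [Nat.card_zpowers, d3]
  have nd : (zpowers d).Normal := ⟨by
    rintro _ ⟨k, rfl⟩ g
    exact ⟨k, by rw [((show Commute g d from dz g).zpow_right k).eq, mul_inv_cancel_right]⟩⟩
  have dR : d ∈ R.1 := (IsPGroup.of_card (n := 1) cd).le_sylow_of_normal R (mem_zpowers d)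
  obtain ⟨a, ca⟩ := IsPGroup.iff_card.1 R.2
  have kR : ∀ y ∈ R.1, θ y = 1 → y ∈ zpowers d := fun y i e => by
    obtain ⟨m, n, e⟩ := ker y e
    have j : w ^ m ∈ R.1 := by rw [eq_mul_inv_of_mul_eq e.symm]; exact mul_mem i (inv_mem (pow_mem dR n))
    have o1 : orderOf (w ^ m) ∣ 3 ^ a := ca ▸ orderOf_dvd_natCard _ j
    have o2 : orderOf (w ^ m) ∣ 2 := orderOf_dvd_of_pow_eq_one (by rw [← pow_mul, mul_comm, pow_mul, w2, one_pow])
    rw [e, orderOf_eq_one_iff.1 (Nat.eq_one_of_dvd_coprimes (Nat.Coprime.pow_left a (by norm_num)) o1 o2), one_mul]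
    exact pow_mem (mem_zpowers d) n
  have na : ¬ ∀ x ∈ R.1, ∀ y ∈ R.1, x * y = y * x := fun k => by
    have a1 := MonoidHom.transfer_eq_pow (Abelianization.of : R.1 →* _) d fun k g _ => by
      rw [mul_assoc, ← ((show Commute g d from dz g).pow_right k).eq, inv_mul_cancel_left]
    rw [MonoidHom.mem_ker.1 (Abelianization.commutator_subset_ker (MonoidHom.transfer (Abelianization.of : R.1 →* _)) dc),
      eq_comm, ← MonoidHom.mem_ker, Abelianization.ker_of] at a1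
    have a2 : d ^ R.1.index ∈ ⁅R.1, R.1⁆ := map_subtype_commutator R.1 ▸ ⟨_, a1, rfl⟩
    rw [comm_eq_bot.2 (le_cent_iff.2 k), mem_bot, ← orderOf_dvd_iff_pow_eq_one, d3] at a2
    exact R.not_dvd_index a2
  obtain ⟨b, cb⟩ := IsPGroup.iff_card.1 (R.2.map θ)
  have b2 : b ≤ 2 := by
    by_contra n
    exact cP ((pow_dvd_pow 3 (by omega : 3 ≤ b)).trans (cb ▸ card_subgroup_dvd_card _))
  have a3 : a ≤ 3 := by
    have a1 := card_inf_mul_relIndex θ.ker R.1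
    rw [relIndex_ker, cb, ca] at a1
    have a2 := card_le_of_le (show θ.ker ⊓ R.1 ≤ zpowers d from fun y i => kR y i.2 i.1)
    rw [cd] at a2
    have : 3 ^ b ≤ 3 ^ 2 := Nat.pow_le_pow_right (by norm_num) b2
    exact (Nat.pow_le_pow_iff_right (by norm_num : 1 < 3)).1 (by nlinarith)
  obtain rfl : a = 3 := le_antisymm a3 (by
    by_contra n
    exact na fun x i y j => congrArg Subtype.val (sm a (by omega) ca (⟨x, i⟩ : R.1) ⟨y, j⟩))
  refine ⟨dR, ca, kR, fun y i n => ?_⟩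
  obtain ⟨r, j, k⟩ : ∃ r ∈ R.1, r * y ≠ y * r := by
    by_contra! k
    obtain ⟨c, cc⟩ := IsPGroup.iff_card.1 (R.2.to_subgroup (center R.1))
    have l : (zpowers d).subgroupOf R.1 < center R.1 := lt_of_le_of_ne (by
      rintro ⟨_, o⟩ ⟨m, rfl⟩
      exact mem_center_iff.2 fun g => Subtype.ext ((show Commute g.1 d from dz g).zpow_right m).eq) fun e =>
      n (e.ge (mem_center_iff.2 fun g => Subtype.ext (k g g.2) : (⟨y, i⟩ : R.1) ∈ center R.1))
    have l' : Nat.card ((zpowers d).subgroupOf R.1) < Nat.card (center R.1) :=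
      lt_of_not_ge fun k => l.ne (Subgroup.eq_of_le_of_card_ge l.le k)
    rw [Nat.card_congr (subgroupOfEquivOfLe (zpowers_le.2 dR)).toEquiv, cd, cc] at l'
    have c2 : 1 < c := (Nat.pow_lt_pow_iff_right (by norm_num : 1 < 3)).1 l'
    have a1 := (center R.1).card_mul_index
    rw [cc, ca] at a1
    have : IsCyclic (R.1 ⧸ center R.1) := isCyclic_of_card_dvd_prime (p := 3) (by
      obtain ⟨c, rfl⟩ := Nat.exists_eq_add_of_le' c2
      exact ⟨3 ^ c, by rw [← index_eq_card]; rw [pow_add] at a1; linarith⟩)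
    exact na fun x i y j => congrArg Subtype.val (commutative_of_cyclic_center_quotient (QuotientGroup.mk' _)
      (QuotientGroup.ker_mk' _).le (⟨x, i⟩ : R.1) ⟨y, j⟩)
  have m := kR _ (mul_mem (mul_mem (mul_mem j i) (inv_mem j)) (inv_mem i)) (by
    have := congrArg Subtype.val (sm b b2 cb (⟨θ r, r, j, rfl⟩ : R.1.map θ) ⟨θ y, y, i, rfl⟩)
    simp only [map_mul, map_inv]
    rw [show θ r * θ y = θ y * θ r from this]; group)
  have d3' : d * (d * d) = 1 := by rw [← pow_three, ← d3, pow_orderOf_eq_one]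
  rw [mem_zpowers_iff_mem_range_orderOf, d3] at m
  simp only [Finset.mem_image, Finset.mem_range] at m
  obtain ⟨t, m, e⟩ := m
  refine ⟨r, j, ?_⟩
  obtain _ | _ | _ | t := t
  · exact absurd (mul_inv_eq_iff_eq_mul.1 (mul_inv_eq_one.1 (e.symm.trans (pow_zero d)))) k
  · exact .inl (mul_inv_eq_iff_eq_mul.1 (by simpa using e.symm))
  · exact .inr (mul_inv_eq_iff_eq_mul.1 (by rw [inv_eq_of_mul_eq_one_right d3', ← e]; simp [pow_succ]))
  · omega

theorem o4 : O4Stmt.{u} := by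
  intro G _ _ z δ θ h M2
  classical
  have : Fact (Nat.Prime 3) := ⟨Nat.prime_three⟩
  have δX : δ ∈ C_[z] ⊓ C_[δ] := ⟨h.δz, mem_cent1_self δ⟩
  have zX : z ∈ C_[z] ⊓ C_[δ] := ⟨mem_cent1_self z, mem_cent1_comm.1 h.δz⟩
  have d3 : orderOf (⟨δ, δX⟩ : ↥(C_[z] ⊓ C_[δ])) = 3 := (Subgroup.orderOf_coe _).symm.trans h.δ3
  have dz : ∀ g : ↥(C_[z] ⊓ C_[δ]), g * ⟨δ, δX⟩ = ⟨δ, δX⟩ * g := fun g => Subtype.ext (mem_cent1.1 g.2.2)
  have S := syl θ (by rw [H14.card_M22]; norm_num) (w := ⟨z, zX⟩)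
    (Subtype.ext (show z ^ 2 = 1 from h.z2 ▸ pow_orderOf_eq_one z)) d3 dz
    (fun x e => ((h.ker x).1 e).imp fun i => Exists.imp fun j e => Subtype.ext e) (by
      obtain ⟨y, i, e⟩ := (map_subtype_commutator _).ge h.dc
      obtain rfl : y = ⟨δ, δX⟩ := Subtype.ext e
      exact i)
  generalize hd : (⟨δ, δX⟩ : ↥(C_[z] ⊓ C_[δ])) = d at d3 dz S
  have dδ : d.1 = δ := hd ▸ rfl
  have d3' : d * (d * d) = 1 := by rw [← pow_three, ← d3, pow_orderOf_eq_one]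
  have pg : ∀ {K : Type u} [Group K] [Finite K] (y : K), y ^ 3 = 1 → IsPGroup 3 (zpowers y) := fun y e => by
    obtain ⟨n, -, k⟩ := (Nat.dvd_prime_pow Nat.prime_three (m := 1)).1 (orderOf_dvd_of_pow_eq_one e)
    exact IsPGroup.of_card (n := n) (by rw [Nat.card_zpowers, k])
  have c1 : ∀ y : ↥(C_[z] ⊓ C_[δ]), y ^ 3 = 1 → y ∉ zpowers d → θ y ≠ 1 ∧ IsConj y (d * y) := fun y e n => by
    obtain ⟨R, l⟩ := (pg y e).exists_le_sylow
    obtain ⟨-, -, k, k'⟩ := S R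
    refine ⟨fun o => n (k y (l (mem_zpowers y)) o), ?_⟩
    obtain ⟨r, -, o | o⟩ := k' y (l (mem_zpowers y)) n
    · exact isConj_iff.2 ⟨r, o⟩
    · refine isConj_iff.2 ⟨r * r, ?_⟩
      rw [show r * r * y * (r * r)⁻¹ = r * (r * y * r⁻¹) * r⁻¹ by group, o, ← conj_mul, o,
        show r * d⁻¹ * r⁻¹ = d⁻¹ by rw [← conj_inv, dz, mul_inv_cancel_right], ← mul_assoc, ← mul_inv_rev,
        ← inv_eq_of_mul_eq_one_right d3', inv_inv]
  have c2 : ∀ (n : ℕ) (y : ↥(C_[z] ⊓ C_[δ])), y ^ 3 = 1 → y ∉ zpowers d → IsConj y (d ^ n * y) := fun n y e k => by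
    induction n with
    | zero => rw [pow_zero, one_mul]
    | succ n ih =>
      rw [pow_succ', mul_assoc]
      exact ih.trans (c1 _ (by
        rw [((show Commute y d from dz y).symm.pow_left n).mul_pow, e, ← pow_mul, mul_comm n, pow_mul, pow_three, d3']; simp)
        fun o => k ((mul_mem_cancel_left (pow_mem (mem_zpowers d) n)).1 o)).2
  have c3 : ∀ x y : ↥(C_[z] ⊓ C_[δ]), x ^ 3 = 1 → x ∉ zpowers d → y ^ 3 = 1 → y ∉ zpowers d → IsConj x y := fun x y a a' b b' => by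
    obtain ⟨g, e⟩ := isConj_iff.1 (M2 _ _ (orderOf_eq_prime (by rw [← map_pow, a, map_one]) (c1 x a a').1)
      (orderOf_eq_prime (by rw [← map_pow, b, map_one]) (c1 y b b').1))
    obtain ⟨g, rfl⟩ := h.sur g
    obtain ⟨i, j, e'⟩ := (h.ker (g * x * g⁻¹ * y⁻¹)).1 (by simp [e])
    have e2 : g * x * g⁻¹ = ⟨z, zX⟩ ^ i * (d ^ j * y) := by
      rw [← mul_assoc, ← mul_inv_eq_iff_eq_mul]; exact Subtype.ext (by simpa [dδ] using e')
    have cz : Commute (⟨z, zX⟩ : ↥(C_[z] ⊓ C_[δ])) (d ^ j * y) := Subtype.ext (mem_cent1.1 (d ^ j * y).2.1).symm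
    have e3 := congrArg (· ^ 3) e2
    simp only [conj_pow, a, (cz.pow_left i).mul_pow, ((show Commute y d from dz y).symm.pow_left j).mul_pow, b] at e3
    rw [← pow_mul d, mul_comm j, pow_mul d, pow_three d, d3', pow_succ, ← pow_mul, mul_comm i, pow_mul,
      show (⟨z, zX⟩ : ↥(C_[z] ⊓ C_[δ])) ^ 2 = 1 from Subtype.ext (show z ^ 2 = 1 from h.z2 ▸ pow_orderOf_eq_one z)] at e3
    simp only [one_pow, mul_one, one_mul, mul_inv_cancel] at e3
    rw [← e3, one_mul] at e2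
    exact (isConj_iff.2 ⟨g, e2⟩).trans (c2 j y b b').symm
  have zp : ∀ y : ↥(C_[z] ⊓ C_[δ]), y ∈ zpowers d ↔ y.1 ∈ zpowers δ := fun y =>
    ⟨fun ⟨k, e⟩ => ⟨k, by simpa [dδ] using congrArg Subtype.val e⟩, fun ⟨k, e⟩ => ⟨k, Subtype.ext (by simpa [dδ] using e)⟩⟩
  obtain ⟨R⟩ : Nonempty (Sylow 3 ↥(C_[z] ⊓ C_[δ])) := inferInstance
  obtain ⟨r1, r2, -, r4⟩ := S R
  have l0 : R.1.map (C_[z] ⊓ C_[δ]).subtype ≤ C_[z] := (map_subtype_le _).trans inf_le_left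
  have s1 : IsSylowIn 3 (R.1.map (C_[z] ⊓ C_[δ]).subtype) C_[z] := isSylowIn_mk Nat.prime_three l0 (R.2.map _) fun k =>
    h.c81 (by rw [← card_mul_relIndex l0, card_map_of_injective (subtype_injective _), r2]; exact Nat.mul_dvd_mul_left 27 k)
  have s2 := s1.of_norm_le Nat.prime_three le_top fun g i => h.nH g (by
    obtain ⟨y, j, e⟩ := conj_mem_of_norm i.2 (⟨d, r1, dδ⟩ : δ ∈ R.1.map (C_[z] ⊓ C_[δ]).subtype)
    rw [← e]
    by_contra n
    obtain ⟨r, k, o⟩ := r4 y j (mt (zp y).1 n)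
    obtain ⟨r', -, e'⟩ := conj_mem_of_norm' i.2 (⟨r, k, rfl⟩ : r.1 ∈ R.1.map (C_[z] ⊓ C_[δ]).subtype)
    have : r * y * r⁻¹ = y := Subtype.ext (by
      have a : r'.1 * δ = δ * r' := mem_cent1.1 r'.2.2
      rw [show r'.1 = g⁻¹ * r * g from e'] at a
      show r.1 * y * r.1⁻¹ = y
      rw [show y.1 = g * δ * g⁻¹ from e, show r.1 * (g * δ * g⁻¹) * r.1⁻¹ = g * (g⁻¹ * r * g * δ) * g⁻¹ * r.1⁻¹ by group, a]; group)
    rw [this] at o
    have : d = 1 := by rcases o with o | o <;> simpa using o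
    simp [this] at d3)
  have up : ∀ {x y : ↥(C_[z] ⊓ C_[δ])}, IsConj x y → IsConj x.1 y.1 := fun k => (C_[z] ⊓ C_[δ]).subtype.map_isConj k
  obtain ⟨x0, x1, x2, x3⟩ := h.fu
  have p0 : x0 ^ 3 = 1 := by
    obtain ⟨g, rfl⟩ := isConj_iff.1 x2
    rw [conj_pow, ← h.δ3, pow_orderOf_eq_one]; simp
  obtain ⟨g0, g1, g2⟩ := sylow_Jsub Nat.prime_three s1 (pg x0 p0) (zpowers_le.2 x1)
  obtain ⟨y0, -, e0⟩ := g2 (BG.conj_mem_cj g0 (mem_zpowers x0))
  replace e0 : y0.1 = g0 * x0 * g0⁻¹ := e0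
  suffices k : ∀ x : G, orderOf x = 3 → IsConj δ x from fun x y a b => (k x a).symm.trans (k y b)
  intro x o
  have p : x ^ 3 = 1 := o ▸ pow_orderOf_eq_one x
  obtain ⟨g, -, l⟩ := sylow_Jsub Nat.prime_three s2 (pg x p) le_top
  obtain ⟨y, -, e⟩ := l (BG.conj_mem_cj g (mem_zpowers x))
  replace e : y.1 = g * x * g⁻¹ := e
  refine IsConj.trans ?_ (isConj_iff.2 ⟨g, e.symm⟩).symm
  by_cases n : y ∈ zpowers d
  · have m := (zp y).1 n
    rw [mem_zpowers_iff_mem_range_orderOf, h.δ3] at m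
    simp only [Finset.mem_image, Finset.mem_range] at m
    obtain ⟨t, m, e'⟩ := m
    obtain _ | _ | _ | t := t
    · rw [conj_eq_one_iff.1 (e.symm.trans (e'.symm.trans (pow_zero δ)))] at o; simp at o
    · rw [← e', zero_add, pow_one]
    · obtain ⟨k, -, i⟩ := h.inv
      refine isConj_iff.2 ⟨k, i.trans ((inv_eq_of_mul_eq_one_right ?_).trans e')⟩
      rw [← pow_succ']
      exact (show δ ^ 3 = 1 from h.δ3 ▸ pow_orderOf_eq_one δ)
    · omega
  · refine (x2.trans (isConj_iff.2 ⟨g0, e0.symm⟩)).trans (up (c3 y0 y (Subtype.ext ?_) (fun k => x3 g0 g1 (e0 ▸ (zp _).1 k))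
      (Subtype.ext ?_) n))
    · show y0.1 ^ 3 = 1
      rw [e0, conj_pow, p0]; simp
    · show y.1 ^ 3 = 1
      rw [e, conj_pow, p]; simp

end H20.TO4
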