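import Cfsg.Agent.H05.Tu0
import Cfsg.Agent.H19.Blich

/-! Assembly of S4504 from the parts of `H05.Tu0`. -/

set_option autoImplicit false
open H05 Cfsg H05.Tu

namespace H20.TuF
universe u

theorem fin (R : RStmt.{u}) (I : IStmt.{u}) (S : SStmt.{u}) (A : AStmt.{u}) (O : OStmt.{u}) (D : DStmt.{u})
    (Z : ZStmt.{u}) (E : EStmt.{u}) {G : Type u} [Group G] [Finite G] (p : ℕ) (hp : p.Prime) (hdiv : p ∣ Nat.card G)
    (hsq : ¬ p ^ 2 ∣ Nat.card G) (hnn : ∀ H : Subgroup G, H.Normal → Nat.card H ≠ p) (χ : G → ℂ)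
    (hχ : Cfsg.IsCharacter G χ) (hfaith : ∀ g : G, χ g = χ 1 → g = 1) (hdeg : 2 * Cfsg.charDegree χ + 1 = p) :
    Nonempty ((G ⧸ Subgroup.center G) ≃* Matrix.ProjectiveSpecialLinearGroup (Fin 2) (ZMod p)) := by
  have : Fact p.Prime := ⟨hp⟩
  obtain ⟨P⟩ : Nonempty (Sylow p G) := inferInstance
  have hP := H19.card_sylow_eq_prime hdiv hsq P
  have nc : ¬ ∀ a b : G, a ^ p = 1 → b ^ p = 1 → Commute a b := fun k => hnn _ (H19.normal_of_commute P hP k) hP
  have h5 : 5 ≤ p := by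
    by_contra k
    have h2 := hp.two_le
    have h1 : charDegree χ = 1 := by omega
    have c1 : χ 1 = 1 := by rw [← hχ.charDegree_eq, h1]; simp
    refine nc fun a b _ _ => ?_
    have e : χ (a * b * (b * a)⁻¹) = χ 1 := by
      rw [hχ.apply_mul_of_apply_one c1, hχ.apply_mul_of_apply_one c1 a, mul_comm (χ a), ← hχ.apply_mul_of_apply_one c1,
        ← hχ.apply_mul_of_apply_one c1, mul_inv_cancel]
    exact mul_inv_eq_one.1 (hfaith _ e)
  obtain ⟨n, ρ, rfl⟩ := hχ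
  have dg : charDegree ρ.character = n := by rw [charDegree_character]; simp
  rw [dg] at hdeg
  have hρ : Function.Injective ρ := (injective_iff_map_eq_one ρ).2 fun g hg =>
    hfaith g ((character_eq_one_iff_mem_ker ρ g).2 hg)
  obtain ⟨x, o⟩ := exists_prime_orderOf_dvd_card' p hdiv
  have sy : Sy p x := ⟨o, hsq⟩
  have xp : x ^ p = 1 := o ▸ pow_orderOf_eq_one x
  obtain ⟨σ, hσ⟩ := R G p n ρ hρ
  obtain ⟨m, τ, mn, τx, ir⟩ := I G p x sy hnn n σ hσ
  obtain ⟨W, _, _, _, ρ', B, a, d⟩ := S G p x sy m τ (by omega) τx ir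
  obtain ⟨π, πx, l⟩ := O G p x sy h5 (A G p x sy h5 W ρ' B a d)
  have nk : ¬ p ∣ Nat.card π.ker := fun k => πx (H19.mem_of_pow_eq_one hp hsq k xp)
  have e : π.ker = Subgroup.center G := le_antisymm (Z G p x sy h5 hnn n ρ hρ hdeg _ inferInstance nk) l
  have xz : (x : G ⧸ Subgroup.center G) ≠ 1 := fun k => πx (l ((QuotientGroup.eq_one_iff x).1 k))
  have sy' : Sy p (x : G ⧸ Subgroup.center G) :=
    ⟨orderOf_eq_prime (by rw [← QuotientGroup.mk_pow, xp]; rfl) xz, fun h => hsq (h.trans (Subgroup.card_quotient_dvd_card _))⟩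
  rcases D _ p _ sy' h5 (QuotientGroup.lift _ π l) ((injective_iff_map_eq_one _).2 fun g hg => by
    obtain ⟨g, rfl⟩ := QuotientGroup.mk_surjective g
    exact (QuotientGroup.eq_one_iff g).2 (e.le hg)) with k | k | k
  · have mK : ∀ a : G, a ^ p = 1 → ∃ (i : ℤ) (c : G), c ∈ Subgroup.center G ∧ a = x ^ i * c := fun a ha => by
      have : ((Subgroup.zpowers (x : G ⧸ Subgroup.center G)).comap (QuotientGroup.mk' _)).Normal := k.comap _
      obtain ⟨i, hi⟩ := H19.mem_of_pow_eq_one hp hsq (M := (Subgroup.zpowers (x : G ⧸ Subgroup.center G)).comap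
        (QuotientGroup.mk' _)) (o ▸ Subgroup.orderOf_dvd_natCard _ (Subgroup.mem_zpowers _)) ha
      exact ⟨i, (x ^ i)⁻¹ * a, QuotientGroup.eq.1 hi, by group⟩
    refine absurd (fun a b ha hb => ?_) nc
    obtain ⟨i, c, hc, rfl⟩ := mK a ha
    obtain ⟨j, c', hc', rfl⟩ := mK b hb
    have u : ∀ g, Commute g c := fun g => Subgroup.mem_center_iff.1 hc g
    have u' : ∀ g, Commute g c' := fun g => Subgroup.mem_center_iff.1 hc' g
    exact (((Commute.refl x).zpow_zpow i j).mul_right (u' _)).mul_left (u _).symm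
  · exact k
  · exact absurd k (E G p x sy h5 n ρ hρ hdeg (e ▸ nk))

end H20.TuF
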