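import Cfsg.Agent.H05.Tu0
import Cfsg.Agent.H19.Blich
import Cfsg.Agent.H07.Ito

/-! Part Z of S4504: normal `p'`-subgroups are central. -/

set_option autoImplicit false
open H05 Cfsg
open scoped commutatorElement

namespace H20.TuZ
universe u

theorem red {p : ℕ} [hp : Fact p.Prime] {G : Type u} [Group G] [Finite G] (h2 : ¬ p ^ 2 ∣ Nat.card G)
    {χ : G → ℂ} (hχ : IsCharacter G χ) (hf : ∀ g, χ g = χ 1 → g = 1) (hd : 2 * charDegree χ + 1 = p)
    (hi : ¬ IsIrrCharacter G χ) {x y : G} (hx : x ^ p = 1) (hy : y ^ p = 1) : Commute x y := by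
  have := Fintype.ofFinite G
  obtain ⟨m, hm, e⟩ := hχ.exists_nat_coeff
  refine commutatorElement_eq_one_iff_commute.1 (hf _ ?_)
  rw [e]
  simp only [Finset.sum_apply, Pi.smul_apply]
  refine Finset.sum_congr rfl fun ζ _ => ?_
  by_cases h0 : m ζ = 0
  · simp [h0]
  have h0' : classInner χ ζ ≠ 0 := by simpa [hm] using h0
  have h3 := hχ.charDegree_le_of_constituent ζ.2 h0'
  have h5 : charDegree (ζ : G → ℂ) ≠ charDegree χ := fun k => hi (by
    rw [hχ.eq_of_constituent_of_degree_eq ζ.2 h0' (by rw [← hχ.charDegree_eq, ← ζ.2.isCharacter.charDegree_eq, k])]; exact ζ.2)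
  congr 1
  obtain ⟨ψ, hψ, e'⟩ := ζ.2.exists_quotient (charKer (ζ : G → ℂ)) fun _ => ζ.2.isCharacter.mem_charKer.1
  have h4 := H19.commute_of_small_deg (G := G ⧸ charKer (ζ : G → ℂ))
    (fun h => h2 (h.trans (Subgroup.card_quotient_dvd_card _))) hψ.isCharacter (fun g hg => by
      obtain ⟨g, rfl⟩ := QuotientGroup.mk_surjective g
      exact (QuotientGroup.eq_one_iff g).2 (ζ.2.isCharacter.mem_charKer.2
        ((congrFun e' g).trans (hg.trans (congrFun e' 1).symm))))
    (by rw [show charDegree ψ = charDegree (ζ : G → ℂ) by rw [charDegree, charDegree, congrFun e' 1]; rfl]; omega)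
    (x := x) (y := y) (by rw [← QuotientGroup.mk_pow, hx]; rfl) (by rw [← QuotientGroup.mk_pow, hy]; rfl)
  exact ζ.2.isCharacter.mem_charKer.1 ((QuotientGroup.eq_one_iff _).1 (commutatorElement_eq_one_iff_commute.2 h4))

theorem cen {p : ℕ} [hp : Fact p.Prime] {G : Type u} [Group G] [Finite G]
    {χ : G → ℂ} (hχ : IsCharacter G χ) (hf : ∀ g, χ g = χ 1 → g = 1) (hd : charDegree χ + 1 < p)
    {N : Subgroup G} [hN : N.Normal] (h : ¬ p ∣ Nat.card N) {y z : G} (hy : y ^ p = 1) (hz : z ∈ N) : Commute y z := by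
  set U := N ⊔ Subgroup.zpowers y
  have yU : y ∈ U := Subgroup.mem_sup_right (Subgroup.mem_zpowers y)
  have zU : z ∈ U := Subgroup.mem_sup_left hz
  have pg : IsPGroup p (Subgroup.zpowers (⟨y, yU⟩ : U)) := by
    rintro ⟨_, k, rfl⟩
    refine ⟨1, Subtype.ext (Subtype.ext ?_)⟩
    show (y ^ k) ^ (p ^ 1) = 1
    rw [pow_one, ← zpow_natCast, ← zpow_mul, mul_comm, zpow_mul, zpow_natCast, hy, one_zpow]
  have cN : Nat.card (N.subgroupOf U) = Nat.card N :=
    Nat.card_congr (Subgroup.subgroupOfEquivOfLe le_sup_left).toEquiv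
  have hs : IsPSolvable p U := by
    refine ⟨2, ![⊥, N.subgroupOf U, ⊤], rfl, rfl, Fin.monotone_iff_le_succ.2 fun i => ?_, fun i => ?_, fun i => ?_⟩
    · fin_cases i <;> simp
    · fin_cases i
      exacts [Subgroup.normal_bot, Subgroup.normal_subgroupOf, Subgroup.normal_top]
    · fin_cases i
      · refine .inr ?_
        show (Subgroup.relIndex ⊥ (N.subgroupOf U)).Coprime p
        rw [Subgroup.relIndex_bot_left, cN]
        exact ((Nat.Prime.coprime_iff_not_dvd hp.out).2 h).symm
      · refine .inl ?_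
        show ∃ m, (N.subgroupOf U).relIndex ⊤ = p ^ m
        rw [Subgroup.relIndex_top_right]
        have : N.relIndex U ∣ p ^ 1 := by
          rw [Subgroup.relIndex_sup_left, pow_one]
          exact (Subgroup.relIndex_dvd_card _ _).trans (by rw [Nat.card_zpowers]; exact orderOf_dvd_of_pow_eq_one hy)
        obtain ⟨m, -, e⟩ := (Nat.dvd_prime_pow hp.out).1 this
        exact ⟨m, e⟩
  obtain ⟨P, hP⟩ := pg.exists_le_sylow
  have nP : (P : Subgroup U).Normal := by
    by_contra n
    have := (H07.ito_small (hχ.restrict U) (fun g hg => Subtype.ext (hf g hg)) hs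
      (by rw [charDegree_restrict]; omega) P n).1
    rw [charDegree_restrict] at this; omega
  have dj : Disjoint (P : Subgroup U) (N.subgroupOf U) := by
    obtain ⟨a, ha⟩ := IsPGroup.iff_card.1 P.2
    exact (Subgroup.disjoint_of_coprime_natCard (by
      rw [ha, cN]; exact Nat.Coprime.pow_left _ ((Nat.Prime.coprime_iff_not_dvd hp.out).2 h)))
  exact congrArg Subtype.val (Subgroup.commute_of_normal_of_disjoint _ _ nP inferInstance dj ⟨y, yU⟩ ⟨z, zU⟩
    (hP (Subgroup.mem_zpowers _)) hz).eq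

theorem z : H05.Tu.ZStmt.{u} := by
  intro G _ _ p hp x hx h5 hn n ρ hρ hd N hN h z hz
  have hχ : IsCharacter G ρ.character := ⟨n, ρ, rfl⟩
  have hf : ∀ g, ρ.character g = ρ.character 1 → g = 1 := fun g hg =>
    hρ (((character_eq_one_iff_mem_ker ρ g).1 hg).trans (map_one ρ).symm)
  have dg : charDegree ρ.character = n := by rw [charDegree_character]; simp
  have mC : ∀ y : G, y ^ p = 1 → y ∈ Subgroup.centralizer ({z} : Set G) := fun y hy =>
    Subgroup.mem_centralizer_singleton_iff.2 (cen hχ hf (by omega) h hy hz).eq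
  by_cases hi : IsIrrCharacter _ (fun c : Subgroup.centralizer ({z} : Set G) => ρ.character c)
  · have := H07.mem_charCenter_of_cent hχ hi (x := z) fun c hc => Subgroup.mem_centralizer_singleton_iff.1 hc
    refine Subgroup.mem_center_iff.2 fun g => ?_
    have k := hf _ (hχ.mem_charKer.1 (mem_charCenter_iff.1 this g))
    rwa [mul_inv_eq_one, mul_inv_eq_iff_eq_mul] at k
  · obtain ⟨P⟩ : Nonempty (Sylow p G) := inferInstance
    have hP := H19.card_sylow_eq_prime (hx.o ▸ orderOf_dvd_natCard x) hx.sq P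
    exact absurd hP (hn _ (H19.normal_of_commute P hP fun a b ha hb => congrArg Subtype.val
      (red (fun k => hx.sq (k.trans (Subgroup.card_subgroup_dvd_card _))) (hχ.restrict _)
        (fun g hg => Subtype.ext (hf g hg)) (by rw [charDegree_restrict, dg, hd]) hi (x := ⟨a, mC a ha⟩) (y := ⟨b, mC b hb⟩)
        (Subtype.ext ha) (Subtype.ext hb)).eq))

end H20.TuZ
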