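import Mathlib
import Cfsg.Agent.H01.XF6
import Cfsg.Agent.S0278

/-!
# `d ∈ [M, M]` for the module of `3.U₄(3)` (namespace `H20.XfI`)

`dcomm`: the centre of `M = 3.U₄(3) ≤ SU₆(2)` lies in the derived subgroup (Sylow 3-argument in `SU₆(2)`).
-/

set_option autoImplicit false
set_option linter.unusedSectionVars false
open Cfsg Subgroup H01.XT H01.XF H10 H29 H29.F4 Matrix Module
open scoped commutatorElement

namespace H20.XfI
universe u

theorem zp3 {K : Type*} [Group K] {x : K} (e : x ^ 3 = 1) : IsPGroup 3 (zpowers x) := by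
  rintro ⟨_, k, rfl⟩
  refine ⟨1, Subtype.ext ?_⟩
  show (x ^ k) ^ 3 ^ 1 = 1
  rw [pow_one, ← zpow_natCast, ← _root_.zpow_mul, mul_comm, _root_.zpow_mul, zpow_natCast, e, _root_.one_zpow]

theorem heis {H K : Type*} [Group H] [Group K] [Finite H] [Finite K] (f : H →* K) (fi : Function.Injective f)
    (hi : ¬ 3 ∣ f.range.index) {x y Z : K} (x3 : x ^ 3 = 1) (y3 : y ^ 3 = 1) (z3 : Z ^ 3 = 1)
    (zc : ∀ g, g * Z = Z * g) (c : y * x * y⁻¹ * x⁻¹ = Z) {d : H} (e : f d = Z) : d ∈ commutator H := by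
  have : Fact (Nat.Prime 3) := ⟨Nat.prime_three⟩
  have zn : ∀ A : Subgroup K, A ≤ normalizer (zpowers Z : Subgroup K) := fun A =>
    BG.le_norm_of_cent fun g _ => by
      rw [BG.cent_zpowers]; exact BG.mem_cent1.2 (zc g)
  have p1 : IsPGroup 3 (zpowers x ⊔ zpowers Z : Subgroup K) := (zp3 x3).to_sup_of_normal_right' (zp3 z3) (zn _)
  have n1 : y ∈ normalizer (zpowers x ⊔ zpowers Z : Subgroup K) := BG.mem_norm_of_cj_le (by
    rw [BG.cj_sup, BG.cj_zpowers, BG.cj_zpowers, zc y, mul_inv_cancel_right, mul_inv_eq_iff_eq_mul.1 c]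
    exact sup_le (zpowers_le.2 (mul_mem (mem_sup_right (mem_zpowers _)) (mem_sup_left (mem_zpowers _)))) le_sup_right)
  have p2 := (zp3 y3).to_sup_of_normal_right' p1 (zpowers_le.2 n1)
  obtain ⟨Q, hQ⟩ := p2.exists_le_sylow
  obtain ⟨P⟩ : Nonempty (Sylow 3 f.range) := inferInstance
  have pP : IsPGroup 3 (P.1.map f.range.subtype) := P.2.map _
  have iP : ¬ 3 ∣ (P.1.map f.range.subtype).index := by
    rw [index_map_subtype]
    exact fun k => ((Nat.Prime.dvd_mul Nat.prime_three).1 k).elim P.not_dvd_index hi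
  obtain ⟨g, hg⟩ := MulAction.exists_smul_eq K Q (pP.toSylow iP)
  have m : ∀ t ∈ Q.1, ∃ s, f s = g * t * g⁻¹ := fun t ht => by
    have : g * t * g⁻¹ ∈ (g • Q : Sylow 3 K).1 := by
      rw [Sylow.coe_subgroup_smul]
      exact Subgroup.smul_mem_pointwise_smul t (MulAut.conj g) Q.1 ht
    rw [hg] at this
    exact map_subtype_le _ this
  obtain ⟨s, es⟩ := m x (hQ (mem_sup_right (mem_sup_left (mem_zpowers _))))
  obtain ⟨t, et⟩ := m y (hQ (mem_sup_left (mem_zpowers _)))
  have : d = ⁅t, s⁆ := fi (by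
    rw [e, commutatorElement_def, map_mul, map_mul, map_mul, map_inv, map_inv, es, et, ← mul_inv_cancel_right Z g, ← zc, ← c]
    group)
  rw [this]
  exact commutator_mem_commutator (mem_top _) (mem_top _)

theorem herm6 {A : Matrix (Fin 6) (Fin 6) F4} (h : Aᵀ * A.map (· ^ 2) = 1) (x y : Fin 6 → F4) :
    hermForm 6 F4 2 (A *ᵥ x) (A *ᵥ y) = hermForm 6 F4 2 x y := by
  have k : ∀ y : Fin 6 → F4, (fun j => (A *ᵥ y) j ^ 2) = A.map (· ^ 2) *ᵥ fun j => y j ^ 2 := fun y => funext fun j =>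
    RingHom.map_mulVec (H10.conj F4.card) A y j
  show (A *ᵥ x) ⬝ᵥ (fun j => (A *ᵥ y) j ^ 2) = x ⬝ᵥ fun j => y j ^ 2
  rw [k, dotProduct_comm, dotProduct_mulVec, ← mulVec_transpose, mulVec_mulVec, h, one_mulVec, dotProduct_comm]

def mX : Matrix (Fin 6) (Fin 6) F4 := diagonal ![i, w, v, i, w, v]
def mY : Matrix (Fin 6) (Fin 6) F4 := (Equiv.Perm.permMatrix F4 (c[0, 1, 2] * c[3, 4, 5] : Equiv.Perm (Fin 6)))
def mZ : Matrix (Fin 6) (Fin 6) F4 := diagonal fun _ => w

def gX : SU 6 F4 2 := ⟨⟨mX, by rw [mX, det_diagonal]; decide +kernel⟩, herm6 (by decide +kernel)⟩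
def gY : SU 6 F4 2 := ⟨⟨mY, by rw [mY, det_permutation]; decide +kernel⟩, herm6 (by decide +kernel)⟩
def gZ : SU 6 F4 2 := ⟨⟨mZ, by rw [mZ, det_diagonal]; decide +kernel⟩, herm6 (by decide +kernel)⟩

theorem gX3 : gX ^ 3 = 1 := Subtype.ext (Subtype.ext (show mX ^ 3 = 1 by decide +kernel))
theorem gY3 : gY ^ 3 = 1 := Subtype.ext (Subtype.ext (show mY ^ 3 = 1 by decide +kernel))
theorem gZ3 : gZ ^ 3 = 1 := Subtype.ext (Subtype.ext (show mZ ^ 3 = 1 by decide +kernel))
theorem gc : gY * gX * gY⁻¹ * gX⁻¹ = gZ := by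
  rw [mul_inv_eq_iff_eq_mul, mul_inv_eq_iff_eq_mul]
  exact Subtype.ext (Subtype.ext (show mY * mX = mZ * mX * mY by decide +kernel))
theorem gZc (g : SU 6 F4 2) : g * gZ = gZ * g := Subtype.ext (Subtype.ext (show g.1.1 * mZ = mZ * g.1.1 by
  ext a b; simp [mZ, mul_comm]))

theorem su6 : Nat.card (SU 6 F4 2) = 27590492160 := by
  have := Agent.S0278.result (F := F4) (q := 2) rfl 6 (by norm_num)
  simp only [Finset.prod_range_succ, Finset.prod_range_zero] at this
  norm_num [Nat.even_iff] at this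
  omega

variable {V : Type u} [AddCommGroup V] [Module (ZMod 2) V] [Finite V] {β : V →+ V →+ ZMod 2} {q : V → ZMod 2}

theorem coord6 (h : QF β q) {ω : V →+ V} (ω2 : ∀ x, ω (ω x) = ω x + x) (qω : ∀ x, q (ω x) = q x) :
    ∃ (κ : V →+ Fin 6 → F4) (σ : (Fin 6 → F4) →+ V), (∀ x, κ (σ x) = x) ∧ (∀ y, σ (κ y) = y) ∧
      (∀ x, σ (w • x) = ω (σ x)) ∧
      ∀ x y, hermForm 6 F4 2 y x = hf (β (σ x) (σ y)) (β (σ x) (ω (σ y))) := by
  have bω := h.inv qω
  have b1 : ∀ x y, β (ω x) y = β x (ω y) + β x y := fun x y => by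
    rw [← bω, ω2, map_add, AddMonoidHom.add_apply, bω, add_comm]
  let _ : Module F4 V :=
    { smul := sm ω
      one_smul := fun _ => rfl
      mul_smul := fun a b x => by
        show sm ω (F4.mul a b) x = sm ω a (sm ω b x)
        cases a <;> cases b <;> delta F4.mul <;> simp only [sm, map_add, map_zero, ω2] <;> exact lc0
      smul_zero := fun a => by
        show sm ω a 0 = 0
        cases a <;> simp only [sm, map_zero, add_zero]
      smul_add := fun a x y => by
        show sm ω a (x + y) = sm ω a x + sm ω a y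
        cases a <;> simp only [sm, map_add] <;> exact lc0
      add_smul := fun a b x => by
        show sm ω (F4.add a b) x = sm ω a x + sm ω b x
        cases a <;> cases b <;> delta F4.add <;> simp only [sm] <;> exact lc0
      zero_smul := fun _ => rfl }
  have s : ∀ (a : F4) (x : V), a • x = sm ω a x := fun _ _ => rfl
  have ha : ∀ a b c d, hf (a + b) (c + d) = hf a c + hf b d := by decide
  let B : V →ₛₗ[conj F4.card] V →ₗ[F4] F4 := LinearMap.mk₂'ₛₗ _ (RingHom.id _) (fun x y => hf (β x y) (β x (ω y)))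
    (fun x x' y => by simp only [map_add, AddMonoidHom.add_apply, ha])
    (fun a x y => by
      cases a <;> simp only [s, sm, map_add, map_zero, AddMonoidHom.add_apply, AddMonoidHom.zero_apply, b1, ω2, conj_apply] <;>
      generalize β x y = a, β x (ω y) = b <;> revert a b <;> decide)
    (fun x y y' => by simp only [map_add, ha])
    (fun a x y => by
      cases a <;> simp only [s, sm, map_add, map_zero, ω2] <;>
      generalize β x y = a, β x (ω y) = b <;> revert a b <;> decide)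
  have eB : ∀ x y, B x y = hf (β x y) (β x (ω y)) := fun _ _ => rfl
  have h0 : ∀ a b, hf a b = 0 ↔ a = 0 ∧ b = 0 := by decide
  let φ := Form.ofHerm (conj F4.card) (conj_conj _) (Form.exists_theta (conj_ne_id _) (conj_conj _)) B ⟨fun x y => by
    rw [eB, eB, h.sym y, h.sym y, b1, conj_apply]
    generalize β x y = a, β x (ω y) = b; revert a b; decide⟩
  have : φ.Nondeg := ⟨fun x k => h.nd x fun y => ((h0 _ _).1 (k y)).1⟩
  have u : φ.IsUnitary 2 := ⟨Form.isHerm_ofHerm _ _ _ _ _, F4.card, fun _ => rfl⟩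
  have d : finrank F4 V = 6 := by
    have := Module.natCard_eq_pow_finrank (K := F4) (V := V)
    rw [h.card, F4.card] at this
    exact Nat.pow_right_injective (a := 2 ^ 2) (by norm_num) (this.symm.trans (by norm_num : 4096 = (2 ^ 2) ^ 6))
  have ob := u.exists_orthonormal_basis
  rw [d] at ob
  obtain ⟨b, e1⟩ := ob
  replace e1 : ∀ i j, B (b i) (b j) = if i = j then 1 else 0 := e1
  have eσ : ∀ x, b.equivFun.symm x = ∑ i, x i • b i := b.equivFun_symm_apply
  have k1 : ∀ x i, B (b i) (b.equivFun.symm x) = x i := fun x i => by simp [eσ, e1]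
  refine ⟨b.equivFun.toAddEquiv.toAddMonoidHom, b.equivFun.symm.toAddEquiv.toAddMonoidHom, b.equivFun.apply_symm_apply,
    b.equivFun.symm_apply_apply, fun x => map_smul b.equivFun.symm w x, fun x y => ?_⟩
  show _ = B (b.equivFun.symm x) (b.equivFun.symm y)
  rw [eσ x]
  simp only [map_sum, map_smulₛₗ, LinearMap.sum_apply, LinearMap.smul_apply, k1, hermForm, conj_apply, smul_eq_mul, mul_comm]

variable {Γ : Type u} [Group Γ] [Finite Γ] {T : Γ → V →+ V} {d : Γ} {M X : Subgroup Γ} {a : V} {R : AddSubgroup V}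

theorem dcomm (h : Hy T d M X β q a R) : d ∈ ⁅M, M⁆ := by
  obtain ⟨κ, σ, k1, k2, k6, k7⟩ := coord6 h.toQF h.ω2 (h.qT d)
  have k5 : ∀ y, κ (T d y) = w • κ y := fun y => by rw [← k2 y, ← k6, k1, k1]
  let L : M → Module.End F4 (Fin 6 → F4) := fun g =>
    { toFun := fun x => κ (T g.1 (σ x))
      map_add' := fun x y => by simp only [map_add]
      map_smul' := fun c x => by
        have e : κ (T g.1 (σ (w • x))) = w • κ (T g.1 (σ x)) := by rw [k6, h.cω g.2, k5]
        rcases (by decide : ∀ c : F4, c = 0 ∨ c = 1 ∨ c = w ∨ c = w + 1) c with rfl | rfl | rfl | rfl <;>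
        simp [add_smul, e] }
  let A : M →* Matrix (Fin 6) (Fin 6) F4 :=
    { toFun := fun g => LinearMap.toMatrix' (L g)
      map_one' := by rw [← LinearMap.toMatrix'_one]; congr 1; exact LinearMap.ext fun x => (congrArg κ (h.one _)).trans (k1 x)
      map_mul' := fun g k => by
        rw [← LinearMap.toMatrix'_mul]; congr 1
        exact LinearMap.ext fun x => (congrArg κ (h.mul _ _ _)).trans (congrArg κ (congrArg (T g.1) (k2 _).symm)) }
  have eA : ∀ g x, A g *ᵥ x = κ (T g.1 (σ x)) := fun g x => LinearMap.toMatrix'_mulVec (L g) x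
  have eZ : A ⟨d, h.dM⟩ = mZ := by
    refine Matrix.toLin'.injective (LinearMap.ext fun x => ?_)
    rw [Matrix.toLin'_apply, Matrix.toLin'_apply, eA, k5, k1]
    funext j
    simp [mZ, mulVec_diagonal]
  let δ := (detMonoidHom.comp A).toHomUnits
  have a3 := Nat.le_of_dvd (by norm_num) ((card_subgroup_dvd_card δ.range).trans (by rw [Nat.card_units, F4.card]; rfl) :
    Nat.card δ.range ∣ 3)
  have eδ : ∀ g, g ∈ δ.ker ↔ (A g).det = 1 := fun g => by
    rw [MonoidHom.mem_ker, Units.ext_iff, MonoidHom.coe_toHomUnits, MonoidHom.comp_apply, coe_detMonoidHom, Units.val_one]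
  have dZ : mZ.det = 1 := by rw [mZ, det_diagonal]; decide +kernel
  have tp : ∀ g : M, (A g).det = 1 := by
    have : δ.ker.map M.subtype = M := by
      by_contra n
      have := h.mi _ (map_subtype_le _) ⟨⟨d, h.dM⟩, (eδ _).2 (by rw [eZ, dZ]), rfl⟩ n
      rw [relIndex, subgroupOf, comap_map_eq_self_of_injective M.subtype_injective, index_ker] at this
      omega
    intro g
    obtain ⟨k, m, e⟩ := this.ge g.2
    obtain rfl : k = g := Subtype.ext e
    exact (eδ _).1 m
  let f : M →* SU 6 F4 2 := MonoidHom.mk' (fun g => ⟨⟨A g, tp g⟩, fun x y => by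
    show hermForm 6 F4 2 (A g *ᵥ x) (A g *ᵥ y) = _
    rw [eA, eA, k7, k7, k2, k2, ← h.cω g.2, h.βT, h.βT]⟩)
    fun g k => Subtype.ext (Subtype.ext (map_mul A _ _))
  have fi : Function.Injective f := (injective_iff_map_eq_one f).2 fun g e => Subtype.ext (h.fai _ fun y => by
    replace e : A g = 1 := congrArg (·.1.1) e
    have := congrArg σ (eA g (κ y))
    rwa [e, one_mulVec, k2, k2, eq_comm] at this)
  have : Finite (SU 6 F4 2) := Nat.finite_of_card_ne_zero (by rw [su6]; norm_num)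
  have ci := f.range.card_mul_index
  rw [su6, ← Nat.card_congr (MonoidHom.ofInjective fi).toEquiv, h.cM] at ci
  have := heis f fi (by omega) gX3 gY3 gZ3 gZc gc (d := ⟨d, h.dM⟩) (Subtype.ext (Subtype.ext eZ))
  have m := mem_map_of_mem M.subtype this
  rwa [_root_.commutator, map_commutator, ← MonoidHom.range_eq_map, range_subtype] at m

end H20.XfI
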